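import Cfsg.Agent.Lib.Geometric.PauliMax.Pauli
import Cfsg.Agent.Lib.PauliFour.FrameGL

/-!
An absolutely irreducible `2`-group of symplectic type with centre of order four gives a system of Pauli
matrices, with the same normaliser.
-/

set_option autoImplicit false
set_option linter.unusedSectionVars false
set_option linter.style.haveILetI false

namespace CfsgLib.Geometric.PauliMax

open Cfsg.Geo CfsgLib.SmallDim CfsgLib.PauliFour

variable {F : Type*} [Field F] {ι : Type} [Fintype ι] [DecidableEq ι] {R : Subgroup (GL ι F)}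

theorem zero_or_one (a : ZMod 2) : a = 0 ∨ a = 1 := by
  revert a; decide

theorem sgn_add_label (a b : ZMod 2) : sgn F (a + b) = sgn F a * sgn F b := by
  have h11 : (1 : ZMod 2) + 1 = 0 := by decide
  rcases zero_or_one a with rfl | rfl <;> rcases zero_or_one b with rfl | rfl <;>
    simp [sgn_zero, sgn_one, h11]

theorem sgn_injective (h2 : (2 : F) ≠ 0) : Function.Injective (sgn F) := by
  intro a b h
  have h1 : (1 : F) ≠ -1 := fun e => h2 (by linear_combination e)
  rcases zero_or_one a with rfl | rfl <;> rcases zero_or_one b with rfl | rfl <;>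
    simp only [sgn_zero, sgn_one] at h <;> first | rfl | exact absurd h h1 | exact absurd h.symm h1

/-- A matrix commuting up to sign, for an abstract family. -/
theorem sgn_unique (h2 : (2 : F) ≠ 0) {A B : Matrix ι ι F} (hne : B * A ≠ 0) {a b : ZMod 2}
    (ha : A * B = sgn F a • (B * A)) (hb : A * B = sgn F b • (B * A)) : a = b := by
  apply sgn_injective h2
  by_contra h
  have h' : (sgn F a - sgn F b) • (B * A) = 0 := by rw [sub_smul, ← ha, ← hb, sub_self]
  exact hne ((smul_eq_zero.1 h').resolve_left (sub_ne_zero.2 h))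

theorem mul_ne_zero_of_sq {A B : Matrix ι ι F} [Nonempty ι] (hA : A * A = 1) (hB : B * B = 1) :
    A * B ≠ 0 := by
  intro h
  have : A * B * (B * A) = 1 := by rw [mul_assoc, ← mul_assoc B B, hB, one_mul, hA]
  rw [h, zero_mul] at this
  exact zero_ne_one this

/-- A Pauli group containing a square root of minus one gives a system of Pauli matrices inside it. -/
theorem exists_pauli_mem_of_isPauli [Finite F] (m : ℕ) (hι : Fintype.card ι = 2 ^ m) (h2 : (2 : F) ≠ 0)
    (hR : IsPauli R) {i : F} (hi : i * i = -1) {ie : R} (hie : mt ie = i • 1) :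
    ∃ S : Pauli (Fin (2 * m) → ZMod 2) ι F, subgroupNormalizer R = S.norm ∧ ∀ v, S.gl v ∈ R := by
  classical
  haveI : Nonempty ι := Fintype.card_pos_iff.1 (by rw [hι]; exact pow_pos (by norm_num) m)
  have hne : (Fintype.card ι : F) ≠ 0 := by
    rw [hι]; push_cast; exact pow_ne_zero m h2
  have hi0 : i ≠ 0 := fun h => by simp [h] at hi
  haveI : Finite R := inferInstance
  letI : CommGroup (R ⧸ Subgroup.center R) :=
    { (inferInstance : Group (R ⧸ Subgroup.center R)) with
      mul_comm := by
        have hsq : ∀ a : R ⧸ Subgroup.center R, a * a = 1 := by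
          intro a
          induction a using QuotientGroup.induction_on with
          | H x => exact mk_sq hR x
        intro a b
        have ha : a⁻¹ = a := inv_eq_of_mul_eq_one_right (hsq a)
        have hb : b⁻¹ = b := inv_eq_of_mul_eq_one_right (hsq b)
        have hab : (a * b)⁻¹ = a * b := inv_eq_of_mul_eq_one_right (hsq _)
        rw [← hab, mul_inv_rev, ha, hb] }
  have h2q : ∀ x : Additive (R ⧸ Subgroup.center R), 2 • x = 0 := by
    intro x
    rw [two_nsmul]
    change Additive.ofMul (x.toMul * x.toMul) = Additive.ofMul 1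
    congr 1
    generalize x.toMul = a
    induction a using QuotientGroup.induction_on with
    | H y => exact mk_sq hR y
  letI : Module (ZMod 2) (Additive (R ⧸ Subgroup.center R)) := AddCommGroup.zmodModule h2q
  have hrank : Module.finrank (ZMod 2) (Additive (R ⧸ Subgroup.center R)) = 2 * m := by
    have h1 := Module.natCard_eq_pow_finrank (K := ZMod 2) (V := Additive (R ⧸ Subgroup.center R))
    have h3 : Nat.card (Additive (R ⧸ Subgroup.center R)) = 2 ^ (2 * m) := by
      rw [Nat.card_congr Additive.toMul, card_lines hR h2 hne, hι, ← pow_add, two_mul]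
    rw [h3, Nat.card_zmod] at h1
    exact (Nat.pow_right_injective le_rfl h1).symm
  set φ := (Module.finBasisOfFinrankEq (ZMod 2) (Additive (R ⧸ Subgroup.center R)) hrank).equivFun
  let q : (Fin (2 * m) → ZMod 2) → R ⧸ Subgroup.center R := fun v => (φ.symm v).toMul
  have hq0 : q 0 = 1 := by
    show (φ.symm 0).toMul = 1
    rw [map_zero]
    rfl
  have hqadd : ∀ v w, q (v + w) = q v * q w := fun v w => by simp [q, map_add]
  have hqinj : Function.Injective q := fun v w h =>
    φ.symm.injective (Additive.toMul.injective h)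
  have hqsurj : Function.Surjective q := fun a =>
    ⟨φ (Additive.ofMul a), by simp [q]⟩
  have hrep : ∀ v, ∃ x : R, QuotientGroup.mk x = q v ∧ mt x * mt x = 1 ∧ (v = 0 → x = 1) := by
    intro v
    by_cases hv : v = 0
    · exact ⟨1, by rw [hv, hq0]; rfl, one_mul (1 : Matrix ι ι F), fun _ => rfl⟩
    obtain ⟨x, hx, c, hc0, hc⟩ := exists_sq_one hR hi hie (q v).out
    refine ⟨x, ?_, hx, fun h => absurd h hv⟩
    rw [← QuotientGroup.out_eq' (q v), eq_comm, QuotientGroup.eq]
    refine mem_center_of_scalar hR (c := c) ?_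
    show mt ((q v).out⁻¹ * x) = c • 1
    rw [mt_mul, hc, Matrix.mul_smul, ← mt_mul, inv_mul_cancel]
    rfl
  choose x hxq hxsq hx0 using hrep
  have hscal : ∀ {a b : R}, (QuotientGroup.mk a : R ⧸ Subgroup.center R) = QuotientGroup.mk b →
      ∃ c : F, c ≠ 0 ∧ mt b = c • mt a := by
    intro a b h
    obtain ⟨c, hc0, hc⟩ := eq_smul_rep hR a
    obtain ⟨d, hd0, hd⟩ := eq_smul_rep hR b
    refine ⟨d / c, div_ne_zero hd0 hc0, ?_⟩
    show mt b = _
    rw [show mt b = _ from hd, show mt a = _ from hc, h, smul_smul, div_mul_cancel₀ _ hc0]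
  let P : (Fin (2 * m) → ZMod 2) → Matrix ι ι F := fun v => mt (x v)
  have hPne : ∀ v w, P v * P w ≠ 0 := fun v w => mul_ne_zero_of_sq (hxsq v) (hxsq w)
  let β : (Fin (2 * m) → ZMod 2) → (Fin (2 * m) → ZMod 2) → ZMod 2 := fun v w =>
    if P v * P w = P w * P v then 0 else 1
  have hβ : ∀ v w, P v * P w = sgn F (β v w) • (P w * P v) := by
    intro v w
    by_cases h : P v * P w = P w * P v
    · simp only [β, if_pos h, sgn_zero, one_smul]; exact h
    · simp only [β, if_neg h, sgn_one, neg_one_smul]
      exact (hR.comm _ (x v).2 _ (x w).2).resolve_left h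
  have hadd : ∀ v w, ∃ c : F, P (v + w) = c • (P v * P w) := by
    intro v w
    obtain ⟨c, -, hc⟩ := hscal (a := x v * x w) (b := x (v + w))
      (by rw [QuotientGroup.mk_mul, hxq, hxq, hxq, hqadd])
    exact ⟨c, by simpa [P, mt_mul] using hc⟩
  have hβl : ∀ u v w, β (u + v) w = β u w + β v w := by
    intro u v w
    obtain ⟨c, hc⟩ := hadd u v
    refine sgn_unique h2 (hPne w (u + v)) (hβ (u + v) w) ?_
    rw [sgn_add_label, hc, Matrix.smul_mul, mul_assoc, hβ v w, Matrix.mul_smul, ← mul_assoc, hβ u w,
      Matrix.smul_mul, mul_assoc, Matrix.mul_smul, smul_smul, smul_smul, smul_smul]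
    congr 1
    ring
  have hβs : ∀ v w, β v w = β w v := by
    intro v w
    refine sgn_unique h2 (hPne w v) (hβ v w) ?_
    rcases sgn_cases (F := F) (β w v) with h | h <;> rw [h]
    · rw [one_smul, hβ w v, h, one_smul]
    · rw [hβ w v, h, smul_smul, neg_mul_neg, one_mul, one_smul]
  let Bf : (Fin (2 * m) → ZMod 2) → ((Fin (2 * m) → ZMod 2) →ₗ[ZMod 2] ZMod 2) := fun v =>
    AddMonoidHom.toZModLinearMap 2
      (AddMonoidHom.mk' (β v) fun a b => by rw [hβs v, hβl, hβs a, hβs b])
  let B : (Fin (2 * m) → ZMod 2) →ₗ[ZMod 2] (Fin (2 * m) → ZMod 2) →ₗ[ZMod 2] ZMod 2 :=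
    AddMonoidHom.toZModLinearMap 2
      (AddMonoidHom.mk' Bf fun a b => LinearMap.ext fun w => hβl a b w)
  have hB : ∀ v w, B v w = β v w := fun v w => rfl
  have hli : LinearIndependent F P := by
    choose c hc0 hc using fun v => eq_smul_rep hR (x v)
    have h := ((linearIndependent_rep hR h2 hne).comp q hqinj).units_smul fun v => Units.mk0 (c v) (hc0 v)
    convert h using 1
    funext v
    show mt (x v) = _
    rw [show mt (x v) = _ from hc v, hxq]
    rfl
  refine ⟨⟨P, B, fun v => ?_, fun v hv => ?_, ?_, hxsq, fun v w => ?_, hadd, hli, ?_⟩, ?_,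
    fun v => by convert (x v).2 using 1; exact Units.ext rfl⟩
  · rw [hB]; exact if_pos rfl
  · have hcen : x v ∈ Subgroup.center R := by
      refine Subgroup.mem_center_iff.2 fun y => Subtype.ext (Units.ext ?_)
      obtain ⟨w, hw⟩ := hqsurj (QuotientGroup.mk y)
      obtain ⟨c, -, hc⟩ := hscal (a := x w) (b := y) (by rw [hxq, hw])
      show mt y * mt (x v) = mt (x v) * mt y
      have h0 : β v w = 0 := (hB v w).symm.trans (hv w)
      have := hβ v w
      rw [h0, sgn_zero, one_smul] at this
      rw [hc, Matrix.smul_mul, Matrix.mul_smul]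
      exact congrArg _ this.symm
    apply hqinj
    rw [hq0, ← hxq, QuotientGroup.eq_one_iff]
    exact hcen
  · show mt (x 0) = 1
    rw [hx0 0 rfl]; rfl
  · rw [hB]; exact hβ v w
  · rw [Fintype.card_fun, ZMod.card, Fintype.card_fin, hι, ← pow_mul, mul_comm]
  -- the normalisers agree
  refine le_antisymm (fun y hy => ?_) (fun g hg => ?_)
  · refine Pauli.mem_norm _ fun v => ?_
    have hy' := (Subgroup.mem_normalizer_iff.1 hy (x v : GL ι F)).1 (x v).2
    set r : R := ⟨_, hy'⟩ with hr
    obtain ⟨w, hw⟩ := hqsurj (QuotientGroup.mk r)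
    obtain ⟨c, -, hc⟩ := hscal (a := x w) (b := r) (by rw [hxq, hw])
    refine ⟨w, c, ?_⟩
    show (y : Matrix ι ι F) * mt (x v) = c • (mt (x w) * (y : Matrix ι ι F))
    rw [← Matrix.smul_mul, ← hc]
    show (y : Matrix ι ι F) * mt (x v) = ((y * (x v : GL ι F) * y⁻¹ : GL ι F) : Matrix ι ι F) * y
    rw [Units.val_mul, Units.val_mul, mul_assoc, Units.inv_mul, mul_one]
  · refine Subgroup.mem_normalizer_fintype fun z hz => ?_
    obtain ⟨v, hv⟩ := hqsurj (QuotientGroup.mk (⟨z, hz⟩ : R))
    obtain ⟨a, -, ha⟩ := hscal (a := x v) (b := ⟨z, hz⟩) (by rw [hxq, hv])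
    obtain ⟨w, c, hw⟩ := hg.1 v
    change (g : Matrix ι ι F) * mt (x v) = c • (mt (x w) * (g : Matrix ι ι F)) at hw
    set lam := a * c
    have hval : ((g * z * g⁻¹ : GL ι F) : Matrix ι ι F) = lam • mt (x w) := by
      rw [Units.val_mul, Units.val_mul, show (z : Matrix ι ι F) = _ from ha, Matrix.mul_smul,
        Matrix.smul_mul, hw, Matrix.smul_mul, mul_assoc, Units.mul_inv, mul_one, smul_smul]
    have hsq : ((g * z * g⁻¹ : GL ι F) : Matrix ι ι F) * ((g * z * g⁻¹ : GL ι F) : Matrix ι ι F) =
        (lam * lam) • 1 := by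
      rw [hval, Matrix.smul_mul, Matrix.mul_smul, smul_smul, hxsq]
    have hone : ∀ s : F, ((z : GL ι F) : Matrix ι ι F) * (z : Matrix ι ι F) = s • 1 →
        ((g * z * g⁻¹ : GL ι F) : Matrix ι ι F) * ((g * z * g⁻¹ : GL ι F) : Matrix ι ι F) = s • 1 := by
      intro s hs
      rw [← Units.val_mul, show g * z * g⁻¹ * (g * z * g⁻¹) = g * (z * z) * g⁻¹ by group, Units.val_mul,
        Units.val_mul, Units.val_mul, hs, Matrix.mul_smul, mul_one, Matrix.smul_mul, Units.mul_inv]
    have hinj : ∀ {s t : F}, s • (1 : Matrix ι ι F) = t • 1 → s = t := fun {s t} h =>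
      smul_left_injective F (one_ne_zero (α := Matrix ι ι F)) h
    have hlam : lam = 1 ∨ lam = -1 ∨ lam = i ∨ lam = -i := by
      rcases hR.sq z hz with h | h
      · have := hinj (hsq.symm.trans (hone 1 (by rw [one_smul]; exact h)))
        rcases mul_self_eq_one_iff.1 this with h' | h'
        · exact Or.inl h'
        · exact Or.inr (Or.inl h')
      · have := hinj (hsq.symm.trans (hone (-1) (by rw [neg_one_smul]; exact h)))
        have : (lam - i) * (lam + i) = 0 := by linear_combination this - hi
        rcases mul_eq_zero.1 this with h' | h'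
        · exact Or.inr (Or.inr (Or.inl (by linear_combination h')))
        · exact Or.inr (Or.inr (Or.inr (by linear_combination h')))
    have hsc : ∃ s : R, mt s = lam • 1 := by
      rcases hlam with h | h | h | h <;> rw [h]
      · exact ⟨1, by rw [one_smul]; rfl⟩
      · exact ⟨ie * ie, by rw [mt_mul, hie, Matrix.smul_mul, one_mul, smul_smul, hi]⟩
      · exact ⟨ie, hie⟩
      · exact ⟨ie * ie * ie, by
          rw [mt_mul, mt_mul, hie]
          simp only [Matrix.smul_mul, one_mul, smul_smul]
          rw [hi, neg_one_mul]⟩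
    obtain ⟨s, hs⟩ := hsc
    have : g * z * g⁻¹ = ((s * x w : R) : GL ι F) := Units.ext (by
      rw [hval]
      show _ = mt (s * x w)
      rw [mt_mul, hs, Matrix.smul_mul, one_mul])
    rw [SetLike.mem_coe, this]
    exact (s * x w).2

/-- A Pauli group containing a square root of minus one gives a system of Pauli matrices. -/
theorem exists_pauli_of_isPauli [Finite F] (m : ℕ) (hι : Fintype.card ι = 2 ^ m) (h2 : (2 : F) ≠ 0)
    (hR : IsPauli R) {i : F} (hi : i * i = -1) {ie : R} (hie : mt ie = i • 1) :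
    ∃ S : Pauli (Fin (2 * m) → ZMod 2) ι F, subgroupNormalizer R = S.norm :=
  (exists_pauli_mem_of_isPauli m hι h2 hR hi hie).imp fun _ h => h.1

/-- An absolutely irreducible group of symplectic type with centre of order four gives a system of Pauli
matrices inside it with the same normaliser. -/
theorem exists_pauli_mem_of_sympType [Finite F] (m : ℕ) (hm : 1 ≤ m) (hι : Fintype.card ι = 2 ^ m)
    (h2 : (2 : F) ≠ 0) {R : Subgroup (GL ι F)} (hRs : IsSymplecticTypeGroup 2 R)
    (hRi : ActsAbsolutelyIrreducibly (matrixSet R)) (hz : Nat.card (Subgroup.center R) = 4) :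
    ∃ S : Pauli (Fin (2 * m) → ZMod 2) ι F, subgroupNormalizer R = S.norm ∧ ∀ v, S.gl v ∈ R := by
  classical
  have h4 : 2 ≤ Fintype.card ι := by
    rw [hι]; exact le_trans (by norm_num) (Nat.pow_le_pow_right (by norm_num) hm)
  haveI : Nonempty ι := Fintype.card_pos_iff.1 (by omega)
  have hP := isPauli_of_sympType (by omega) hRs hRi
  choose c hc using fun z : Subgroup.center R => hP.centraliser_scalar
    (M := (((z : R) : GL ι F) : Matrix ι ι F)) (by
      rintro _ ⟨y, hy, rfl⟩
      exact congrArg (fun u : R => ((u : GL ι F) : Matrix ι ι F)) (Subgroup.mem_center_iff.1 z.2 ⟨y, hy⟩).symm)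
  have hcinj : Function.Injective c := fun z w h =>
    Subtype.ext (Subtype.ext (Units.ext (by rw [hc z, hc w, h])))
  have hsqc : ∀ z, c z * c z = 1 ∨ c z * c z = -1 := by
    intro z
    have h := hP.sq _ (z : R).2
    rw [hc z, Matrix.smul_mul, Matrix.mul_smul, smul_smul, one_mul] at h
    rcases h with h | h
    · exact Or.inl (smul_left_injective F (one_ne_zero (α := Matrix ι ι F)) (show _ = (1 : F) • _ by rw [one_smul]; exact h))
    · exact Or.inr (smul_left_injective F (one_ne_zero (α := Matrix ι ι F)) (show _ = (-1 : F) • _ by rw [neg_one_smul]; exact h))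
  obtain ⟨z, hzi⟩ : ∃ z, c z * c z = -1 := by
    by_contra! h
    have hle : Nat.card (Subgroup.center R) ≤ Nat.card ({1, -1} : Set F) :=
      Nat.card_le_card_of_injective
        (fun z => (⟨c z, by simpa using mul_self_eq_one_iff.1 ((hsqc z).resolve_right (h z))⟩ : ({1, -1} : Set F)))
        fun a b e => hcinj (congrArg Subtype.val e)
    have hins := Set.ncard_insert_le (1 : F) {-1}
    rw [Set.ncard_singleton] at hins
    rw [Nat.card_coe_set_eq, hz] at hle
    omega
  exact exists_pauli_mem_of_isPauli m hι h2 hP hzi (ie := (z : R)) (hc z)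

/-- An absolutely irreducible group of symplectic type with centre of order four gives a system of Pauli
matrices with the same normaliser. -/
theorem exists_pauli_of_sympType [Finite F] (m : ℕ) (hm : 1 ≤ m) (hι : Fintype.card ι = 2 ^ m)
    (h2 : (2 : F) ≠ 0) {R : Subgroup (GL ι F)} (hRs : IsSymplecticTypeGroup 2 R)
    (hRi : ActsAbsolutelyIrreducibly (matrixSet R)) (hz : Nat.card (Subgroup.center R) = 4) :
    ∃ S : Pauli (Fin (2 * m) → ZMod 2) ι F, subgroupNormalizer R = S.norm :=
  (exists_pauli_mem_of_sympType m hm hι h2 hRs hRi hz).imp fun _ h => h.1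

/-- The data of a class of symplectic type, with centre of order four, give a system of Pauli matrices. -/
theorem exists_pauli_of_data [Fintype F] (m : ℕ) (hm : 2 ≤ m) (hι : Fintype.card ι = 2 ^ m)
    {R : Subgroup (GL ι F)} (hR : IsLinearSymplecticTypeData 2 R) :
    ∃ S : Pauli (Fin (2 * m) → ZMod 2) ι F, subgroupNormalizer R = S.norm := by
  classical
  have h4 : 4 ≤ Fintype.card ι := by
    rw [hι]; exact le_trans (by norm_num) (Nat.pow_le_pow_right (by norm_num) hm)
  obtain ⟨p, e, hp2, hmin, hcase⟩ := hR.field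
  have hz : Nat.card (Subgroup.center R) = 4 := by
    rcases hcase with ⟨ho, -⟩ | ⟨-, -, h, -⟩ | ⟨-, -, h, -⟩
    · exact absurd ho (by decide)
    · exact h
    · omega
  have h2 : (2 : F) ≠ 0 := by
    intro h
    have : CharP F p := hmin.2.1
    have h' : ((2 : ℕ) : F) = 0 := by exact_mod_cast h
    exact hp2 ((Nat.prime_dvd_prime_iff_eq hmin.1 Nat.prime_two).1 ((CharP.cast_eq_zero_iff F p 2).1 h')).symm
  exact exists_pauli_of_sympType m (by omega) hι h2 hR.symplecticType hR.absIrred hz

/-- The interface for the eight-dimensional linear groups. -/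
theorem exists_pauli [Fintype F] {p : ℕ} (_hp : p.Prime) (_hF : Fintype.card F = p) (_h4 : p % 4 = 1)
    {R : Subgroup (GL (Fin 8) F)} (hR : IsLinearSymplecticTypeData 2 R) :
    ∃ S : Pauli (Fin 6 → ZMod 2) (Fin 8) F, subgroupNormalizer R = S.norm :=
  exists_pauli_of_data 3 (by norm_num) (by simp) hR

end CfsgLib.Geometric.PauliMax
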