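import Cfsg.Agent.Lib.Geometric.PauliMax.Pauli

/-!
The action of the normaliser of a Pauli system on its labels, with signs, and its transvection elements.
-/

set_option autoImplicit false

namespace CfsgLib.Geometric.PauliMax

open Cfsg.Geo

variable {V : Type} [AddCommGroup V] [Module (ZMod 2) V] [Fintype V] {ι : Type} [Fintype ι] [DecidableEq ι]
  {F : Type*} [Field F]

local notation "𝕄" => Matrix ι ι F

theorem sgn_ne_zero (a : ZMod 2) : sgn F a ≠ 0 := by
  rcases sgn_cases (F := F) a with h | h <;> simp [h]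

theorem sgn_inj (h2 : (2 : F) ≠ 0) {a b : ZMod 2} (h : sgn F a = sgn F b) : a = b := by
  have h' : (-1 : F) ≠ 1 := fun e => h2 (by linear_combination -e)
  have key : ∀ c : ZMod 2, c = 0 ∨ c = 1 := by decide
  rcases key a with rfl | rfl <;> rcases key b with rfl | rfl <;>
    simp_all [sgn_zero, sgn_one, Ne.symm h']

theorem sgn_add (a b : ZMod 2) : sgn F (a + b) = sgn F a * sgn F b := by
  have key : ∀ c : ZMod 2, c = 0 ∨ c = 1 := by decide
  have h11 : (1 + 1 : ZMod 2) = 0 := by decide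
  rcases key a with rfl | rfl <;> rcases key b with rfl | rfl <;> simp [sgn_zero, sgn_one, h11]

theorem sgn_sq (a : ZMod 2) : sgn F a * sgn F a = 1 := by
  rcases sgn_cases (F := F) a with h | h <;> simp [h]

theorem smul_gl_cancel {g : GL ι F} {X Y : 𝕄} (h : (g : 𝕄) * X = (g : 𝕄) * Y) : X = Y :=
  (Units.mul_right_inj g).1 h

namespace Pauli

variable (S : Pauli V ι F)

theorem eq_of_smul_P {c : F} {v w : V} (h : S.P v = c • S.P w) : v = w :=
  S.li.eq_of_smul_apply_eq_smul_apply 1 c v w one_ne_zero (by rw [one_smul]; exact h)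

theorem smul_P_inj {c d : F} (w : V) (h : c • S.P w = d • S.P w) : c = d :=
  smul_left_injective F (S.P_ne_zero w) h

theorem P_add_coeff (v w : V) : ∃ c : F, c ≠ 0 ∧ S.P (v + w) = c • (S.P v * S.P w) := by
  obtain ⟨c, hc⟩ := S.add v w
  exact ⟨c, fun h => S.P_ne_zero _ (by rw [hc, h, zero_smul]), hc⟩

/-- The image of a label. -/
noncomputable def sP (g : GL ι F) (v : V) : V :=
  haveI : Nonempty V := ⟨0⟩
  Classical.epsilon fun w => ∃ c : F, (g : 𝕄) * S.P v = c • (S.P w * (g : 𝕄))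

/-- The coefficient. -/
noncomputable def cP (g : GL ι F) (v : V) : F :=
  Classical.epsilon fun c => (g : 𝕄) * S.P v = c • (S.P (S.sP g v) * (g : 𝕄))

variable {g h : GL ι F}

theorem act_spec (hg : g ∈ S.norm) (v : V) :
    (g : 𝕄) * S.P v = S.cP g v • (S.P (S.sP g v) * (g : 𝕄)) := by
  have h1 : ∃ c : F, (g : 𝕄) * S.P v = c • (S.P (S.sP g v) * (g : 𝕄)) := by
    haveI : Nonempty V := ⟨0⟩
    exact Classical.epsilon_spec (p := fun w => ∃ c : F, (g : 𝕄) * S.P v = c • (S.P w * (g : 𝕄))) (hg.1 v)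
  exact Classical.epsilon_spec h1

theorem coeff_ne_zero {v w : V} {c : F} (h : (g : 𝕄) * S.P v = c • (S.P w * (g : 𝕄))) : c ≠ 0 := by
  rintro rfl
  rw [zero_smul] at h
  exact S.P_ne_zero v (smul_gl_cancel (h.trans (mul_zero _).symm))

theorem act_unique (hg : g ∈ S.norm) {v w : V} {c : F}
    (h : (g : 𝕄) * S.P v = c • (S.P w * (g : 𝕄))) : S.sP g v = w ∧ S.cP g v = c := by
  have h1 := (S.act_spec hg v).symm.trans h
  rw [← smul_mul_assoc, ← smul_mul_assoc, Units.mul_left_inj] at h1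
  have hc := S.coeff_ne_zero (S.act_spec hg v)
  have hw : S.sP g v = w := S.eq_of_smul_P (c := c / S.cP g v) (by
    rw [div_eq_inv_mul, ← smul_smul, ← h1, smul_smul, inv_mul_cancel₀ hc, one_smul])
  exact ⟨hw, S.smul_P_inj w (by rw [hw] at h1; exact h1)⟩

theorem cP_sq (hg : g ∈ S.norm) (v : V) : S.cP g v * S.cP g v = 1 := by
  have h : (g : 𝕄) = (S.cP g v * S.cP g v) • (g : 𝕄) := by
    calc (g : 𝕄) = (g : 𝕄) * S.P v * S.P v := by rw [mul_assoc, S.sq, mul_one]
      _ = S.cP g v • (S.P (S.sP g v) * ((g : 𝕄) * S.P v)) := by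
        conv_lhs => rw [S.act_spec hg, smul_mul_assoc, mul_assoc]
      _ = (S.cP g v * S.cP g v) • (g : 𝕄) := by
        rw [S.act_spec hg, mul_smul_comm, ← mul_assoc, S.sq, one_mul, smul_smul]
  rcases isEmpty_or_nonempty ι with hι | hι
  · exact absurd (Subsingleton.elim _ _) (S.P_ne_zero v)
  · nth_rewrite 1 [← one_smul F (g : 𝕄)] at h
    exact (smul_left_injective F (Units.ne_zero g) h).symm

theorem act_mul (hg : g ∈ S.norm) (hh : h ∈ S.norm) (v : V) :
    S.sP (g * h) v = S.sP g (S.sP h v) ∧ S.cP (g * h) v = S.cP h v * S.cP g (S.sP h v) :=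
  S.act_unique (mul_mem hg hh) (by
    rw [Units.val_mul, mul_assoc, S.act_spec hh, mul_smul_comm, ← mul_assoc, S.act_spec hg,
      smul_mul_assoc, smul_smul, mul_assoc])

theorem act_congr (hg : g ∈ S.norm) (hh : h ∈ S.norm) {a : F} (hgh : (g : 𝕄) = a • (h : 𝕄)) (v : V) :
    S.sP g v = S.sP h v ∧ S.cP g v = S.cP h v :=
  S.act_unique hg (by rw [hgh, smul_mul_assoc, S.act_spec hh, mul_smul_comm, smul_comm])

theorem act_gl (u v : V) : S.sP (S.gl u) v = v ∧ S.cP (S.gl u) v = sgn F (S.B u v) :=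
  S.act_unique (S.gl_mem_norm u) (S.comm u v)

theorem act_B (h2 : (2 : F) ≠ 0) (hg : g ∈ S.norm) (v w : V) : S.B (S.sP g v) (S.sP g w) = S.B v w := by
  have e1 : (g : 𝕄) * (S.P v * S.P w) =
      (S.cP g v * S.cP g w) • (S.P (S.sP g v) * S.P (S.sP g w) * (g : 𝕄)) := by
    rw [← mul_assoc, S.act_spec hg, smul_mul_assoc, mul_assoc, S.act_spec hg, mul_smul_comm, smul_smul,
      ← mul_assoc]
  have e2 : (g : 𝕄) * (S.P w * S.P v) =
      (S.cP g v * S.cP g w) • (S.P (S.sP g w) * S.P (S.sP g v) * (g : 𝕄)) := by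
    rw [← mul_assoc, S.act_spec hg, smul_mul_assoc, mul_assoc, S.act_spec hg, mul_smul_comm, smul_smul,
      ← mul_assoc, mul_comm (S.cP g w)]
  rw [S.comm v w, mul_smul_comm, e2, S.comm (S.sP g v), smul_mul_assoc, smul_comm] at e1
  have hne : S.P (S.sP g w) * S.P (S.sP g v) * (g : 𝕄) ≠ 0 := by
    rw [← S.coe_gl, ← S.coe_gl, ← Units.val_mul, ← Units.val_mul]
    rcases isEmpty_or_nonempty ι with hι | hι
    · exact absurd (Subsingleton.elim _ _) (S.P_ne_zero v)
    · exact Units.ne_zero _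
  have hc : S.cP g v * S.cP g w ≠ 0 := fun h0 => by
    have := congrArg₂ (· * ·) (S.cP_sq hg v) (S.cP_sq hg w)
    simp only [mul_one] at this
    rw [mul_mul_mul_comm, h0, zero_mul] at this
    exact zero_ne_one this
  exact (sgn_inj h2 (mul_right_cancel₀ hc
    (smul_left_injective F hne (by simpa [smul_smul, mul_comm] using e1)))).symm

theorem act_add (hg : g ∈ S.norm) (v w : V) :
    S.sP g (v + w) = S.sP g v + S.sP g w ∧
      (S.sP g v = v → S.sP g w = w → S.cP g (v + w) = S.cP g v * S.cP g w) := by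
  obtain ⟨c, hc0, hc⟩ := S.P_add_coeff v w
  obtain ⟨d, hd0, hd⟩ := S.P_add_coeff (S.sP g v) (S.sP g w)
  have e : (g : 𝕄) * S.P (v + w) =
      (c * (S.cP g v * S.cP g w) * d⁻¹) • (S.P (S.sP g v + S.sP g w) * (g : 𝕄)) := by
    rw [hc, mul_smul_comm, ← mul_assoc, S.act_spec hg, smul_mul_assoc, mul_assoc, S.act_spec hg,
      mul_smul_comm, smul_smul, smul_smul, hd, smul_mul_assoc, smul_smul, ← mul_assoc]
    congr 1
    field_simp
  obtain ⟨h1, h2⟩ := S.act_unique hg e
  refine ⟨h1, fun hv hw => ?_⟩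
  rw [h2]
  rw [hv, hw, hc] at hd
  have hne : S.P v * S.P w ≠ 0 := fun h0 => S.P_ne_zero (v + w) (by rw [hc, h0, smul_zero])
  rw [smul_left_injective F hne hd]
  field_simp

theorem eq_scalar_of_commute {X : 𝕄} (h : ∀ v, X * S.P v = S.P v * X) : ∃ c : F, X = c • (1 : 𝕄) := by
  have hall : ∀ Y : 𝕄, X * Y = Y * X := by
    intro Y
    have hY : Y ∈ Submodule.span F (Set.range S.P) := S.span_eq_top ▸ Submodule.mem_top
    induction hY using Submodule.span_induction with
    | mem y hy => obtain ⟨v, rfl⟩ := hy; exact h v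
    | zero => simp
    | add a b _ _ ha hb => rw [mul_add, add_mul, ha, hb]
    | smul c a _ ha => rw [mul_smul_comm, smul_mul_assoc, ha]
  obtain ⟨c, hc⟩ := Matrix.mem_range_scalar_of_commute_single (M := X) fun i j _ => (hall _).symm
  exact ⟨c, by rw [← hc, Matrix.smul_one_eq_diagonal]; rfl⟩

theorem B_surj (f : V →ₗ[ZMod 2] ZMod 2) : ∃ u, ∀ w, S.B u w = f w := by
  have hi : Function.Injective S.B := by
    rw [← LinearMap.ker_eq_bot, Submodule.eq_bot_iff]
    intro v hv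
    exact S.nondeg v fun w => by rw [LinearMap.mem_ker.1 hv]; rfl
  obtain ⟨u, hu⟩ := (LinearMap.injective_iff_surjective_of_finrank_eq_finrank
    (Module.finrank_linearMap_self (ZMod 2) (ZMod 2) V).symm).1 hi f
  exact ⟨u, fun w => LinearMap.congr_fun hu w⟩

theorem exists_of_fixed (h2 : (2 : F) ≠ 0) (hg : g ∈ S.norm) (hfix : ∀ v, S.sP g v = v) :
    ∃ (u : V) (c : F), (g : 𝕄) = c • S.P u := by
  classical
  let f : V → ZMod 2 := fun v => if S.cP g v = 1 then 0 else 1
  have hf : ∀ v, sgn F (f v) = S.cP g v := by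
    intro v
    simp only [f]
    split
    · next h => rw [sgn_zero, h]
    · next h => rw [sgn_one]; exact ((mul_self_eq_one_iff.1 (S.cP_sq hg v)).resolve_left h).symm
  obtain ⟨u, hu⟩ := S.B_surj (AddMonoidHom.toZModLinearMap 2 (AddMonoidHom.mk' f fun v w =>
    sgn_inj h2 (by rw [sgn_add, hf, hf, hf, (S.act_add hg v w).2 (hfix v) (hfix w)])))
  obtain ⟨c, hc⟩ := S.eq_scalar_of_commute (X := (g : 𝕄) * S.P u) fun v => by
    have huv : sgn F (S.B u v) = S.cP g v := by rw [hu]; exact hf v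
    rw [mul_assoc, S.comm u v, mul_smul_comm, ← mul_assoc, S.act_spec hg, smul_mul_assoc, smul_smul,
      huv, S.cP_sq hg, one_smul, hfix, mul_assoc]
  refine ⟨u, c, ?_⟩
  have := congrArg (fun Y : 𝕄 => Y * S.P u) hc
  simpa [mul_assoc, S.sq, smul_mul_assoc] using this

/-- The element `(1 + i) ⁻¹ • (1 + i P v)`. -/
def tgl (h2 : (2 : F) ≠ 0) {i : F} (hi : i * i = -1) (v : V) : GL ι F where
  val := (1 + i)⁻¹ • (1 + i • S.P v)
  inv := (1 - i)⁻¹ • (1 - i • S.P v)
  val_inv := by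
    have h1 : (1 + i) * (1 - i) = 2 := by linear_combination -hi
    have e : (1 + i • S.P v) * (1 - i • S.P v) = (2 : F) • (1 : 𝕄) := by
      rw [add_mul, mul_sub, mul_sub, mul_one, one_mul, mul_one, smul_mul_assoc, mul_smul_comm, S.sq,
        smul_smul, hi]
      module
    rw [smul_mul_assoc, mul_smul_comm, smul_smul, e, smul_smul, ← mul_inv, h1, inv_mul_cancel₀ h2, one_smul]
  inv_val := by
    have h1 : (1 - i) * (1 + i) = 2 := by linear_combination -hi
    have e : (1 - i • S.P v) * (1 + i • S.P v) = (2 : F) • (1 : 𝕄) := by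
      rw [sub_mul, mul_add, mul_add, mul_one, one_mul, mul_one, smul_mul_assoc, mul_smul_comm, S.sq,
        smul_smul, hi]
      module
    rw [smul_mul_assoc, mul_smul_comm, smul_smul, e, smul_smul, ← mul_inv, h1, inv_mul_cancel₀ h2, one_smul]

theorem coe_tgl (h2 : (2 : F) ≠ 0) {i : F} (hi : i * i = -1) (v : V) :
    ((S.tgl h2 hi v : GL ι F) : 𝕄) = (1 + i)⁻¹ • (1 + i • S.P v) := rfl

theorem tgl_comm (h2 : (2 : F) ≠ 0) {i : F} (hi : i * i = -1) (v : V) {X : 𝕄}
    (h : S.P v * X = X * S.P v) :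
    (S.tgl h2 hi v : 𝕄) * X = X * (S.tgl h2 hi v : 𝕄) := by
  rw [coe_tgl, smul_mul_assoc, mul_smul_comm, add_mul, mul_add, one_mul, mul_one, smul_mul_assoc,
    mul_smul_comm, h]

theorem tgl_anti (h2 : (2 : F) ≠ 0) {i : F} (hi : i * i = -1) (v : V) {X : 𝕄}
    (h : S.P v * X = -(X * S.P v)) :
    (S.tgl h2 hi v : 𝕄) * X = (i • (S.P v * X)) * (S.tgl h2 hi v : 𝕄) := by
  rw [coe_tgl, smul_mul_assoc, mul_smul_comm]
  congr 1
  have e : S.P v * X * S.P v = -X := by
    rw [h, neg_mul, mul_assoc, S.sq, mul_one]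
  rw [add_mul, mul_add, one_mul, mul_one, smul_mul_assoc, smul_mul_assoc, mul_smul_comm, smul_smul, e,
    hi, neg_one_smul, neg_neg, add_comm]

theorem tgl_mem_norm (h2 : (2 : F) ≠ 0) {i : F} (hi : i * i = -1) (v : V) :
    S.tgl h2 hi v ∈ S.norm ∧ ∀ w, S.sP (S.tgl h2 hi v) w = w + S.B w v • v := by
  have key : ∀ w, ∃ c : F, (S.tgl h2 hi v : 𝕄) * S.P w =
      c • (S.P (w + S.B w v • v) * (S.tgl h2 hi v : 𝕄)) := by
    intro w
    have sk : S.B v w = S.B w v := by
      have h := S.alt (v + w)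
      simp only [map_add, LinearMap.add_apply, S.alt, add_zero, zero_add] at h
      revert h; generalize S.B v w = a; generalize S.B w v = b; revert a b; decide
    have dich : ∀ c : ZMod 2, c = 0 ∨ c = 1 := by decide
    rcases dich (S.B w v) with h0 | h1
    · refine ⟨1, ?_⟩
      rw [h0, zero_smul, add_zero, one_smul]
      refine S.tgl_comm h2 hi v ?_
      rw [S.comm v w, sk, h0, sgn_zero, one_smul]
    · obtain ⟨k, hk0, hk⟩ := S.P_add_coeff v w
      refine ⟨i * k⁻¹, ?_⟩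
      rw [h1, one_smul, add_comm w v, hk]
      rw [S.tgl_anti h2 hi v (by rw [S.comm v w, sk, h1, sgn_one, neg_one_smul])]
      rw [smul_mul_assoc, smul_mul_assoc, smul_smul, mul_assoc i, inv_mul_cancel₀ hk0, mul_one]
  have hmem : S.tgl h2 hi v ∈ S.norm := S.mem_norm fun w => ⟨_, key w⟩
  exact ⟨hmem, fun w => (S.act_unique hmem (key w).choose_spec).1⟩

end Pauli

end CfsgLib.Geometric.PauliMax
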