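import Mathlib

/-!
A finite group with a subgroup `N` normalising an elementary abelian subgroup of order `2 ^ 6` and
acting on it as a group of symplectic maps: the basic facts.
-/

set_option autoImplicit false

namespace CfsgLib.Geometric.PauliMax

/-- The space of a three-qubit Pauli group modulo scalars. -/
abbrev V6 := Fin 6 → ZMod 2

theorem two_torsion (v : V6) : v + v = 0 := funext fun _ => CharTwo.add_self_eq_zero _

theorem neg_eq_self (v : V6) : -v = v := neg_eq_iff_add_eq_zero.2 (two_torsion v)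

theorem add_eq_zero_iff' (v w : V6) : v + w = 0 ↔ v = w := by
  rw [add_eq_zero_iff_eq_neg, neg_eq_self]

/-- The data: `x` embeds `V6` into `N`, `s` gives the action of `N`, `σ` the signs on fixed vectors. -/
structure Data (G : Type*) [Group G] (N : Subgroup G) where
  x : V6 → G
  B : V6 →ₗ[ZMod 2] V6 →ₗ[ZMod 2] ZMod 2
  s : G → V6 → V6
  σ : G → V6 → ZMod 2
  x_add : ∀ a b, x (a + b) = x a * x b
  x_inj : Function.Injective x
  x_mem : ∀ a, x a ∈ N
  conj : ∀ n ∈ N, ∀ v, n * x v * n⁻¹ = x (s n v)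
  alt : ∀ v, B v v = 0
  nondeg : ∀ v, (∀ w, B v w = 0) → v = 0
  pres : ∀ n ∈ N, ∀ v w, B (s n v) (s n w) = B v w
  ker : ∀ n ∈ N, (∀ v, s n v = v) → ∃ a, n = x a
  σ_mul : ∀ n ∈ N, ∀ m ∈ N, ∀ v, s n v = v → s m v = v → σ (n * m) v = σ n v + σ m v
  σ_add : ∀ n ∈ N, ∀ v w, s n v = v → s n w = w → σ n (v + w) = σ n v + σ n w
  σ_sq : ∀ n ∈ N, n * n = 1 → ∀ v, σ n (v + s n v) = B v (s n v)
  transv : ∀ v u, B u v = 1 → ∀ z ∈ N, s z v = v → s z u = u → σ z v = 0 →
    ∃ t ∈ N, t * t = 1 ∧ Commute t z ∧ ∀ w, s t w = w + B w v • v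

namespace Data

variable {G : Type*} [Group G] {N : Subgroup G} (D : Data G N)

theorem x_zero : D.x 0 = 1 := by
  have h := D.x_add 0 0
  rw [add_zero] at h
  exact mul_eq_left.1 h.symm

theorem x_eq_one {a : V6} : D.x a = 1 ↔ a = 0 :=
  ⟨fun h => D.x_inj (h.trans D.x_zero.symm), fun h => h ▸ D.x_zero⟩

theorem x_mul_self (a : V6) : D.x a * D.x a = 1 := by
  rw [← D.x_add, two_torsion, D.x_zero]

theorem x_inv (a : V6) : (D.x a)⁻¹ = D.x a := inv_eq_of_mul_eq_one_right (D.x_mul_self a)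

theorem x_commute (a b : V6) : Commute (D.x a) (D.x b) := by
  rw [Commute, SemiconjBy, ← D.x_add, ← D.x_add, add_comm]

theorem orderOf_x {a : V6} (ha : a ≠ 0) : orderOf (D.x a) = 2 :=
  orderOf_eq_prime (by rw [pow_two, D.x_mul_self]) fun h => ha (D.x_eq_one.1 h)

theorem s_one (v : V6) : D.s 1 v = v :=
  D.x_inj (by rw [← D.conj 1 (one_mem N)]; group)

theorem s_mul {n m : G} (hn : n ∈ N) (hm : m ∈ N) (v : V6) : D.s (n * m) v = D.s n (D.s m v) :=
  D.x_inj (by rw [← D.conj _ (mul_mem hn hm), ← D.conj n hn, ← D.conj m hm]; group)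

theorem s_add {n : G} (hn : n ∈ N) (v w : V6) : D.s n (v + w) = D.s n v + D.s n w :=
  D.x_inj (by rw [D.x_add, ← D.conj n hn, ← D.conj n hn, ← D.conj n hn, D.x_add]; group)

/-- The action as a linear map. -/
def L {n : G} (hn : n ∈ N) : V6 →ₗ[ZMod 2] V6 :=
  AddMonoidHom.toZModLinearMap 2 (AddMonoidHom.mk' (D.s n) (D.s_add hn))

@[simp] theorem L_apply {n : G} (hn : n ∈ N) (v : V6) : D.L hn v = D.s n v := rfl

theorem s_zero {n : G} (hn : n ∈ N) : D.s n 0 = 0 := map_zero (D.L hn)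

theorem s_inj {n : G} (hn : n ∈ N) {v w : V6} (h : D.s n v = D.s n w) : v = w := by
  have h' := congrArg (D.s n⁻¹) h
  rwa [← D.s_mul (inv_mem hn) hn, ← D.s_mul (inv_mem hn) hn, inv_mul_cancel, D.s_one, D.s_one] at h'

theorem s_x (a v : V6) : D.s (D.x a) v = v :=
  D.x_inj (by rw [← D.conj _ (D.x_mem a), (D.x_commute a v).eq, mul_inv_cancel_right])

theorem commute_x_iff {n : G} (hn : n ∈ N) {v : V6} : Commute n (D.x v) ↔ D.s n v = v := by
  constructor
  · intro h
    exact D.x_inj (by rw [← D.conj n hn, h.eq, mul_inv_cancel_right])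
  · intro h
    have := D.conj n hn v
    rw [h, mul_inv_eq_iff_eq_mul] at this
    exact this

theorem s_inv_fix {n : G} (hn : n ∈ N) {v : V6} (h : D.s n v = v) : D.s n⁻¹ v = v :=
  D.s_inj hn (by rw [← D.s_mul hn (inv_mem hn), mul_inv_cancel, D.s_one, h])

theorem s_comm {n m : G} (hn : n ∈ N) (hm : m ∈ N) (h : Commute n m) (v : V6) :
    D.s n (D.s m v) = D.s m (D.s n v) := by
  rw [← D.s_mul hn hm, ← D.s_mul hm hn, h.eq]

theorem sk (v w : V6) : D.B v w = D.B w v := by
  have h := D.alt (v + w)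
  simp only [map_add, LinearMap.add_apply, D.alt, add_zero, zero_add] at h
  rw [add_eq_zero_iff_eq_neg, CharTwo.neg_eq] at h
  exact h.symm

theorem nondeg' {v : V6} (hv : v ≠ 0) : ∃ w, D.B v w = 1 := by
  by_contra h
  push Not at h
  exact hv (D.nondeg v fun w => by have := h w; revert this; generalize D.B v w = c; revert c; decide)

theorem B_bij : Function.Bijective D.B := by
  have hi : Function.Injective D.B := by
    rw [← LinearMap.ker_eq_bot, Submodule.eq_bot_iff]
    intro v hv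
    exact D.nondeg v fun w => by rw [LinearMap.mem_ker.1 hv]; rfl
  refine ⟨hi, (LinearMap.injective_iff_surjective_of_finrank_eq_finrank ?_).1 hi⟩
  rw [Module.finrank_linearMap_self]

theorem B_nondegenerate : LinearMap.BilinForm.Nondegenerate (D.B : LinearMap.BilinForm (ZMod 2) V6) :=
  ⟨fun v h => D.nondeg v h, fun v h => D.nondeg v fun w => (D.sk v w).trans (h w)⟩

/-- Orthogonal space. -/
abbrev perp (W : Submodule (ZMod 2) V6) : Submodule (ZMod 2) V6 :=
  LinearMap.BilinForm.orthogonal (D.B : LinearMap.BilinForm (ZMod 2) V6) W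

theorem mem_perp {W : Submodule (ZMod 2) V6} {v : V6} : v ∈ D.perp W ↔ ∀ w ∈ W, D.B w v = 0 :=
  Iff.rfl

theorem finrank_perp (W : Submodule (ZMod 2) V6) :
    Module.finrank (ZMod 2) (D.perp W) = 6 - Module.finrank (ZMod 2) W := by
  rw [LinearMap.BilinForm.finrank_orthogonal D.B_nondegenerate, Module.finrank_fin_fun]

theorem perp_perp (W : Submodule (ZMod 2) V6) : D.perp (D.perp W) = W :=
  LinearMap.BilinForm.orthogonal_orthogonal D.B_nondegenerate
    (fun v w h => (D.sk w v).trans h) W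

/-- An invariant of elements of `N`, transported from the space. -/
theorem transitive {a b : V6} (ha : a ≠ 0) (hb : b ≠ 0) : ∃ n ∈ N, D.s n a = b := by
  have hσ1 : ∀ v, D.σ 1 v = 0 := fun v => by
    have h := D.σ_mul 1 (one_mem N) 1 (one_mem N) v (D.s_one v) (D.s_one v)
    rw [mul_one] at h
    exact add_eq_left.1 h.symm
  have key : ∀ {a b : V6}, D.B a b = 1 → ∃ n ∈ N, D.s n a = b := by
    intro a b h
    have hv : D.B a (a + b) = 1 := by rw [map_add, D.alt, zero_add, h]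
    obtain ⟨t, ht, -, -, htw⟩ :=
      D.transv (a + b) a hv 1 (one_mem N) (D.s_one _) (D.s_one _) (hσ1 _)
    refine ⟨t, ht, ?_⟩
    rw [htw, hv, one_smul, ← add_assoc, two_torsion, zero_add]
  obtain ⟨c, hac, hbc⟩ : ∃ c, D.B a c = 1 ∧ D.B c b = 1 := by
    obtain ⟨c1, h1⟩ := D.nondeg' ha
    obtain ⟨c2, h2⟩ := D.nondeg' hb
    rw [D.sk] at h2
    have dich : ∀ c : ZMod 2, c = 0 ∨ c = 1 := by decide
    rcases dich (D.B c1 b) with h3 | h3
    · rcases dich (D.B a c2) with h4 | h4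
      · exact ⟨c1 + c2, by rw [map_add, h1, h4, add_zero],
          by rw [map_add, LinearMap.add_apply, h3, h2, zero_add]⟩
      · exact ⟨c2, h4, h2⟩
    · exact ⟨c1, h1, h3⟩
  obtain ⟨n, hn, hna⟩ := key hac
  obtain ⟨m, hm, hmc⟩ := key hbc
  exact ⟨m * n, mul_mem hm hn, by rw [D.s_mul hm hn, hna, hmc]⟩

/-- The displacement `v ↦ s v + v`. -/
def η {n : G} (hn : n ∈ N) : V6 →ₗ[ZMod 2] V6 := D.L hn + LinearMap.id

@[simp] theorem η_apply {n : G} (hn : n ∈ N) (v : V6) : D.η hn v = D.s n v + v := rfl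

/-- Fixed space. -/
def fix {n : G} (hn : n ∈ N) : Submodule (ZMod 2) V6 := LinearMap.ker (D.η hn)

theorem mem_fix {n : G} (hn : n ∈ N) {v : V6} : v ∈ D.fix hn ↔ D.s n v = v := by
  rw [fix, LinearMap.mem_ker, η_apply, add_eq_zero_iff']

theorem inv_s {n : G} (hn : n ∈ N) (h2 : n * n = 1) (v : V6) : D.s n (D.s n v) = v := by
  rw [← D.s_mul hn hn, h2, D.s_one]

theorem range_le_fix {n : G} (hn : n ∈ N) (h2 : n * n = 1) :
    LinearMap.range (D.η hn) ≤ D.fix hn := by
  rintro _ ⟨v, rfl⟩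
  rw [mem_fix, η_apply, D.s_add hn, D.inv_s hn h2, add_comm]

theorem η_adj {n : G} (hn : n ∈ N) (h2 : n * n = 1) (v w : V6) :
    D.B (D.η hn v) w = D.B v (D.η hn w) := by
  simp only [η_apply, map_add, LinearMap.add_apply]
  conv_lhs => rw [← D.pres n hn (D.s n v) w, D.inv_s hn h2]

theorem range_eq_perp_fix {n : G} (hn : n ∈ N) (h2 : n * n = 1) :
    LinearMap.range (D.η hn) = D.perp (D.fix hn) := by
  refine Submodule.eq_of_le_of_finrank_eq ?_ ?_
  · rintro _ ⟨v, rfl⟩ w hw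
    show D.B w (D.η hn v) = 0
    rw [← D.η_adj hn h2, LinearMap.mem_ker.1 hw]
    simp
  · rw [D.finrank_perp]
    have h := LinearMap.finrank_range_add_finrank_ker (D.η hn)
    rw [Module.finrank_fin_fun] at h
    change _ = 6 - Module.finrank (ZMod 2) (LinearMap.ker (D.η hn))
    omega

theorem three_le_fix {n : G} (hn : n ∈ N) (h2 : n * n = 1) :
    3 ≤ Module.finrank (ZMod 2) (D.fix hn) := by
  have h := LinearMap.finrank_range_add_finrank_ker (D.η hn)
  have h' := Submodule.finrank_mono (D.range_le_fix hn h2)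
  rw [Module.finrank_fin_fun] at h
  unfold fix at *
  omega

/-- Every centraliser of a nontrivial element of the image of `x` lies in `N`. -/
def Local : Prop := ∀ a, a ≠ 0 → ∀ g : G, Commute g (D.x a) → g ∈ N

theorem mem_of_conj_x (hloc : D.Local) {g : G} {a b : V6} (ha : a ≠ 0)
    (h : g * D.x a * g⁻¹ = D.x b) : g ∈ N := by
  have hb : b ≠ 0 := by
    rintro rfl
    rw [D.x_zero, conj_eq_one_iff] at h
    exact ha (D.x_eq_one.1 h)
  obtain ⟨n, hn, hnb⟩ := D.transitive hb ha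
  have hc : Commute (n * g) (D.x a) := by
    have e : n * g * D.x a * (n * g)⁻¹ = D.x a := by
      rw [show n * g * D.x a * (n * g)⁻¹ = n * (g * D.x a * g⁻¹) * n⁻¹ by group, h, D.conj n hn, hnb]
    rw [mul_inv_eq_iff_eq_mul] at e
    exact e
  exact (N.mul_mem_cancel_left hn).1 (hloc a ha _ hc)

end Data

end CfsgLib.Geometric.PauliMax
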