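import Cfsg.Agent.Lib.Geometric.Centres

/-!
Subgroups normalised by the special linear group, and overgroups of two diagonal special linear blocks.
-/

set_option autoImplicit false

namespace CfsgLib.Geometric.PauliMax

open Matrix CfsgLib.Geometric

variable {κ : Type} [Fintype κ] [DecidableEq κ] {F : Type*} [Field F]

theorem exists_functional_zero_one {a c : κ → F} (hc : c ∉ Submodule.span F {a}) :
    ∃ φ : (κ → F) →ₗ[F] F, φ a = 0 ∧ φ c = 1 := by
  obtain ⟨φ, hφ, hφc⟩ := exists_functional_eq_one hc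
  exact ⟨φ, hφ a (Submodule.mem_span_singleton_self a), hφc⟩

/-- A kernel contained in another. -/
theorem exists_ker_not_ker {φ ψ : (κ → F) →ₗ[F] F} (h : ∀ c : F, φ ≠ c • ψ) :
    ∃ w, ψ w = 0 ∧ φ w ≠ 0 := by
  by_contra hc
  push Not at hc
  by_cases hψ : ∀ x, ψ x = 0
  · exact h 0 (LinearMap.ext fun x => by rw [zero_smul]; exact hc x (hψ x))
  push Not at hψ
  obtain ⟨x₀, hx₀⟩ := hψ
  refine h (φ x₀ / ψ x₀) (LinearMap.ext fun x => ?_)
  have := hc (x - (ψ x / ψ x₀) • x₀) (by simp [hx₀])
  simp only [map_sub, map_smul, smul_eq_mul, sub_eq_zero] at this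
  rw [this, LinearMap.smul_apply, smul_eq_mul]
  field_simp

/-- Three coordinates give a functional outside the span of another among those killing a vector. -/
theorem exists_not_smul (h3 : 3 ≤ Fintype.card κ) {v : κ → F} (ψ : (κ → F) →ₗ[F] F) :
    ∃ φ : (κ → F) →ₗ[F] F, φ v = 0 ∧ ∀ c : F, φ ≠ c • ψ := by
  by_cases hψ : ∀ x, ψ x = 0
  · obtain ⟨c, -, hc⟩ : ∃ c : κ → F, c ∈ (⊤ : Submodule F (κ → F)) ∧ c ∉ Submodule.span F {v} := by
      apply SetLike.exists_of_lt
      rw [lt_top_iff_ne_top]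
      intro h
      have := finrank_span_le_card (R := F) ({v} : Set (κ → F))
      rw [h, finrank_top, Module.finrank_fintype_fun_eq_card] at this
      simp at this
      omega
    obtain ⟨φ, h0, h1⟩ := exists_functional_zero_one hc
    exact ⟨φ, h0, fun d e => one_ne_zero (h1.symm.trans (by rw [e]; simp [hψ c]))⟩
  have hk : ¬ LinearMap.ker ψ ≤ Submodule.span F {v} := by
    intro hle
    have h1 := Submodule.finrank_mono hle
    have h2 := finrank_span_le_card (R := F) ({v} : Set (κ → F))
    have h4 := LinearMap.finrank_range_add_finrank_ker ψ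
    have h5 : Module.finrank F (LinearMap.range ψ) ≤ 1 :=
      (Submodule.finrank_le _).trans_eq (Module.finrank_self F)
    rw [Module.finrank_fintype_fun_eq_card] at h4
    simp at h2
    omega
  obtain ⟨c, hc, hcv⟩ := Set.not_subset.1 hk
  obtain ⟨φ, h0, h1⟩ := exists_functional_zero_one hcv
  refine ⟨φ, h0, fun d e => one_ne_zero (h1.symm.trans ?_)⟩
  rw [e, LinearMap.smul_apply, LinearMap.mem_ker.1 hc, smul_zero]

/-- A subgroup normalised by all transvections and containing one contains the special linear group. -/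
theorem sl_le_of_normalised (h3 : 3 ≤ Fintype.card κ) {L : Subgroup (GL κ F)}
    (hL : ∀ (w : κ → F) (φ : (κ → F) →ₗ[F] F) (h : φ w = 0), ∀ l ∈ L,
      tv w φ h * l * (tv w φ h)⁻¹ ∈ L)
    {v : κ → F} {ψ : (κ → F) →ₗ[F] F} (hψv : ψ v = 0) (hψ : ψ ≠ 0) (hv : v ≠ 0)
    (hm : tv v ψ hψv ∈ L) : Cfsg.Geo.specialLinear κ F ≤ L := by
  have hne : ∀ (φ : (κ → F) →ₗ[F] F) (h : φ v = 0), (∀ c : F, φ ≠ c • ψ) → tv v φ h ∈ L := by
    intro φ h hφ
    have h' : ∀ c : F, ψ ≠ c • φ := fun c e => by
      rcases eq_or_ne c 0 with hc | hc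
      · exact hψ (by rw [e, hc, zero_smul])
      · exact hφ c⁻¹ (by rw [e, smul_smul, inv_mul_cancel₀ hc, one_smul])
    obtain ⟨w, hw, hψw⟩ := exists_ker_not_ker h'
    set k := -(ψ w)⁻¹ • w with hk
    have hφk : φ k = 0 := by simp [hk, hw]
    have hψk : ψ k = -1 := by simp [hk, hψw]
    have h2 := mul_mem (hL k φ hφk _ hm) (inv_mem hm)
    convert h2 using 1
    apply gl_ext
    intro x
    simp only [ap_mul, tv_inv, ap_tv, LinearMap.neg_apply, map_add, map_smul, h, hψv, hφk, hψk,
      smul_eq_mul]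
    module
  have hfull : FullCentre L v := by
    intro φ h
    by_cases hφ : ∀ c : F, φ ≠ c • ψ
    · exact hne φ h hφ
    push Not at hφ
    obtain ⟨c, rfl⟩ := hφ
    obtain ⟨φ₂, hv2, hind⟩ := exists_not_smul h3 (v := v) ψ
    have e1 : tv v (c • ψ + φ₂) (by simp [hψv, hv2]) ∈ L := hne _ _ fun d e => hind (d - c) (LinearMap.ext fun x => by
      have := LinearMap.congr_fun e x
      simp at this ⊢
      linear_combination this)
    have e2 := inv_mem (hne φ₂ hv2 hind)
    rw [tv_inv] at e2
    have e3 := mul_mem e1 e2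
    rw [tv_add] at e3
    convert e3 using 2
    abel
  have hmove : ∀ x : κ → F, x ∈ centreSubmodule L := by
    intro x
    by_cases hx : x ∈ Submodule.span F {v}
    · obtain ⟨c, rfl⟩ := Submodule.mem_span_singleton.1 hx
      exact fullCentre_smul hfull c
    have hvx : v ∉ Submodule.span F {x} := by
      intro h
      obtain ⟨c, hc⟩ := Submodule.mem_span_singleton.1 h
      have hc0 : c ≠ 0 := fun h0 => hv (by rw [← hc, h0, zero_smul])
      exact hx (Submodule.mem_span_singleton.2 ⟨c⁻¹, by rw [← hc, smul_smul, inv_mul_cancel₀ hc0, one_smul]⟩)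
    obtain ⟨φ, hφx, hφv⟩ := exists_functional_zero_one hvx
    have : FullCentre L (v + x) := by
      intro θ hθ
      have hθ' : (θ.comp (apEquiv (tv x φ hφx)).toLinearMap) v = 0 := by
        simpa [hφv] using hθ
      have h2 := hL x φ hφx _ (hfull _ hθ')
      rw [conj_tv] at h2
      convert h2 using 2
      · simp [hφv]
      · exact LinearMap.ext fun y => by simp [ap_ap_inv, -ap_tv]
    have := (centreSubmodule L).sub_mem this hfull
    rwa [add_sub_cancel_left] at this
  exact specialLinear_le_of_fullCentre Submodule.span_univ fun x _ => hmove x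

/-- The first block. -/
def inl' : (κ → F) →ₗ[F] (κ ⊕ κ → F) where
  toFun x := Sum.elim x 0
  map_add' x y := by ext (i | i) <;> simp
  map_smul' c x := by ext (i | i) <;> simp

/-- The second block. -/
def inr' : (κ → F) →ₗ[F] (κ ⊕ κ → F) where
  toFun x := Sum.elim 0 x
  map_add' x y := by ext (i | i) <;> simp
  map_smul' c x := by ext (i | i) <;> simp

/-- Projection to the first block. -/
def pl : (κ ⊕ κ → F) →ₗ[F] (κ → F) := LinearMap.funLeft F F Sum.inl

/-- Projection to the second block. -/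
def pr : (κ ⊕ κ → F) →ₗ[F] (κ → F) := LinearMap.funLeft F F Sum.inr

@[simp] theorem pl_inl (x : κ → F) : pl (inl' x) = x := rfl
@[simp] theorem pr_inr (x : κ → F) : pr (inr' x) = x := rfl
@[simp] theorem pl_inr (x : κ → F) : pl (inr' x) = (0 : κ → F) := rfl
@[simp] theorem pr_inl (x : κ → F) : pr (inl' x) = (0 : κ → F) := rfl

theorem pl_elim (x y : κ → F) : pl (Sum.elim x y) = x := rfl
theorem pr_elim (x y : κ → F) : pr (Sum.elim x y) = y := rfl

theorem inl_add_inr (z : κ ⊕ κ → F) : inl' (pl z) + inr' (pr z) = z := by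
  ext (i | i) <;> simp [inl', inr', pl, pr]

/-- An overgroup of both diagonal blocks with an element mixing them evenly. -/
theorem sl_le_of_blocks (h3 : 3 ≤ Fintype.card κ) {M : Subgroup (GL (κ ⊕ κ) F)}
    (h1 : ∀ (v : κ → F) (φ : (κ → F) →ₗ[F] F) (h : φ v = 0),
      tv (inl' v) (φ.comp pl) (by simpa using h) ∈ M)
    (h2 : ∀ (v : κ → F) (φ : (κ → F) →ₗ[F] F) (h : φ v = 0),
      tv (inr' v) (φ.comp pr) (by simpa using h) ∈ M)
    {g : GL (κ ⊕ κ) F} (hg : g ∈ M) {a b : F} (ha : a ≠ 0) (hb : b ≠ 0)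
    (hgm : (g : Matrix (κ ⊕ κ) (κ ⊕ κ) F) = fromBlocks (a • 1) (b • 1) (b • 1) (a • 1)) :
    Cfsg.Geo.specialLinear (κ ⊕ κ) F ≤ M := by
  have hap : ∀ z, ap g z = Sum.elim (a • pl z + b • pr z) (b • pl z + a • pr z) := by
    intro z
    rw [ap_def, hgm, fromBlocks_mulVec]
    simp only [smul_mulVec, one_mulVec]
    rfl
  have : Nonempty κ := Fintype.card_pos_iff.1 (by omega)
  obtain ⟨i₀⟩ := this
  set e : κ → F := Pi.single i₀ 1
  have he : e ≠ 0 := by simp [e]
  obtain ⟨c, hc⟩ : ∃ c, c ∉ Submodule.span F {e} := by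
    by_contra hall
    push Not at hall
    have h0 := finrank_span_le_card (R := F) ({e} : Set (κ → F))
    rw [show Submodule.span F {e} = ⊤ from eq_top_iff.2 fun x _ => hall x, finrank_top,
      Module.finrank_fintype_fun_eq_card] at h0
    simp at h0
    omega
  obtain ⟨φ, hφe, hφc⟩ := exists_functional_zero_one hc
  have hec : e ∉ Submodule.span F {c} := by
    intro h
    obtain ⟨d, hd⟩ := Submodule.mem_span_singleton.1 h
    have hd0 : d ≠ 0 := fun h0 => he (by rw [← hd, h0, zero_smul])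
    exact hc (Submodule.mem_span_singleton.2 ⟨d⁻¹, by rw [← hd, smul_smul, inv_mul_cancel₀ hd0, one_smul]⟩)
  -- a vector killed by both functionals
  obtain ⟨f, hfφ, hf0, χ, hχf, hχe⟩ : ∃ f, φ f = 0 ∧ f ≠ 0 ∧ ∃ χ : (κ → F) →ₗ[F] F, χ f = 0 ∧ χ e = 1 := by
    have hk : ¬ LinearMap.ker φ ≤ Submodule.span F {e} := by
      intro hle
      have h1' := Submodule.finrank_mono hle
      have h2' := finrank_span_le_card (R := F) ({e} : Set (κ → F))
      have h4 := LinearMap.finrank_range_add_finrank_ker φ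
      have h5 : Module.finrank F (LinearMap.range φ) ≤ 1 :=
        (Submodule.finrank_le _).trans_eq (Module.finrank_self F)
      rw [Module.finrank_fintype_fun_eq_card] at h4
      simp at h2'
      omega
    obtain ⟨f, hf, hfe⟩ := Set.not_subset.1 hk
    have hef : e ∉ Submodule.span F {f} := by
      intro h
      obtain ⟨d, hd⟩ := Submodule.mem_span_singleton.1 h
      have hd0 : d ≠ 0 := fun h0 => he (by rw [← hd, h0, zero_smul])
      exact hfe (Submodule.mem_span_singleton.2 ⟨d⁻¹, by rw [← hd, smul_smul, inv_mul_cancel₀ hd0, one_smul]⟩)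
    obtain ⟨χ, h0, h1'⟩ := exists_functional_zero_one hef
    exact ⟨f, hf, fun h => hfe (by rw [h]; exact Submodule.zero_mem _), χ, h0, h1'⟩
  -- the conjugated transvection
  set ψ : (κ ⊕ κ → F) →ₗ[F] F := (φ.comp pl).comp (apEquiv g⁻¹).toLinearMap with hψ
  have hT0 : ψ (ap g (inl' e)) = 0 := by simp [hψ, ap_inv_ap, hφe]
  have hT : tv (ap g (inl' e)) ψ hT0 ∈ M := by
    have := mul_mem (mul_mem hg (h1 e φ hφe)) (inv_mem hg)
    rwa [conj_tv] at this
  have hψl : ∀ x, φ x = 0 → ψ (inl' x) = 0 := by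
    intro x hx
    have h := congrArg pl (show ap g⁻¹ (ap g (inl' x)) = inl' x from ap_inv_ap g _)
    -- `g` commutes with the functional applied blockwise
    have e1 : ∀ z, φ (pl (ap g z)) = a * φ (pl z) + b * φ (pr z) := fun z => by
      rw [hap, pl_elim, map_add, map_smul, map_smul]; rfl
    have e2 : ∀ z, φ (pr (ap g z)) = b * φ (pl z) + a * φ (pr z) := fun z => by
      rw [hap, pr_elim, map_add, map_smul, map_smul]; rfl
    have p1 := e1 (ap g⁻¹ (inl' x))
    have p2 := e2 (ap g⁻¹ (inl' x))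
    rw [ap_ap_inv, pl_inl, hx] at p1
    rw [ap_ap_inv, pr_inl, map_zero] at p2
    by_cases hab : a = b ∨ a = -b
    · exfalso
      have key : ap g (inl' e + (-(a * b⁻¹)) • inr' e) = 0 := by
        rw [hap]
        ext (i | i) <;> rcases hab with r | r <;> simp [r, pl_inl, pr_inl, hb]
      have h0 := congrArg pl (ap_injective g (key.trans (ap_zero g).symm))
      rw [map_add, map_smul, pl_inl, pl_inr, smul_zero, add_zero, map_zero] at h0
      exact he h0
    push Not at hab
    have hd : (a - b) * (a + b) ≠ 0 :=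
      mul_ne_zero (sub_ne_zero.2 hab.1) (fun h0 => hab.2 (eq_neg_of_add_eq_zero_left h0))
    have : (a - b) * (a + b) * φ (pl (ap g⁻¹ (inl' x))) = 0 := by linear_combination -a * p1 + b * p2
    simpa [hψ] using (mul_eq_zero.1 this).resolve_left hd
  -- the commutator
  have hχg : χ (pl (ap g (inl' e))) = a := by simp [hap, pl_elim, hχe]
  have hR : tv (a • inl' f) ψ (by rw [map_smul, hψl f hfφ, smul_zero]) ∈ M := by
    have hh := h1 f χ hχf
    have h := mul_mem (mul_mem (mul_mem hh hT) (inv_mem hh)) (inv_mem hT)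
    convert h using 1
    apply gl_ext
    intro x
    simp only [ap_mul, tv_inv, ap_tv, LinearMap.neg_apply, LinearMap.comp_apply, map_add, map_smul,
      pl_inl, hψl f hfφ, hT0, hχf, hχg, smul_eq_mul]
    module
  set θ : (κ ⊕ κ → F) →ₗ[F] F := ψ - (ψ.comp inl').comp pl with hθ
  have hR2 : tv (inl' f) (a • θ) (by simp [hθ]) ∈ M := by
    have hl : tv (inl' f) ((-(a • ψ.comp inl')).comp pl) (by simp [hψl f hfφ]) ∈ M :=
      h1 f _ (by simp [hψl f hfφ])
    have h := mul_mem hR hl
    rw [show tv (a • inl' f) ψ (by rw [map_smul, hψl f hfφ, smul_zero]) =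
      tv (inl' f) (a • ψ) (by simp [hψl f hfφ]) from tv_eq_tv _ _ fun x => by
        simp [smul_smul, mul_comm], tv_add] at h
    convert h using 2
    ext x
    simp [hθ]
    ring
  set φ₀ : (κ → F) →ₗ[F] F := (a • θ).comp inr' with hφ₀
  have hθ' : a • θ = φ₀.comp pr := by
    refine LinearMap.ext fun z => ?_
    conv_lhs => rw [← inl_add_inr z, map_add]
    simp [hθ, hφ₀]
  have hφ₀ne : φ₀ ≠ 0 := by
    intro h0
    have hψr : ψ (inr' c) = 0 := by simpa [hθ, hφ₀, ha] using LinearMap.congr_fun h0 c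
    -- but `g⁻¹` mixes the blocks
    have e1 : ∀ z, φ (pl (ap g z)) = a * φ (pl z) + b * φ (pr z) := fun z => by
      rw [hap, pl_elim, map_add, map_smul, map_smul]; rfl
    have e2 : ∀ z, φ (pr (ap g z)) = b * φ (pl z) + a * φ (pr z) := fun z => by
      rw [hap, pr_elim, map_add, map_smul, map_smul]; rfl
    have p1 := e1 (ap g⁻¹ (inr' c))
    have p2 := e2 (ap g⁻¹ (inr' c))
    have q : φ (pl (ap g⁻¹ (inr' c))) = 0 := by simpa [hψ] using hψr
    rw [ap_ap_inv, pl_inr, map_zero, q, mul_zero, zero_add] at p1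
    rw [ap_ap_inv, pr_inr, hφc, q, (mul_eq_zero.1 p1.symm).resolve_left hb, mul_zero, mul_zero, add_zero] at p2
    exact one_ne_zero p2
  have hR3 : tv (inl' f) (φ₀.comp pr) (by simp) ∈ M := by
    convert hR2 using 2
    exact hθ'.symm
  -- all functionals of the second block at the centre
  have hall : ∀ χ' : (κ → F) →ₗ[F] F, tv (inl' f) (χ'.comp pr) (by simp) ∈ M := by
    have hne : ∀ χ' : (κ → F) →ₗ[F] F, (∀ d : F, χ' ≠ d • φ₀) →
        tv (inl' f) (χ'.comp pr) (by simp) ∈ M := by
      intro χ' hχ'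
      have h' : ∀ d : F, φ₀ ≠ d • χ' := fun d hd => by
        rcases eq_or_ne d 0 with r | r
        · exact hφ₀ne (by rw [hd, r, zero_smul])
        · exact hχ' d⁻¹ (by rw [hd, smul_smul, inv_mul_cancel₀ r, one_smul])
      obtain ⟨w, hw, hw'⟩ := exists_ker_not_ker h'
      set k := -(φ₀ w)⁻¹ • w with hk
      have hχk : χ' k = 0 := by simp [hk, hw]
      have hφk : φ₀ k = -1 := by simp [hk, hw']
      have hh := h2 k χ' hχk
      have h := mul_mem (mul_mem (mul_mem hh hR3) (inv_mem hh)) (inv_mem hR3)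
      convert h using 1
      apply gl_ext
      intro x
      simp only [ap_mul, tv_inv, ap_tv, LinearMap.neg_apply, LinearMap.comp_apply, map_add, map_smul,
        pr_inl, pr_inr, map_zero, hχk, hφk, smul_eq_mul]
      module
    intro χ'
    by_cases hχ' : ∀ d : F, χ' ≠ d • φ₀
    · exact hne χ' hχ'
    push Not at hχ'
    obtain ⟨d, rfl⟩ := hχ'
    obtain ⟨φ₂, -, hind⟩ := exists_not_smul h3 (v := (0 : κ → F)) φ₀
    have a1 := hne (d • φ₀ + φ₂) fun d' e' => hind (d' - d) (LinearMap.ext fun x => by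
      have := LinearMap.congr_fun e' x
      simp at this ⊢
      linear_combination this)
    have a2 := inv_mem (hne φ₂ hind)
    rw [tv_inv] at a2
    have a3 := mul_mem a1 a2
    rw [tv_add] at a3
    convert a3 using 2
    ext x
    simp
  have hfull : FullCentre M (inl' f) := by
    intro η hη
    have p := mul_mem (h1 f (η.comp inl') hη) (hall (η.comp inr'))
    rw [tv_add] at p
    convert p using 2
    refine LinearMap.ext fun z => ?_
    conv_lhs => rw [← inl_add_inr z, map_add]
    simp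
  set C := centreSubmodule M
  have hfC : inl' f ∈ C := hfull
  have hl : ∀ x, inl' x ∈ C := by
    intro x
    by_cases hx : x ∈ Submodule.span F {f}
    · obtain ⟨d, rfl⟩ := Submodule.mem_span_singleton.1 hx
      rw [map_smul]
      exact C.smul_mem d hfC
    have hfx : f ∉ Submodule.span F {x} := by
      intro h
      obtain ⟨d, hd⟩ := Submodule.mem_span_singleton.1 h
      have hd0 : d ≠ 0 := fun h0 => hf0 (by rw [← hd, h0, zero_smul])
      exact hx (Submodule.mem_span_singleton.2 ⟨d⁻¹, by rw [← hd, smul_smul, inv_mul_cancel₀ hd0, one_smul]⟩)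
    obtain ⟨η, hηx, hηf⟩ := exists_functional_zero_one hfx
    have h := C.sub_mem (fullCentre_ap (h1 x η hηx) hfull) hfC
    simpa [hηf] using h
  refine specialLinear_le_of_fullCentre (S := Set.univ) Submodule.span_univ fun z _ => ?_
  have hr : ∀ x, inr' x ∈ C := by
    intro x
    have h := C.sub_mem (fullCentre_ap hg (hl x)) (C.smul_mem a (hl x))
    have e3 : ap g (inl' x) - a • inl' x = b • inr' x := by
      rw [hap]
      ext (i | i) <;> simp [inl', inr', pl, pr]
    rw [e3] at h
    have := C.smul_mem b⁻¹ h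
    rwa [smul_smul, inv_mul_cancel₀ hb, one_smul] at this
  rw [← inl_add_inr z]
  exact C.add_mem (hl _) (hr _)

end CfsgLib.Geometric.PauliMax
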