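import Cfsg.Agent.Lib.Geometric.PauliMax.Extend
import Cfsg.Agent.Lib.Geometric.SLFour.Standard

/-!
The dichotomy for systems of Pauli matrices of size four follows from maximality of the standard
monomial group.
-/

set_option autoImplicit false

namespace CfsgLib.Geometric.PauliMax

open Cfsg.Geo CfsgLib.SmallDim

variable {V : Type} [AddCommGroup V] [Module (ZMod 2) V] [Fintype V] {ι : Type} [Fintype ι] [DecidableEq ι]
  {F : Type*} [Field F]

local notation "𝕄" => Matrix ι ι F

namespace Pauli

variable (S : Pauli V ι F)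

theorem mul_P [Nonempty ι] (v w : V) : ∃ c : F, c ^ 4 = 1 ∧ S.P v * S.P w = c • S.P (v + w) := by
  obtain ⟨k, hk0, hk⟩ := S.P_add_coeff v w
  refine ⟨k⁻¹, ?_, by rw [hk, smul_smul, inv_mul_cancel₀ hk0, one_smul]⟩
  have h := S.sq (v + w)
  rw [hk, smul_mul_assoc, mul_smul_comm, smul_smul] at h
  have e : S.P v * S.P w * (S.P v * S.P w) = sgn F (S.B w v) • (1 : 𝕄) := by
    calc S.P v * S.P w * (S.P v * S.P w) = S.P v * (S.P w * S.P v) * S.P w := by simp only [mul_assoc]
      _ = _ := by
        rw [S.comm w v, mul_smul_comm, smul_mul_assoc, ← mul_assoc, S.sq, one_mul, S.sq]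
  rw [e, smul_smul] at h
  have h' : k * k * sgn F (S.B w v) = 1 := by
    refine smul_left_injective F (one_ne_zero (α := 𝕄)) ?_
    simpa using h
  have hk4 : k ^ 4 = 1 := by
    linear_combination (k * k * sgn F (S.B w v) + 1) * h' - k ^ 4 * sgn_sq (F := F) (S.B w v)
  rw [inv_pow, hk4, inv_one]

/-- The Pauli matrices times scalars of order dividing four. -/
def grp [Nonempty ι] : Subgroup (GL ι F) where
  carrier := {g | ∃ (c : F) (v : V), c ^ 4 = 1 ∧ (g : 𝕄) = c • S.P v}
  one_mem' := ⟨1, 0, one_pow 4, by rw [S.zero, one_smul]; rfl⟩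
  mul_mem' := by
    rintro g h ⟨c, v, hc, hg⟩ ⟨d, w, hd, hh⟩
    obtain ⟨k, hk, hkk⟩ := S.mul_P v w
    exact ⟨c * d * k, v + w, by rw [mul_pow, mul_pow, hc, hd, hk, one_mul, one_mul], by
      rw [Units.val_mul, hg, hh, smul_mul_assoc, mul_smul_comm, hkk, smul_smul, smul_smul, mul_assoc]⟩
  inv_mem' := by
    rintro g ⟨c, v, hc, hg⟩
    have hc0 : c ≠ 0 := fun h => by simp [h] at hc
    refine ⟨c⁻¹, v, by rw [inv_pow, hc, inv_one], Units.inv_eq_of_mul_eq_one_right ?_⟩
    rw [hg, smul_mul_assoc, mul_smul_comm, smul_smul, mul_inv_cancel₀ hc0, one_smul, S.sq]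

variable [Nonempty ι]

theorem gl_mem_grp (v : V) : S.gl v ∈ S.grp := ⟨1, v, one_pow 4, (one_smul _ _).symm⟩

theorem isPauli_grp : IsPauli S.grp where
  sq x hx := by
    obtain ⟨c, v, hc, hx⟩ := hx
    rw [hx, smul_mul_assoc, mul_smul_comm, smul_smul, S.sq]
    rcases mul_self_eq_one_iff.1 (show (c * c) * (c * c) = 1 by linear_combination hc) with h | h
    · left; rw [h, one_smul]
    · right; rw [h, neg_one_smul]
  comm x hx y hy := by
    obtain ⟨c, v, -, hx⟩ := hx
    obtain ⟨d, w, -, hy⟩ := hy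
    rw [hx, hy]
    simp only [smul_mul_assoc, mul_smul_comm, S.comm v w, smul_smul]
    rcases sgn_cases (F := F) (S.B v w) with h | h <;> rw [h]
    · left; congr 1; ring
    · right; rw [← neg_smul]; congr 1; ring
  span := by
    rw [eq_top_iff, ← S.span_eq_top, Submodule.span_le]
    rintro _ ⟨v, rfl⟩
    exact Submodule.subset_span ⟨S.gl v, S.gl_mem_grp v, rfl⟩

theorem card_center_grp (h2 : (2 : F) ≠ 0) {i : F} (hi : i * i = -1) :
    Nat.card (Subgroup.center S.grp) = 4 := by
  classical
  have h4 : ∀ k : Fin 4, (i ^ (k : ℕ)) ^ 4 = 1 := fun k => by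
    rw [← pow_mul, mul_comm, pow_mul, show i ^ 4 = 1 by linear_combination (i * i - 1) * hi, one_pow]
  have hu : ∀ k : Fin 4, ∃ x : S.grp, ((x : GL ι F) : 𝕄) = (i ^ (k : ℕ)) • (1 : 𝕄) := fun k => by
    have h0 : i ^ (k : ℕ) ≠ 0 := fun h => by have := h4 k; simp [h] at this
    refine ⟨⟨⟨(i ^ (k : ℕ)) • 1, (i ^ (k : ℕ))⁻¹ • 1, ?_, ?_⟩, i ^ (k : ℕ), 0, h4 k, by rw [S.zero]⟩, rfl⟩
    · rw [smul_mul_assoc, one_mul, smul_smul, mul_inv_cancel₀ h0, one_smul]
    · rw [smul_mul_assoc, one_mul, smul_smul, inv_mul_cancel₀ h0, one_smul]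
  choose x hx using hu
  let f : Fin 4 → Subgroup.center S.grp := fun k => ⟨x k, Subgroup.mem_center_iff.2 fun y =>
    Subtype.ext (Units.ext (by
      simp only [Subgroup.coe_mul, Units.val_mul, hx, mul_smul_comm, mul_one, smul_mul_assoc, one_mul]))⟩
  have hbij : Function.Bijective f := by
    refine ⟨fun a b hab => ?_, fun z => ?_⟩
    · have h : i ^ (a : ℕ) = i ^ (b : ℕ) := smul_left_injective F (one_ne_zero (α := 𝕄)) (by
        show i ^ (a : ℕ) • (1 : 𝕄) = i ^ (b : ℕ) • 1
        rw [← hx, ← hx]; exact congrArg (fun z : Subgroup.center S.grp => (((z : S.grp) : GL ι F) : 𝕄)) hab)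
      have hi0 : i ≠ 0 := fun h0 => by simp [h0] at hi
      have hs : i ^ 2 = -1 := by rw [pow_two]; exact hi
      fin_cases a <;> fin_cases b <;> (try rfl) <;> simp [pow_succ, hi] at h <;>
        exfalso <;>
        first
          | exact h2 (by linear_combination h)
          | exact h2 (by linear_combination -h)
          | exact h2 (by linear_combination hi - (i + 1) * h)
          | exact h2 (by linear_combination hi + (i + 1) * h)
          | exact h2 (by linear_combination hi - (i - 1) * h)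
          | exact h2 (by linear_combination hi + (i - 1) * h)
          | exact h2 (mul_right_cancel₀ hi0 (by linear_combination h))
          | exact h2 (mul_right_cancel₀ hi0 (by linear_combination -h))
    · obtain ⟨⟨g, c, v, hc, hg⟩, hz⟩ := z
      have hv : v = 0 := S.nondeg v fun w => by
        have h := congrArg (fun y : S.grp => ((y : GL ι F) : 𝕄))
          (Subgroup.mem_center_iff.1 hz ⟨S.gl w, S.gl_mem_grp w⟩)
        simp only [Subgroup.coe_mul, Units.val_mul, coe_gl, hg, mul_smul_comm, smul_mul_assoc] at h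
        have hc0 : c ≠ 0 := fun h => by simp [h] at hc
        have h' := smul_right_injective 𝕄 hc0 h
        rw [S.comm v w] at h'
        have hne : S.P w * S.P v ≠ 0 := by
          rw [← S.coe_gl, ← S.coe_gl, ← Units.val_mul]
          exact Units.ne_zero _
        have h1 : sgn F (S.B v w) = 1 := smul_left_injective F hne (by
          show sgn F (S.B v w) • (S.P w * S.P v) = (1 : F) • (S.P w * S.P v)
          rw [one_smul]; exact h'.symm)
        exact sgn_inj h2 (h1.trans sgn_zero.symm)
      subst hv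
      obtain ⟨k, hk⟩ : ∃ k : Fin 4, i ^ (k : ℕ) = c := by
        rcases mul_eq_zero.1 (show (c * c - 1) * (c * c + 1) = 0 by linear_combination hc) with h | h
        · rcases mul_self_eq_one_iff.1 (sub_eq_zero.1 h) with rfl | rfl
          · exact ⟨0, pow_zero i⟩
          · exact ⟨2, by rw [show ((2 : Fin 4) : ℕ) = 2 from rfl, pow_two, hi]⟩
        · rcases mul_eq_zero.1 (show (c - i) * (c + i) = 0 by linear_combination h - hi) with e | e
          · exact ⟨1, by rw [show ((1 : Fin 4) : ℕ) = 1 from rfl, pow_one]; exact (sub_eq_zero.1 e).symm⟩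
          · exact ⟨3, by
              rw [show ((3 : Fin 4) : ℕ) = 3 from rfl]
              linear_combination i * hi - e⟩
      exact ⟨k, Subtype.ext (Subtype.ext (Units.ext (by
        show ((x k : GL ι F) : 𝕄) = (g : 𝕄)
        rw [hx, hk, hg, S.zero])))⟩
  rw [← Nat.card_congr (Equiv.ofBijective f hbij), Nat.card_fin]

theorem normalizer_grp [Finite F] : subgroupNormalizer S.grp = S.norm := by
  refine le_antisymm (fun g hg => S.mem_norm fun v => ?_) (fun g hg => ?_)
  · obtain ⟨c, w, -, hw⟩ := (Subgroup.mem_normalizer_iff.1 hg _).1 (S.gl_mem_grp v)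
    refine ⟨w, c, ?_⟩
    rw [← smul_mul_assoc, ← hw, ← S.coe_gl, ← Units.val_mul, ← Units.val_mul, inv_mul_cancel_right]
  · refine Subgroup.mem_normalizer_fintype ?_
    rintro x ⟨c, v, hc, hx⟩
    refine ⟨c * S.cP g v, S.sP g v, ?_, ?_⟩
    · have := S.cP_sq hg v
      linear_combination (S.cP g v ^ 4) * hc + (S.cP g v * S.cP g v + 1) * this
    · rw [Units.val_mul, Units.val_mul, hx, mul_smul_comm, S.act_spec hg, smul_smul, smul_mul_assoc,
        Units.mul_inv_cancel_right]

end Pauli

/-- The dichotomy in size four, from maximality of the standard monomial group. -/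
theorem dichotomy_four_of {F : Type*} [Field F] [Fintype F] {V : Type} [AddCommGroup V]
    [Module (ZMod 2) V] [Fintype V] (h2 : (2 : F) ≠ 0) {i : F} (hi : i * i = -1)
    (H : IsMaximalIn (specialLinear (Fin 4) F) (SLFour.Nstd hi h2)) (T : Pauli V (Fin 4) F) :
    T.Dichotomy := by
  intro M hM
  obtain ⟨P, hP⟩ := SLFour.exists_conj_stdPauli T.isPauli_grp (T.card_center_grp h2 hi) h2
  have hN : T.norm ⊓ specialLinear (Fin 4) F = (SLFour.Nstd hi h2).map (MulAut.conj P).toMonoidHom := by
    have hSL : (specialLinear (Fin 4) F).map (MulAut.conj P).toMonoidHom = specialLinear (Fin 4) F := by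
      ext x
      rw [Subgroup.mem_map_equiv, MulAut.conj_symm_apply, mem_specialLinear_iff, mem_specialLinear_iff,
        Units.val_mul, Units.val_mul, Matrix.det_units_conj']
    have e : subgroupNormalizer (SLFour.stdPauli F) ⊓ specialLinear (Fin 4) F = SLFour.Nstd hi h2 := by
      ext g
      rw [SLFour.stdPauli_eq_Rstd hi h2, Subgroup.mem_inf, SLFour.mem_Nstd_iff_normalizer,
        mem_specialLinear_iff]
      rfl
    rw [← e, Subgroup.map_inf_eq _ _ _ (MulAut.conj P).injective, hSL, ← T.normalizer_grp, hP]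
    congr 1
    exact (Subgroup.map_equiv_normalizer_eq _ (MulAut.conj P)).symm
  have hSL' : (specialLinear (Fin 4) F).map (MulAut.conj P).toMonoidHom = specialLinear (Fin 4) F := by
    ext x
    rw [Subgroup.mem_map_equiv, MulAut.conj_symm_apply, mem_specialLinear_iff, mem_specialLinear_iff,
      Units.val_mul, Units.val_mul, Matrix.det_units_conj']
  have h := SLFour.isMaximalIn_map (MulAut.conj P) H
  rw [hSL', ← hN] at h
  rcases h.2 (M ⊓ specialLinear (Fin 4) F) (inf_le_inf_right _ hM) inf_le_right with e | e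
  · exact Or.inl (T.le_norm_of_inf h2 hi hM (e.le.trans inf_le_left))
  · exact Or.inr (e.ge.trans inf_le_left)

end CfsgLib.Geometric.PauliMax
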