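import Cfsg.Agent.Lib.Geometric.PauliMax.DichotomyFour
import Cfsg.Agent.Lib.Geometric.SLFour.Symplectic

/-!
The dichotomy for systems of Pauli matrices of size four over prime fields with `p % 4 = 1`.
-/

set_option autoImplicit false

namespace CfsgLib.Geometric.PauliMax

open Cfsg.Geo

/-- The dichotomy in size four. -/
theorem dichotomy_four {F : Type*} [Field F] [Fintype F] {p : ℕ} (hp : p.Prime)
    (hF : Fintype.card F = p) (h4 : p % 4 = 1) {V : Type} [AddCommGroup V] [Module (ZMod 2) V]
    [Fintype V] (T : Pauli V (Fin 4) F) : T.Dichotomy := by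
  obtain ⟨i, hi⟩ : IsSquare (-1 : F) := FiniteField.isSquare_neg_one_iff.2 (by rw [hF]; omega)
  have h2 : (2 : F) ≠ 0 := by
    haveI : Fact p.Prime := ⟨hp⟩
    haveI : CharP F p := charP_of_card_eq_prime hF
    intro h
    have := (CharP.cast_eq_zero_iff F p 2).1 (by exact_mod_cast h)
    have := Nat.le_of_dvd (by norm_num) this
    have := hp.two_le
    omega
  exact dichotomy_four_of h2 hi.symm (SLFour.Nstd_isMaximalIn hp hF h4 hi.symm h2) T

end CfsgLib.Geometric.PauliMax
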