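import Cfsg.Agent.Lib.Geometric.PauliMax.Action

/-!
The normaliser of a Pauli system is generated by its transvection elements, the Pauli matrices and the
scalars.
-/

set_option autoImplicit false

namespace CfsgLib.Geometric.PauliMax

open Cfsg.Geo

variable {V : Type} [AddCommGroup V] [Module (ZMod 2) V] [Fintype V] {ι : Type} [Fintype ι] [DecidableEq ι]
  {F : Type*} [Field F]

local notation "𝕄" => Matrix ι ι F

namespace Pauli

variable (S : Pauli V ι F)

theorem sP_one (v : V) : S.sP 1 v = v := (S.act_unique (one_mem _) (c := 1) (by simp)).1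

theorem sP_inv_apply {g : GL ι F} (hg : g ∈ S.norm) (v : V) : S.sP g⁻¹ (S.sP g v) = v := by
  rw [← (S.act_mul (inv_mem hg) hg v).1, inv_mul_cancel, S.sP_one]

theorem norm_le_of_gens (h2 : (2 : F) ≠ 0) {i : F} (hi : i * i = -1) {K : Subgroup (GL ι F)}
    (ht : ∀ v, S.tgl h2 hi v ∈ K) (hP : ∀ v, S.gl v ∈ K) (hs : scalars ι F ≤ K) : S.norm ≤ K := by
  classical
  have dich : ∀ c : ZMod 2, c = 0 ∨ c = 1 := by decide
  have two : ∀ a : V, a + a = 0 := fun a => by
    rw [← one_smul (ZMod 2) a, ← add_smul, show (1 + 1 : ZMod 2) = 0 by decide, zero_smul]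
  have sk : ∀ a b, S.B a b = S.B b a := fun a b => by
    have h := S.alt (a + b)
    simp only [map_add, LinearMap.add_apply, S.alt, add_zero, zero_add] at h
    revert h; generalize S.B a b = c; generalize S.B b a = d; revert c d; decide
  -- elements moving no label
  have hbase : ∀ g ∈ S.norm, (∀ v, S.sP g v = v) → g ∈ K := by
    intro g hg hfix
    obtain ⟨u, c, hc⟩ := S.exists_of_fixed h2 hg hfix
    rcases isEmpty_or_nonempty ι with hι | hι
    · exact absurd (Subsingleton.elim _ _) (S.P_ne_zero 0)
    have hc0 : c ≠ 0 := fun h0 => Units.ne_zero g (by rw [hc, h0, zero_smul])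
    have e : g * S.gl u ∈ scalars ι F := (mem_scalars_iff _).2 ⟨Units.mk0 c hc0, by
      rw [Units.val_mul, coe_gl, hc, smul_mul_assoc, S.sq]; rfl⟩
    exact (K.mul_mem_cancel_right (hP u)).1 (hs e)
  -- a transvection fixing the fixed labels
  have hT : ∀ g ∈ S.norm, ∀ a, (∀ w, S.sP g w = w → S.B w a = 0) →
      (S.tgl h2 hi a * g ∈ S.norm) ∧
      (∀ w, S.sP (S.tgl h2 hi a * g) w = S.sP g w + S.B (S.sP g w) a • a) ∧
      (∀ w, S.sP g w = w → S.sP (S.tgl h2 hi a * g) w = w) := by
    intro g hg a ha
    obtain ⟨hm, hf⟩ := S.tgl_mem_norm h2 hi a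
    have e : ∀ w, S.sP (S.tgl h2 hi a * g) w = S.sP g w + S.B (S.sP g w) a • a := fun w => by
      rw [(S.act_mul hm hg w).1, hf]
    exact ⟨mul_mem hm hg, e, fun w hw => by rw [e, hw, ha w hw, zero_smul, add_zero]⟩
  -- a step for an element with a non-orthogonal displacement
  have hgood : ∀ g ∈ S.norm, ∀ v, S.B v (S.sP g v) = 1 →
      ∃ a, (∀ w, S.sP g w = w → S.sP (S.tgl h2 hi a * g) w = w) ∧ S.sP (S.tgl h2 hi a * g) v = v ∧
        S.sP g v ≠ v := by
    intro g hg v hv
    obtain ⟨-, he, hkeep⟩ := hT g hg (v + S.sP g v) fun w hw => by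
      rw [map_add]
      nth_rewrite 2 [← hw]
      rw [S.act_B h2 hg]
      revert hv; generalize S.B w v = c; intro; revert c; decide
    refine ⟨v + S.sP g v, hkeep, ?_, fun h => ?_⟩
    · rw [he, map_add, sk (S.sP g v) v, hv, S.alt, add_zero, one_smul, add_left_comm, two, add_zero]
    · rw [h, S.alt] at hv
      exact zero_ne_one hv
  let mv : GL ι F → ℕ := fun g => (Finset.univ.filter fun v => S.sP g v ≠ v).card
  have step : ∀ n, ∀ g ∈ S.norm, mv g ≤ n → g ∈ K := by
    intro n
    induction n with
    | zero =>
      intro g hg hn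
      refine hbase g hg fun v => not_not.1 fun hv => ?_
      have : 0 < mv g := Finset.card_pos.2 ⟨v, by simp [hv]⟩
      omega
    | succ n ih =>
      have main : ∀ g ∈ S.norm, mv g ≤ n + 1 → ∀ v, S.B v (S.sP g v) = 1 → g ∈ K := by
        intro g hg hn v hv
        obtain ⟨a, hkeep, hva, hvg⟩ := hgood g hg v hv
        have hlt : mv (S.tgl h2 hi a * g) < mv g := by
          refine Finset.card_lt_card ?_
          rw [Finset.ssubset_iff_subset_ne]
          refine ⟨fun w hw => ?_, fun he => ?_⟩
          · simp only [Finset.mem_filter, Finset.mem_univ, true_and] at hw ⊢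
            exact fun h => hw (hkeep w h)
          · have : v ∈ Finset.univ.filter fun w => S.sP (S.tgl h2 hi a * g) w ≠ w := by
              rw [he]; simp [hvg]
            simp [hva] at this
        have := ih _ (mul_mem (S.tgl_mem_norm h2 hi a).1 hg) (by omega)
        exact (K.mul_mem_cancel_left (ht a)).1 this
      intro g hg hn
      by_cases hfix : ∀ v, S.sP g v = v
      · exact hbase g hg hfix
      by_cases hex : ∃ v, S.B v (S.sP g v) = 1
      · obtain ⟨v, hv⟩ := hex
        exact main g hg hn v hv
      push Not at hex hfix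
      obtain ⟨x, hx⟩ := hfix
      have hzero : ∀ v, S.B v (S.sP g v) = 0 := fun v => (dich _).resolve_right (hex v)
      have hpol : ∀ v w, S.B v (S.sP g w) = S.B w (S.sP g v) := by
        intro v w
        have h := hzero (v + w)
        rw [(S.act_add hg v w).1] at h
        simp only [map_add, LinearMap.add_apply, hzero, add_zero, zero_add] at h
        revert h; generalize S.B v (S.sP g w) = c; generalize S.B w (S.sP g v) = d; revert c d; decide
      set a := x + S.sP g x with ha
      have hak : ∀ w, S.sP g w = w → S.B w a = 0 := by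
        intro w hw
        rw [ha, map_add]
        nth_rewrite 2 [← hw]
        rw [S.act_B h2 hg]
        exact CharTwo.add_self_eq_zero _
      obtain ⟨hmem, he, hkeep⟩ := hT g hg a hak
      have hle : mv (S.tgl h2 hi a * g) ≤ mv g := Finset.card_le_card fun w hw => by
        simp only [Finset.mem_filter, Finset.mem_univ, true_and] at hw ⊢
        exact fun h => hw (hkeep w h)
      obtain ⟨v, hv⟩ : ∃ v, S.B v a = 1 := by
        by_contra hc
        push Not at hc
        have h0 : a = 0 := S.nondeg a fun w => by rw [sk]; exact (dich _).resolve_right (hc w)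
        refine hx ?_
        calc S.sP g x = x + (x + S.sP g x) := by rw [← add_assoc, two, zero_add]
          _ = x := by rw [← ha, h0, add_zero]
      have hva : S.B (S.sP g v) a = 1 := by
        rw [ha, map_add, S.act_B h2 hg, sk (S.sP g v) x, hpol x v]
        rw [ha, map_add] at hv
        rw [← hv]; abel
      have hv' : S.B v (S.sP (S.tgl h2 hi a * g) v) = 1 := by
        rw [he, map_add, hzero, zero_add, hva, one_smul, hv]
      have := main _ hmem (hle.trans hn) v hv'
      exact (K.mul_mem_cancel_left (ht a)).1 this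
  exact fun g hg => step _ g hg le_rfl

end Pauli

end CfsgLib.Geometric.PauliMax
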