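import Cfsg.Agent.Lib.Geometric.PauliMax.Local
import Cfsg.Agent.Lib.Geometric.PauliMax.Transvections
import Cfsg.Agent.Lib.Geometric.PauliMax.OfData
import Cfsg.Agent.Lib.Geometric.PauliMax.Split
import Cfsg.Agent.Lib.Geometric.PauliMax.DichotomyFour
import Cfsg.Agent.Lib.Geometric.SLFour.Symplectic
import Cfsg.Agent.Lib.SmallDim.LinearNotLE
import Cfsg.Agent.Lib.SmallDim.LinearPrime

/-!
Normalisers of groups of symplectic type are maximal in the eight-dimensional special linear group over a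
prime field with `p ≡ 1 (mod 4)`.
-/

set_option autoImplicit false

namespace CfsgLib.Geometric.PauliMax

open Cfsg.Geo CfsgLib.Geometric
open scoped commutatorElement

variable {F : Type*} [Field F]

/-- The special linear group is perfect in dimension at least three. -/
theorem sl_le_commutator {ι : Type} [Fintype ι] [DecidableEq ι] (h3 : 3 ≤ Fintype.card ι) :
    specialLinear ι F ≤ ⁅specialLinear ι F, specialLinear ι F⁆ := by
  refine specialLinear_le_of_tv_mem fun v φ h => ?_
  rcases eq_or_ne v 0 with rfl | hv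
  · have : tv (0 : ι → F) φ h = 1 := gl_ext fun y => by simp
    rw [this]; exact one_mem _
  obtain ⟨w, hφw, hwv⟩ : ∃ w, φ w = 0 ∧ w ∉ Submodule.span F {v} := by
    have hk : ¬ LinearMap.ker φ ≤ Submodule.span F {v} := by
      intro hle
      have h1 := Submodule.finrank_mono hle
      have h2 := finrank_span_le_card (R := F) ({v} : Set (ι → F))
      have h4 := LinearMap.finrank_range_add_finrank_ker φ
      have h5 : Module.finrank F (LinearMap.range φ) ≤ 1 :=
        (Submodule.finrank_le _).trans_eq (Module.finrank_self F)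
      rw [Module.finrank_fintype_fun_eq_card] at h4
      simp at h2
      omega
    exact Set.not_subset.1 hk
  obtain ⟨ψ, hψv, hψw⟩ := exists_functional_zero_one hwv
  have key : tv v φ h = ⁅tv v ψ hψv, tv w φ hφw⁆ := by
    apply gl_ext
    intro x
    simp only [commutatorElement_def, ap_mul, tv_inv, ap_tv, LinearMap.neg_apply, map_add, map_smul, h, hφw,
      hψv, hψw, smul_eq_mul]
    module
  rw [key]
  exact Subgroup.commutator_mem_commutator (tv_mem_specialLinear _ _ _) (tv_mem_specialLinear _ _ _)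

theorem det_tgl {ι : Type} [Fintype ι] [DecidableEq ι] (S : Pauli (Fin 6 → ZMod 2) ι F) (h2 : (2 : F) ≠ 0)
    {i : F} (hi : i * i = -1) (hsplit : ∀ v u, S.B v u = 1 → Nonempty (Split S v u)) (v : Fin 6 → ZMod 2) :
    S.tgl h2 hi v ∈ specialLinear ι F ∧ S.gl v ∈ specialLinear ι F := by
  have h1i : (1 + i) ≠ 0 := fun h => h2 (by
    have : i = -1 := by linear_combination h
    rw [this] at hi
    linear_combination hi)
  rcases eq_or_ne v 0 with rfl | hv
  · have hcard : Fintype.card ι = 8 := by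
      have h := S.card
      simp [Fintype.card_fun] at h
      nlinarith [h]
    refine ⟨?_, (mem_specialLinear_iff _).2 (by rw [Pauli.coe_gl, S.zero, Matrix.det_one])⟩
    rw [mem_specialLinear_iff, S.coe_tgl, S.zero]
    rw [show (1 : Matrix ι ι F) + i • 1 = (1 + i) • 1 by rw [add_smul, one_smul], smul_smul,
      inv_mul_cancel₀ h1i, one_smul, Matrix.det_one]
  obtain ⟨u, hu⟩ : ∃ u, S.B v u = 1 := by
    by_contra h
    push Not at h
    have dich : ∀ c : ZMod 2, c = 0 ∨ c = 1 := by decide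
    exact hv (S.nondeg v fun w => (dich _).resolve_right (h w))
  obtain ⟨sp⟩ := hsplit v u hu
  constructor
  · rw [mem_specialLinear_iff, ← sp.det_Φ, S.coe_tgl, sp.Φ_smul, map_add, map_one, sp.Φ_smul, sp.P_v,
      ← Matrix.fromBlocks_one, Matrix.fromBlocks_smul, Matrix.fromBlocks_add, Matrix.fromBlocks_smul]
    simp only [smul_zero, add_zero, Matrix.det_fromBlocks_zero₂₁, smul_neg]
    rw [show (1 : Matrix (Fin 4) (Fin 4) F) + i • 1 = (1 + i) • 1 by rw [add_smul, one_smul],
      show (1 : Matrix (Fin 4) (Fin 4) F) + -(i • 1) = (1 - i) • 1 by rw [sub_smul, one_smul, sub_eq_add_neg]]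
    simp only [smul_smul, Matrix.det_smul, Matrix.det_one, mul_one, Fintype.card_fin]
    have e : (1 - i) = -i * (1 + i) := by linear_combination hi
    rw [e, inv_mul_cancel₀ h1i, mul_comm _ (-i * (1 + i)), mul_assoc, mul_inv_cancel₀ h1i]
    linear_combination (i * i - 1) * hi
  · rw [mem_specialLinear_iff, Pauli.coe_gl, ← sp.det_Φ, sp.P_v]
    simp [Matrix.det_fromBlocks_zero₂₁, Matrix.det_neg]
    norm_num

/-- A dichotomy in the general linear group gives maximality in the special linear group. -/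
theorem isMaximalIn_of_dichotomy [Finite F] {ι : Type} [Fintype ι] [DecidableEq ι] (h3 : 3 ≤ Fintype.card ι)
    (S : Pauli (Fin 6 → ZMod 2) ι F) (h2 : (2 : F) ≠ 0) {i : F} (hi : i * i = -1)
    (hsplit : ∀ v u, S.B v u = 1 → Nonempty (Split S v u)) (hS : S.Dichotomy)
    (hlt : ¬ specialLinear ι F ≤ S.norm) :
    IsMaximalIn (specialLinear ι F) (S.norm ⊓ specialLinear ι F) := by
  refine ⟨lt_of_le_of_ne inf_le_right fun h => hlt (h.ge.trans inf_le_left), fun M hHM hMS => ?_⟩
  haveI : (scalars ι F).Normal := ⟨fun g hg x => by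
    rw [← CfsgLib.Geometric.PauliMax.Pauli.scalar_comm hg, mul_inv_cancel_right]; exact hg⟩
  have hN : S.norm ≤ M ⊔ scalars ι F := by
    refine S.norm_le_of_gens h2 hi (fun v => ?_) (fun v => ?_) le_sup_right
    · exact Subgroup.mem_sup_left (hHM ⟨(S.tgl_mem_norm h2 hi v).1, (det_tgl S h2 hi hsplit v).1⟩)
    · exact Subgroup.mem_sup_left (hHM ⟨S.gl_mem_norm v, (det_tgl S h2 hi hsplit v).2⟩)
  rcases hS _ hN with h | h
  · exact Or.inl (le_antisymm (le_inf (le_sup_left.trans h) hMS) hHM)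
  · refine Or.inr (le_antisymm hMS ((sl_le_commutator h3).trans ?_))
    refine (Subgroup.commutator_mono h h).trans (Subgroup.commutator_le.2 ?_)
    intro a ha b hb
    obtain ⟨a₁, ha₁, z₁, hz₁, rfl⟩ := Subgroup.mem_sup_of_normal_right.1 ha
    obtain ⟨b₁, hb₁, z₂, hz₂, rfl⟩ := Subgroup.mem_sup_of_normal_right.1 hb
    have e : ⁅a₁ * z₁, b₁ * z₂⁆ = ⁅a₁, b₁⁆ := by
      simp only [commutatorElement_def, mul_inv_rev]
      have c1 : ∀ x : GL ι F, z₁ * x = x * z₁ := Pauli.scalar_comm hz₁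
      have c2 : ∀ x : GL ι F, z₂ * x = x * z₂ := Pauli.scalar_comm hz₂
      calc a₁ * z₁ * (b₁ * z₂) * (z₁⁻¹ * a₁⁻¹) * (z₂⁻¹ * b₁⁻¹)
          = a₁ * (z₁ * (b₁ * z₂)) * z₁⁻¹ * a₁⁻¹ * (z₂⁻¹ * b₁⁻¹) := by group
        _ = a₁ * b₁ * (z₂ * a₁⁻¹) * z₂⁻¹ * b₁⁻¹ := by rw [c1]; group
        _ = a₁ * b₁ * a₁⁻¹ * b₁⁻¹ := by rw [c2]; group
    rw [e, commutatorElement_def]
    exact M.mul_mem (M.mul_mem (M.mul_mem ha₁ hb₁) (M.inv_mem ha₁)) (M.inv_mem hb₁)

/-- The class of symplectic type in the eight-dimensional special linear groups. -/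
theorem symplecticType_isMaximalIn_eight [Fintype F] {p : ℕ} (hp : p.Prime) (hF : Fintype.card F = p)
    (h4 : p % 4 = 1) {R : Subgroup (GL (Fin 8) F)} (hR : IsLinearSymplecticTypeData 2 R) :
    IsMaximalIn (specialLinear (Fin 8) F) (subgroupNormalizer R ⊓ specialLinear (Fin 8) F) := by
  obtain ⟨q, e, hq2, hmin, -⟩ := hR.field
  haveI := hmin.2.1
  have hlt : ¬ specialLinear (Fin 8) F ≤ subgroupNormalizer R :=
    CfsgLib.SmallDim.not_sl_le_subgroupNormalizer_of_pGroup (p := q) hR.symplecticType.prime hmin.1 hq2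
      (by simp) hR.symplecticType.pGroup
      (CfsgLib.SmallDim.not_le_scalars_of_irreducible (by simp) hR.absIrred.1)
  have h2 : (2 : F) ≠ 0 := fun h => by
    have h' := (CharP.cast_eq_zero_iff F q 2).1 (by exact_mod_cast h)
    exact hq2 ((Nat.prime_dvd_prime_iff_eq hmin.1 Nat.prime_two).1 h').symm
  obtain ⟨i, hi⟩ : ∃ i : F, i * i = -1 := by
    obtain ⟨i, hi⟩ := FiniteField.isSquare_neg_one_iff.2 (by rw [hF]; omega : Fintype.card F % 4 ≠ 3)
    exact ⟨i, hi.symm⟩
  obtain ⟨S, hS⟩ := exists_pauli hp hF h4 hR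
  rw [hS] at hlt ⊢
  have hsplit : ∀ v u, S.B v u = 1 → Nonempty (Split S v u) := fun v u h => exists_split h2 S h
  refine isMaximalIn_of_dichotomy (by simp) S h2 hi hsplit ?_ hlt
  exact dichotomy_three h2 hi S hsplit fun T =>
    dichotomy_four_of h2 hi (SLFour.Nstd_isMaximalIn hp hF h4 hi h2) T

end CfsgLib.Geometric.PauliMax
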