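import Cfsg.Agent.Lib.Geometric.PauliMax.Action

/-!
An overgroup of the normaliser of a Pauli system whose elements of determinant one normalise the
system normalises it.
-/

set_option autoImplicit false

namespace CfsgLib.Geometric.PauliMax

open Cfsg.Geo

variable {V : Type} [AddCommGroup V] [Module (ZMod 2) V] [Fintype V] {ι : Type} [Fintype ι] [DecidableEq ι]
  {F : Type*} [Field F]

local notation "𝕄" => Matrix ι ι F

theorem two_cases : ∀ c : ZMod 2, c = 0 ∨ c = 1 := by decide

omit [Fintype V] in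
theorem label_add_self (v : V) : v + v = 0 := by
  rw [← one_smul (ZMod 2) v, ← add_smul, show (1 + 1 : ZMod 2) = 0 by decide, zero_smul]

namespace Pauli

variable (S : Pauli V ι F)

theorem B_swap (v w : V) : S.B v w = S.B w v := by
  have h := S.alt (v + w)
  simp only [map_add, LinearMap.add_apply, S.alt, add_zero, zero_add] at h
  revert h; generalize S.B v w = a; generalize S.B w v = b; revert a b; decide

/-- A transvection of the labels. -/
def tv2 (a v : V) : V := v + S.B v a • a

theorem tv2_tv2 (a v : V) : S.tv2 a (S.tv2 a v) = v := by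
  rw [tv2, tv2, map_add, LinearMap.add_apply, map_smul, LinearMap.smul_apply, S.alt, smul_zero, add_zero,
    add_assoc, label_add_self, add_zero]

/-- A symplectic involution commuting with its conjugates by transvections, and such that the products
of two of these commute, is the identity. -/
theorem eq_self_of_commuting {s : V → V} (hadd : ∀ v w, s (v + w) = s v + s w)
    (hss : ∀ v, s (s v) = v) (hB : ∀ v w, S.B (s v) (s w) = S.B v w)
    (h1 : ∀ u v, s (S.tv2 u (s (S.tv2 u v))) = S.tv2 u (s (S.tv2 u (s v))))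
    (h2 : ∀ u z v, s (S.tv2 u (s (S.tv2 u (S.tv2 z (s (S.tv2 u (s (S.tv2 u (S.tv2 z v))))))))) =
      S.tv2 z (s (S.tv2 u (s (S.tv2 u (S.tv2 z (s (S.tv2 u (s (S.tv2 u v))))))))))
    (u : V) : s u = u := by
  by_contra hne
  set w := s u with hw
  have hs0 : s 0 = 0 := by
    have h := hadd 0 0
    rw [add_zero] at h
    exact (add_eq_left).1 h.symm
  have hX : ∀ v, s (S.tv2 u (s (S.tv2 u v))) = S.tv2 w (S.tv2 u v) := by
    intro v
    rcases two_cases (S.B (s (S.tv2 u v)) u) with h | h
    · have e : S.B (S.tv2 u v) w = 0 := by rw [← hB, hw, hss]; exact h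
      show s (s (S.tv2 u v) + S.B (s (S.tv2 u v)) u • u) = S.tv2 u v + S.B (S.tv2 u v) w • w
      rw [h, e, zero_smul, zero_smul, add_zero, add_zero, hss]
    · have e : S.B (S.tv2 u v) w = 1 := by rw [← hB, hw, hss]; exact h
      show s (s (S.tv2 u v) + S.B (s (S.tv2 u v)) u • u) = S.tv2 u v + S.B (S.tv2 u v) w • w
      rw [h, e, one_smul, one_smul, hadd, hss]
  have hu : S.B u w = 0 := by
    rcases two_cases (S.B u w) with h | h
    · exact h
    exfalso
    have hsq : ∀ v, S.tv2 w (S.tv2 u (S.tv2 w (S.tv2 u v))) = v := by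
      intro v
      rw [← hX, ← hX, h1 u v, S.tv2_tv2, hss, S.tv2_tv2, hss]
    have h' : S.B w u = 1 := by rw [S.B_swap]; exact h
    have e := hsq u
    simp only [tv2, map_add, LinearMap.add_apply, S.alt, h, h', zero_smul, one_smul, add_zero, zero_add,
      map_zero, map_one, smul_eq_mul] at e
    rw [add_assoc, label_add_self] at e
    simp only [add_zero, zero_add, h, h', zero_smul, one_smul, S.alt] at e
    exact hne (by
      rw [← e]
      try rw [add_comm u w, add_assoc, label_add_self, add_zero])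
  have hu0 : u ≠ 0 := fun h0 => hne (by rw [hw, h0, hs0])
  obtain ⟨f, hfu, hf⟩ : ∃ f : V →ₗ[ZMod 2] ZMod 2, f u = 1 ∧ f w = 0 := by
    have hnot : u ∉ Submodule.span (ZMod 2) ({w} : Set V) := by
      intro h
      obtain ⟨c, hc⟩ := Submodule.mem_span_singleton.1 h
      rcases two_cases c with rfl | rfl
      · rw [zero_smul] at hc; exact hu0 hc.symm
      · rw [one_smul] at hc; exact hne hc
    obtain ⟨f, hf1, hf2⟩ := Submodule.exists_le_ker_of_notMem hnot
    exact ⟨f, (two_cases _).resolve_left hf1,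
      LinearMap.mem_ker.1 (hf2 (Submodule.mem_span_singleton_self w))⟩
  obtain ⟨z, hz⟩ := S.B_surj f
  have hzu : S.B z u = 1 := by rw [hz, hfu]
  have hzw : S.B z w = 0 := by rw [hz, hf]
  have e := h2 u z z
  rw [hX, hX, hX, hX] at e
  have hz0 : z ≠ 0 := fun h0 => by rw [h0, map_zero, LinearMap.zero_apply] at hzu; exact zero_ne_one hzu
  refine hz0 ?_
  simp only [tv2, map_add, LinearMap.add_apply, map_smul, LinearMap.smul_apply, S.alt, smul_eq_mul, hzu, hzw,
    hu, S.B_swap u z, S.B_swap w z, S.B_swap w u, mul_zero, mul_one, add_zero, zero_add, zero_smul,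
    one_smul] at e
  have h11 : (1 + 1 : ZMod 2) = 0 := by decide
  simp only [h11, zero_smul, add_zero, one_smul] at e
  have : z + u = u := by
    simp only [add_assoc, add_comm, add_left_comm, label_add_self] at e ⊢
    first | exact e | exact e.symm | simpa [label_add_self] using e.symm | simpa [label_add_self] using e
  simpa using this

/-- Elements of determinant one deciding, the whole overgroup normalises the system. -/
theorem le_norm_of_inf (h2 : (2 : F) ≠ 0) {i : F} (hi : i * i = -1) {M : Subgroup (GL ι F)}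
    (hN : S.norm ≤ M) (hSL : M ⊓ specialLinear ι F ≤ S.norm) : M ≤ S.norm := by
  intro g hg
  have hconj : ∀ g ∈ M, ∀ h ∈ S.norm, g * h * g⁻¹ ∈ S.norm := by
    intro g hg h hh
    have hx : g * h * g⁻¹ * h⁻¹ ∈ M ⊓ specialLinear ι F := by
      refine Subgroup.mem_inf.2 ⟨mul_mem (mul_mem (mul_mem hg (hN hh)) (inv_mem hg)) (inv_mem (hN hh)), ?_⟩
      refine MonoidHom.mem_ker.2 ?_
      simp only [map_mul, map_inv]
      rw [mul_comm (Matrix.GeneralLinearGroup.det g), mul_inv_cancel_right, mul_inv_cancel]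
    simpa using mul_mem (hSL hx) hh
  -- the conjugates of the Pauli matrices and their actions
  let K : GL ι F → Prop := fun x => x ∈ S.norm ∧
    ∃ (b : V) (c : F), ((g⁻¹ * x * g : GL ι F) : 𝕄) = c • S.P b
  have hKc : ∀ {x h : GL ι F}, K x → h ∈ S.norm → K (h * x * h⁻¹) := by
    rintro x h ⟨hx, b, c, hb⟩ hh
    have hh' : g⁻¹ * h * g ∈ S.norm := by simpa using hconj g⁻¹ (inv_mem hg) h hh
    refine ⟨mul_mem (mul_mem hh hx) (inv_mem hh), S.sP (g⁻¹ * h * g) b, c * S.cP (g⁻¹ * h * g) b, ?_⟩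
    rw [show g⁻¹ * (h * x * h⁻¹) * g = g⁻¹ * h * g * (g⁻¹ * x * g) * (g⁻¹ * h * g)⁻¹ by group,
      Units.val_mul _ (g⁻¹ * h * g)⁻¹, Units.val_mul (g⁻¹ * h * g), hb, mul_smul_comm, S.act_spec hh',
      smul_smul, smul_mul_assoc, Units.mul_inv_cancel_right]
  have hcomm : ∀ {x y : GL ι F}, K x → K y → ∀ v, S.sP x (S.sP y v) = S.sP y (S.sP x v) := by
    rintro x y ⟨hx, b, c, hb⟩ ⟨hy, b', c', hb'⟩ v
    rw [← (S.act_mul hx hy v).1, ← (S.act_mul hy hx v).1]
    refine (S.act_congr (mul_mem hx hy) (mul_mem hy hx) (a := sgn F (S.B b b')) ?_ v).1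
    have key : ((g⁻¹ * (x * y) * g : GL ι F) : 𝕄) = sgn F (S.B b b') • ((g⁻¹ * (y * x) * g : GL ι F) : 𝕄) := by
      rw [show g⁻¹ * (x * y) * g = g⁻¹ * x * g * (g⁻¹ * y * g) by group,
        show g⁻¹ * (y * x) * g = g⁻¹ * y * g * (g⁻¹ * x * g) by group, Units.val_mul (g⁻¹ * x * g),
        Units.val_mul (g⁻¹ * y * g), hb, hb', smul_mul_assoc, mul_smul_comm, smul_mul_assoc, mul_smul_comm,
        S.comm b b']
      simp only [smul_smul]
      congr 1
      ring
    calc ((x * y : GL ι F) : 𝕄)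
        = (g : 𝕄) * ((g⁻¹ * (x * y) * g : GL ι F) : 𝕄) * ((g⁻¹ : GL ι F) : 𝕄) := by
          rw [← Units.val_mul, ← Units.val_mul]; congr 1; group
      _ = _ := by
          rw [key, mul_smul_comm, smul_mul_assoc, ← Units.val_mul, ← Units.val_mul]
          congr 2; group
  have hfix : ∀ a v, S.sP (g * S.gl a * g⁻¹) v = v := by
    intro a
    set r := g * S.gl a * g⁻¹ with hr
    have hrN : r ∈ S.norm := hconj g hg _ (S.gl_mem_norm a)
    have hK : K r := ⟨hrN, a, 1, by rw [hr, one_smul, ← S.coe_gl]; congr 1; group⟩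
    have hone : ∀ v, S.sP (1 : GL ι F) v = v := fun v =>
      (S.act_unique (one_mem S.norm) (w := v) (c := 1) (by simp)).1
    have hrr : r * r = 1 := by
      have : S.gl a * S.gl a = 1 := Units.ext (S.sq a)
      rw [hr, show g * S.gl a * g⁻¹ * (g * S.gl a * g⁻¹) = g * (S.gl a * S.gl a) * g⁻¹ by group, this,
        mul_one, mul_inv_cancel]
    have hss : ∀ v, S.sP r (S.sP r v) = v := fun v => by
      rw [← (S.act_mul hrN hrN v).1, hrr, hone]
    -- conjugates by transvection elements
    have hT : ∀ {x : GL ι F} (u : V), x ∈ S.norm → ∀ v,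
        S.sP (S.tgl h2 hi u * x * (S.tgl h2 hi u)⁻¹) v = S.tv2 u (S.sP x (S.tv2 u v)) := by
      intro x u hx v
      obtain ⟨ht, hta⟩ := S.tgl_mem_norm h2 hi u
      have hinv : S.sP (S.tgl h2 hi u)⁻¹ v = S.tv2 u v := by
        have h := (S.act_mul ht (inv_mem ht) v).1
        rw [mul_inv_cancel, hone, hta] at h
        calc S.sP (S.tgl h2 hi u)⁻¹ v = S.tv2 u (S.tv2 u (S.sP (S.tgl h2 hi u)⁻¹ v)) := (S.tv2_tv2 u _).symm
          _ = S.tv2 u v := congrArg (S.tv2 u) h.symm
      rw [(S.act_mul (mul_mem ht hx) (inv_mem ht) v).1, (S.act_mul ht hx _).1, hinv, hta]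
      rfl
    refine S.eq_self_of_commuting (fun v w => (S.act_add hrN v w).1) hss
      (fun v w => S.act_B h2 hrN v w) (fun u v => ?_) (fun u z v => ?_)
    · have h := hcomm hK (hKc hK (S.tgl_mem_norm h2 hi u).1) v
      rwa [hT u hrN, hT u hrN] at h
    · set ru := S.tgl h2 hi u * r * (S.tgl h2 hi u)⁻¹ with hru
      have hu' := (S.tgl_mem_norm h2 hi u).1
      have hz' := (S.tgl_mem_norm h2 hi z).1
      have k0 : K ru := hKc hK hu'
      have k3 := hKc hK hz'
      have k2 := hKc k0 hz'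
      -- the products `r ru` and their conjugates commute
      set r' := S.tgl h2 hi z * r * (S.tgl h2 hi z)⁻¹ with hr'
      set ru' := S.tgl h2 hi z * ru * (S.tgl h2 hi z)⁻¹ with hru'
      have hswap : ∀ y, S.sP r (S.sP ru (S.sP r' (S.sP ru' y))) =
          S.sP r' (S.sP ru' (S.sP r (S.sP ru y))) := fun y => by
        rw [hcomm k0 k3, hcomm hK k3, hcomm k0 k2, hcomm hK k2]
      have h := hswap v
      simp only [hr', hru', hT z hrN, hT z k0.1, S.tv2_tv2] at h
      simpa only [hru, hT u hrN] using h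
  refine S.mem_norm fun a => ?_
  obtain ⟨u, c, hu⟩ := S.exists_of_fixed h2 (hconj g hg _ (S.gl_mem_norm a)) (hfix a)
  refine ⟨u, c, ?_⟩
  rw [← smul_mul_assoc, ← hu, ← S.coe_gl, ← Units.val_mul, ← Units.val_mul]
  congr 1
  group

end Pauli

end CfsgLib.Geometric.PauliMax
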