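import Cfsg.Agent.Lib.Geometric.PauliMax.Extend

/-!
A group normalising the normaliser of a Pauli system normalises the system.
-/

set_option autoImplicit false

namespace CfsgLib.Geometric.PauliMax

open Cfsg.Geo

variable {V : Type} [AddCommGroup V] [Module (ZMod 2) V] [Fintype V] {ι : Type} [Fintype ι] [DecidableEq ι]
  {F : Type*} [Field F]

local notation "𝕄" => Matrix ι ι F

namespace Pauli

variable (S : Pauli V ι F)

/-- A group conjugating the normaliser into itself lies in it. -/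
theorem le_norm_of_conj (h2 : (2 : F) ≠ 0) {i : F} (hi : i * i = -1) {M : Subgroup (GL ι F)}
    (hconj : ∀ g ∈ M, ∀ h ∈ S.norm, g * h * g⁻¹ ∈ S.norm) : M ≤ S.norm := by
  intro g hg
  -- the conjugates of the Pauli matrices and their actions
  let K : GL ι F → Prop := fun x => x ∈ S.norm ∧
    ∃ (b : V) (c : F), ((g⁻¹ * x * g : GL ι F) : 𝕄) = c • S.P b
  have hKc : ∀ {x h : GL ι F}, K x → h ∈ S.norm → K (h * x * h⁻¹) := by
    rintro x h ⟨hx, b, c, hb⟩ hh
    have hh' : g⁻¹ * h * g ∈ S.norm := by simpa using hconj g⁻¹ (inv_mem hg) h hh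
    refine ⟨mul_mem (mul_mem hh hx) (inv_mem hh), S.sP (g⁻¹ * h * g) b, c * S.cP (g⁻¹ * h * g) b, ?_⟩
    rw [show g⁻¹ * (h * x * h⁻¹) * g = g⁻¹ * h * g * (g⁻¹ * x * g) * (g⁻¹ * h * g)⁻¹ by group,
      Units.val_mul _ (g⁻¹ * h * g)⁻¹, Units.val_mul (g⁻¹ * h * g), hb, mul_smul_comm, S.act_spec hh',
      smul_smul, smul_mul_assoc, Units.mul_inv_cancel_right]
  have hcomm : ∀ {x y : GL ι F}, K x → K y → ∀ v, S.sP x (S.sP y v) = S.sP y (S.sP x v) := by
    rintro x y ⟨hx, b, c, hb⟩ ⟨hy, b', c', hb'⟩ v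
    rw [← (S.act_mul hx hy v).1, ← (S.act_mul hy hx v).1]
    refine (S.act_congr (mul_mem hx hy) (mul_mem hy hx) (a := sgn F (S.B b b')) ?_ v).1
    have key : ((g⁻¹ * (x * y) * g : GL ι F) : 𝕄) = sgn F (S.B b b') • ((g⁻¹ * (y * x) * g : GL ι F) : 𝕄) := by
      rw [show g⁻¹ * (x * y) * g = g⁻¹ * x * g * (g⁻¹ * y * g) by group,
        show g⁻¹ * (y * x) * g = g⁻¹ * y * g * (g⁻¹ * x * g) by group, Units.val_mul (g⁻¹ * x * g),
        Units.val_mul (g⁻¹ * y * g), hb, hb', smul_mul_assoc, mul_smul_comm, smul_mul_assoc, mul_smul_comm,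
        S.comm b b']
      simp only [smul_smul]
      congr 1
      ring
    calc ((x * y : GL ι F) : 𝕄)
        = (g : 𝕄) * ((g⁻¹ * (x * y) * g : GL ι F) : 𝕄) * ((g⁻¹ : GL ι F) : 𝕄) := by
          rw [← Units.val_mul, ← Units.val_mul]; congr 1; group
      _ = _ := by
          rw [key, mul_smul_comm, smul_mul_assoc, ← Units.val_mul, ← Units.val_mul]
          congr 2; group
  have hfix : ∀ a v, S.sP (g * S.gl a * g⁻¹) v = v := by
    intro a
    set r := g * S.gl a * g⁻¹ with hr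
    have hrN : r ∈ S.norm := hconj g hg _ (S.gl_mem_norm a)
    have hK : K r := ⟨hrN, a, 1, by rw [hr, one_smul, ← S.coe_gl]; congr 1; group⟩
    have hone : ∀ v, S.sP (1 : GL ι F) v = v := fun v =>
      (S.act_unique (one_mem S.norm) (w := v) (c := 1) (by simp)).1
    have hrr : r * r = 1 := by
      have : S.gl a * S.gl a = 1 := Units.ext (S.sq a)
      rw [hr, show g * S.gl a * g⁻¹ * (g * S.gl a * g⁻¹) = g * (S.gl a * S.gl a) * g⁻¹ by group, this,
        mul_one, mul_inv_cancel]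
    have hss : ∀ v, S.sP r (S.sP r v) = v := fun v => by
      rw [← (S.act_mul hrN hrN v).1, hrr, hone]
    -- conjugates by transvection elements
    have hT : ∀ {x : GL ι F} (u : V), x ∈ S.norm → ∀ v,
        S.sP (S.tgl h2 hi u * x * (S.tgl h2 hi u)⁻¹) v = S.tv2 u (S.sP x (S.tv2 u v)) := by
      intro x u hx v
      obtain ⟨ht, hta⟩ := S.tgl_mem_norm h2 hi u
      have hinv : S.sP (S.tgl h2 hi u)⁻¹ v = S.tv2 u v := by
        have h := (S.act_mul ht (inv_mem ht) v).1
        rw [mul_inv_cancel, hone, hta] at h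
        calc S.sP (S.tgl h2 hi u)⁻¹ v = S.tv2 u (S.tv2 u (S.sP (S.tgl h2 hi u)⁻¹ v)) := (S.tv2_tv2 u _).symm
          _ = S.tv2 u v := congrArg (S.tv2 u) h.symm
      rw [(S.act_mul (mul_mem ht hx) (inv_mem ht) v).1, (S.act_mul ht hx _).1, hinv, hta]
      rfl
    refine S.eq_self_of_commuting (fun v w => (S.act_add hrN v w).1) hss
      (fun v w => S.act_B h2 hrN v w) (fun u v => ?_) (fun u z v => ?_)
    · have h := hcomm hK (hKc hK (S.tgl_mem_norm h2 hi u).1) v
      rwa [hT u hrN, hT u hrN] at h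
    · set ru := S.tgl h2 hi u * r * (S.tgl h2 hi u)⁻¹ with hru
      have hu' := (S.tgl_mem_norm h2 hi u).1
      have hz' := (S.tgl_mem_norm h2 hi z).1
      have k0 : K ru := hKc hK hu'
      have k3 := hKc hK hz'
      have k2 := hKc k0 hz'
      -- the products `r ru` and their conjugates commute
      set r' := S.tgl h2 hi z * r * (S.tgl h2 hi z)⁻¹ with hr'
      set ru' := S.tgl h2 hi z * ru * (S.tgl h2 hi z)⁻¹ with hru'
      have hswap : ∀ y, S.sP r (S.sP ru (S.sP r' (S.sP ru' y))) =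
          S.sP r' (S.sP ru' (S.sP r (S.sP ru y))) := fun y => by
        rw [hcomm k0 k3, hcomm hK k3, hcomm k0 k2, hcomm hK k2]
      have h := hswap v
      simp only [hr', hru', hT z hrN, hT z k0.1, S.tv2_tv2] at h
      simpa only [hru, hT u hrN] using h
  refine S.mem_norm fun a => ?_
  obtain ⟨u, c, hu⟩ := S.exists_of_fixed h2 (hconj g hg _ (S.gl_mem_norm a)) (hfix a)
  refine ⟨u, c, ?_⟩
  rw [← smul_mul_assoc, ← hu, ← S.coe_gl, ← Units.val_mul, ← Units.val_mul]
  congr 1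
  group

end Pauli

end CfsgLib.Geometric.PauliMax
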