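import Mathlib

/-!
No three-dimensional space of non-singular symmetric matrices over `𝔽₂` maps linearly to the solutions of
`S u = diag S`; a symmetric matrix with zero diagonal in odd dimension three is singular.
-/

set_option autoImplicit false

namespace CfsgLib.Geometric.PauliMax

/-- Three-dimensional space. -/
abbrev V3 := Fin 3 → ZMod 2

theorem vec_three (p : V3) :
    p = p 0 • (Pi.single 0 1 : V3) + p 1 • (Pi.single 1 1 : V3) + p 2 • (Pi.single 2 1 : V3) := by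
  ext i; fin_cases i <;> simp

theorem trilinear_table : ∀ a b c d e f g : ZMod 2, ∃ p q : V3, p ≠ 0 ∧ q ≠ 0 ∧ ∀ r : V3,
    p 0 * (q 0 * (r 0 * a + r 1 * d + r 2 * e) + q 1 * (r 0 * d + r 1 * d + r 2 * g) +
        q 2 * (r 0 * e + r 1 * g + r 2 * e)) +
      p 1 * (q 0 * (r 0 * d + r 1 * d + r 2 * g) + q 1 * (r 0 * d + r 1 * b + r 2 * f) +
        q 2 * (r 0 * g + r 1 * f + r 2 * f)) +
      p 2 * (q 0 * (r 0 * e + r 1 * g + r 2 * e) + q 1 * (r 0 * g + r 1 * f + r 2 * f) +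
        q 2 * (r 0 * e + r 1 * f + r 2 * c)) = 0 := by
  decide +kernel

theorem alternating_table : ∀ a b c : ZMod 2, ∃ q : V3, q ≠ 0 ∧ ∀ r : V3,
    q 0 * (r 1 * a + r 2 * b) + q 1 * (r 0 * a + r 2 * c) + q 2 * (r 0 * b + r 1 * c) = 0 := by
  decide +kernel

/-- No fully symmetric non-singular trilinear form on three-space has `T p q p = T p q q`. -/
theorem no_trilinear (T : V3 →ₗ[ZMod 2] V3 →ₗ[ZMod 2] V3 →ₗ[ZMod 2] ZMod 2)
    (h23 : ∀ p q r, T p q r = T p r q) (h13 : ∀ p q r, T p q r = T r q p)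
    (hdiag : ∀ p q, T p q p = T p q q) (hnd : ∀ p q, p ≠ 0 → q ≠ 0 → ∃ r, T p q r ≠ 0) : False := by
  have h12 : ∀ p q r, T p q r = T q p r := fun p q r => by rw [h23, h13, h23]
  set e : Fin 3 → V3 := fun i => Pi.single i 1
  have key : ∀ i j, T (e i) (e i) (e j) = T (e i) (e j) (e j) := fun i j => by
    rw [h23, hdiag]
  obtain ⟨p, q, hp, hq, hz⟩ := trilinear_table (T (e 0) (e 0) (e 0)) (T (e 1) (e 1) (e 1))
    (T (e 2) (e 2) (e 2)) (T (e 0) (e 0) (e 1)) (T (e 0) (e 0) (e 2)) (T (e 1) (e 1) (e 2))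
    (T (e 0) (e 1) (e 2))
  obtain ⟨r, hr⟩ := hnd p q hp hq
  apply hr
  rw [← hz r]
  conv_lhs => rw [vec_three p, vec_three q, vec_three r]
  simp only [map_add, map_smul, LinearMap.add_apply, LinearMap.smul_apply, smul_eq_mul]
  have a1 : T (e 0) (e 1) (e 0) = T (e 0) (e 0) (e 1) := h23 _ _ _
  have a2 : T (e 1) (e 0) (e 0) = T (e 0) (e 0) (e 1) := by rw [h12, h23]
  have a3 : T (e 0) (e 1) (e 1) = T (e 0) (e 0) (e 1) := (key 0 1).symm
  have a4 : T (e 1) (e 0) (e 1) = T (e 0) (e 0) (e 1) := by rw [h12, a3]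
  have a5 : T (e 1) (e 1) (e 0) = T (e 0) (e 0) (e 1) := by rw [h23, a4]
  have b1 : T (e 0) (e 2) (e 0) = T (e 0) (e 0) (e 2) := h23 _ _ _
  have b2 : T (e 2) (e 0) (e 0) = T (e 0) (e 0) (e 2) := by rw [h12, h23]
  have b3 : T (e 0) (e 2) (e 2) = T (e 0) (e 0) (e 2) := (key 0 2).symm
  have b4 : T (e 2) (e 0) (e 2) = T (e 0) (e 0) (e 2) := by rw [h12, b3]
  have b5 : T (e 2) (e 2) (e 0) = T (e 0) (e 0) (e 2) := by rw [h23, b4]
  have c1 : T (e 1) (e 2) (e 1) = T (e 1) (e 1) (e 2) := h23 _ _ _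
  have c2 : T (e 2) (e 1) (e 1) = T (e 1) (e 1) (e 2) := by rw [h12, h23]
  have c3 : T (e 1) (e 2) (e 2) = T (e 1) (e 1) (e 2) := (key 1 2).symm
  have c4 : T (e 2) (e 1) (e 2) = T (e 1) (e 1) (e 2) := by rw [h12, c3]
  have c5 : T (e 2) (e 2) (e 1) = T (e 1) (e 1) (e 2) := by rw [h23, c4]
  have g1 : T (e 0) (e 2) (e 1) = T (e 0) (e 1) (e 2) := h23 _ _ _
  have g2 : T (e 1) (e 0) (e 2) = T (e 0) (e 1) (e 2) := h12 _ _ _
  have g3 : T (e 1) (e 2) (e 0) = T (e 0) (e 1) (e 2) := by rw [h23, g2]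
  have g4 : T (e 2) (e 1) (e 0) = T (e 0) (e 1) (e 2) := h13 _ _ _
  have g5 : T (e 2) (e 0) (e 1) = T (e 0) (e 1) (e 2) := by rw [h23, g4]
  simp only [e] at *
  simp only [a1, a2, a3, a4, a5, b1, b2, b3, b4, b5, c1, c2, c3, c4, c5, g1, g2, g3, g4, g5]
  ring

/-- An alternating form on three-space has a radical. -/
theorem exists_radical (T : V3 →ₗ[ZMod 2] V3 →ₗ[ZMod 2] ZMod 2)
    (halt : ∀ p, T p p = 0) : ∃ q, q ≠ 0 ∧ ∀ r, T q r = 0 := by
  set e : Fin 3 → V3 := fun i => Pi.single i 1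
  have sk : ∀ i j, T (e j) (e i) = T (e i) (e j) := fun i j => by
    have h := halt (e i + e j)
    simp only [map_add, LinearMap.add_apply, halt, add_zero, zero_add] at h
    rw [add_eq_zero_iff_eq_neg, CharTwo.neg_eq] at h
    exact h
  obtain ⟨q, hq, hz⟩ := alternating_table (T (e 0) (e 1)) (T (e 0) (e 2)) (T (e 1) (e 2))
  refine ⟨q, hq, fun r => ?_⟩
  rw [← hz r]
  conv_lhs => rw [vec_three q, vec_three r]
  simp only [map_add, map_smul, LinearMap.add_apply, LinearMap.smul_apply, smul_eq_mul]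
  have s1 := sk 0 1
  have s2 := sk 0 2
  have s3 := sk 1 2
  simp only [e] at *
  simp only [halt, s1, s2, s3]
  ring

end CfsgLib.Geometric.PauliMax
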