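import Cfsg.Agent.Lib.Geometric.PauliMax.Data
import Cfsg.Agent.Lib.Geometric.PauliMax.Trilinear

/-!
If all centralisers of Pauli elements lie in `N`, no conjugate of a Pauli element outside the Pauli group
lies in `N`.
-/

set_option autoImplicit false

namespace CfsgLib.Geometric.PauliMax

open Module

namespace Data

variable {G : Type*} [Group G] {N : Subgroup G} (D : Data G N)

/-- Conjugate of a Pauli element. -/
def cx (g : G) (a : V6) : G := g * D.x a * g⁻¹

theorem cx_add (g : G) (a b : V6) : D.cx g (a + b) = D.cx g a * D.cx g b := by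
  simp only [cx, D.x_add]; group

theorem cx_sq (g : G) (a : V6) : D.cx g a * D.cx g a = 1 := by
  rw [← cx_add, two_torsion, cx, D.x_zero]; group

/-- The Pauli elements which `g` moves into `N`. -/
def meet (g : G) : Submodule (ZMod 2) V6 :=
  AddSubgroup.toZModSubmodule 2
    { carrier := {a | D.cx g a ∈ N}
      zero_mem' := by
        show D.cx g 0 ∈ N
        rw [cx, D.x_zero, mul_one, mul_inv_cancel]
        exact one_mem N
      add_mem' := fun {a b} ha hb => by
        show D.cx g (a + b) ∈ N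
        rw [cx_add]
        exact mul_mem ha hb
      neg_mem' := fun {a} ha => by rwa [neg_eq_self] }

theorem mem_meet {g : G} {a : V6} : a ∈ D.meet g ↔ D.cx g a ∈ N := Iff.rfl

theorem fix_cx (hloc : D.Local) {g : G} (hg : g ∉ N) {a : V6} (ha : D.cx g a ∈ N) (ha0 : a ≠ 0) :
    D.fix ha = D.meet g⁻¹ := by
  ext v
  rw [D.mem_fix, mem_meet, show D.cx g⁻¹ v = g⁻¹ * D.x v * g by rw [cx, inv_inv]]
  constructor
  · intro hv
    refine hloc a ha0 _ ?_
    have h : D.cx g a * D.x v * (D.cx g a)⁻¹ = D.x v := by rw [D.conj _ ha, hv]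
    rw [cx, mul_inv_eq_iff_eq_mul] at h
    show g⁻¹ * D.x v * g * D.x a = D.x a * (g⁻¹ * D.x v * g)
    calc g⁻¹ * D.x v * g * D.x a = g⁻¹ * (D.x v * (g * D.x a * g⁻¹)) * g := by group
      _ = g⁻¹ * (g * D.x a * g⁻¹ * D.x v) * g := by rw [h]
      _ = D.x a * (g⁻¹ * D.x v * g) := by group
  · intro hm
    by_contra hne
    have h1 : D.x (D.s (D.cx g a) v + v) = g * D.x (a + D.s (g⁻¹ * D.x v * g) a) * g⁻¹ := by
      rw [D.x_add, D.x_add, ← D.conj _ ha, ← D.conj _ hm]
      have hi : (D.cx g a)⁻¹ = D.cx g a := inv_eq_of_mul_eq_one_right (D.cx_sq g a)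
      rw [hi]
      simp only [mul_inv_rev, inv_inv, D.x_inv, cx]
      group
    have hc0 : a + D.s (g⁻¹ * D.x v * g) a ≠ 0 := by
      intro h
      rw [h, D.x_zero, mul_one, mul_inv_cancel, D.x_eq_one, add_eq_zero_iff'] at h1
      exact hne h1
    exact hg (D.mem_of_conj_x hloc hc0 h1.symm)

theorem cx_not_id (hloc : D.Local) {g : G} (hg : g ∉ N) {a : V6} (ha : D.cx g a ∈ N) (ha0 : a ≠ 0) :
    ∃ v, D.s (D.cx g a) v ≠ v := by
  by_contra h
  push Not at h
  obtain ⟨b, hb⟩ := D.ker _ ha h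
  exact hg (D.mem_of_conj_x hloc ha0 hb)

/-- The fusion statement. -/
theorem fusion (hloc : D.Local) {g : G} {a : V6} (ha0 : a ≠ 0) (ha : g * D.x a * g⁻¹ ∈ N) :
    g ∈ N := by
  by_contra hg
  change D.cx g a ∈ N at ha
  set A := D.meet g
  set W := D.meet g⁻¹
  have hg' : g⁻¹ ∉ N := fun h => hg (inv_mem_iff.1 h)
  have haA : a ∈ A := ha
  have hsq : ∀ b, D.cx g b * D.cx g b = 1 := D.cx_sq g
  have hfixW : ∀ b, ∀ hb : D.cx g b ∈ N, b ≠ 0 → D.fix hb = W := fun b hb => D.fix_cx hloc hg hb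
  have hW3 : 3 ≤ finrank (ZMod 2) W := by rw [← hfixW a ha ha0]; exact D.three_le_fix ha (hsq a)
  obtain ⟨w, hwW, hw0⟩ : ∃ w ∈ W, w ≠ 0 := by
    apply Submodule.exists_mem_ne_zero_of_ne_bot
    intro h
    rw [h, finrank_bot] at hW3
    omega
  have hA3 : 3 ≤ finrank (ZMod 2) A := by
    have e := D.fix_cx hloc hg' hwW hw0
    rw [inv_inv] at e
    show 3 ≤ finrank (ZMod 2) (D.meet g)
    rw [← e]
    exact D.three_le_fix hwW (D.cx_sq _ _)
  -- the displacements
  let η : A → (V6 →ₗ[ZMod 2] V6) := fun b => D.η (n := D.cx g b) b.2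
  have hη : ∀ (b : A) v, η b v = D.s (D.cx g b) v + v := fun b v => rfl
  have hzero : ∀ v, D.s (D.cx g 0) v = v := fun v => by
    rw [cx, D.x_zero, mul_one, mul_inv_cancel, D.s_one]
  have hWfix : ∀ (b : A) v, v ∈ W → D.s (D.cx g b) v = v := by
    intro b v hv
    by_cases hb : (b : V6) = 0
    · rw [hb, hzero]
    · exact (D.mem_fix b.2).1 (by rw [hfixW _ b.2 hb]; exact hv)
  have hηW : ∀ (b : A) v, η b v ∈ W := by
    intro b v
    by_cases hb : (b : V6) = 0
    · rw [hη, hb, hzero, two_torsion]; exact W.zero_mem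
    · rw [← hfixW _ b.2 hb]; exact D.range_le_fix b.2 (hsq _) ⟨v, rfl⟩
  have hηperp : ∀ (b : A) v, η b v ∈ D.perp W := by
    intro b v
    by_cases hb : (b : V6) = 0
    · rw [hη, hb, hzero, two_torsion]; exact (D.perp W).zero_mem
    · rw [← hfixW _ b.2 hb, ← D.range_eq_perp_fix b.2 (hsq _)]; exact ⟨v, rfl⟩
  have hadd : ∀ (b c : A) v, η (b + c) v = η b v + η c v := by
    intro b c v
    rw [hη, Submodule.coe_add, cx_add, D.s_mul b.2 c.2]
    have h2 := hWfix b _ (hηW c v)
    rw [hη, D.s_add b.2] at h2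
    rw [hη, hη]
    calc D.s (D.cx g b) (D.s (D.cx g c) v) + v
        = D.s (D.cx g b) (D.s (D.cx g c) v) + D.s (D.cx g b) v + (D.s (D.cx g b) v + v) := by
          rw [add_assoc, ← add_assoc (D.s (D.cx g b) v), two_torsion, zero_add]
      _ = _ := by rw [h2, add_comm]
  let Φ : A →ₗ[ZMod 2] (V6 →ₗ[ZMod 2] V6) :=
    AddMonoidHom.toZModLinearMap 2 (AddMonoidHom.mk' η fun b c => LinearMap.ext fun v => by
      rw [LinearMap.add_apply, hadd])
  have hΦ : ∀ b, Φ b = η b := fun b => rfl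
  have hne : ∀ (b : A), (b : V6) ≠ 0 → ∀ v, v ∉ W → η b v ≠ 0 := by
    intro b hb v hv h
    exact hv (by rw [← hfixW _ b.2 hb]; exact h)
  obtain ⟨v₀, hv₀⟩ : ∃ v, v ∉ W := by
    obtain ⟨v, hv⟩ := D.cx_not_id hloc hg ha ha0
    exact ⟨v, fun h => hv (hWfix ⟨a, haA⟩ v h)⟩
  have hAle : finrank (ZMod 2) A ≤ finrank (ZMod 2) (D.perp W) := by
    refine LinearMap.finrank_le_finrank_of_injective
      (f := ((LinearMap.applyₗ (R := ZMod 2) v₀).comp Φ).codRestrict (D.perp W) fun b => hηperp b v₀) ?_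
    rw [← LinearMap.ker_eq_bot, Submodule.eq_bot_iff]
    intro b hb
    by_contra hb0
    refine hne b (fun h => hb0 (Subtype.ext h)) v₀ hv₀ ?_
    exact congrArg Subtype.val (LinearMap.mem_ker.1 hb)
  rw [D.finrank_perp] at hAle
  have hW : finrank (ZMod 2) W = 3 := by omega
  have hA : finrank (ZMod 2) A = 3 := by omega
  have hperp : D.perp W = W := by
    refine Submodule.eq_of_le_of_finrank_eq ?_ (by rw [D.finrank_perp, hW])
    rw [← hfixW a ha ha0, ← D.range_eq_perp_fix ha (hsq a)]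
    exact D.range_le_fix ha (hsq a)
  obtain ⟨C, hC⟩ := Submodule.exists_isCompl W
  have hCd : finrank (ZMod 2) C = 3 := by
    have h := Submodule.finrank_add_eq_of_isCompl hC
    rw [finrank_fin_fun, hW] at h
    omega
  have hCW : ∀ c : C, (c : V6) ∈ W → c = 0 := fun c hc =>
    Subtype.ext (Submodule.disjoint_def.1 hC.disjoint _ hc c.2)
  have hdet : ∀ z, z ∈ W → (∀ c ∈ C, D.B z c = 0) → z = 0 := by
    intro z hz h
    refine D.nondeg z fun v => ?_
    obtain ⟨w', hw', c, hc, rfl⟩ :=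
      Submodule.mem_sup.1 (hC.sup_eq_top.symm ▸ Submodule.mem_top : v ∈ W ⊔ C)
    rw [map_add, h c hc, add_zero, D.sk]
    have hz' : z ∈ D.perp W := hperp.symm ▸ hz
    exact hz' w' hw'
  -- the pairing of `C` with `W`
  let Θ : C →ₗ[ZMod 2] (W →ₗ[ZMod 2] ZMod 2) := (D.B.compl₂ W.subtype).comp C.subtype
  have hΘ : Function.Bijective Θ := by
    have hi : Function.Injective Θ := by
      rw [← LinearMap.ker_eq_bot, Submodule.eq_bot_iff]
      intro c hc
      refine hCW c ?_
      rw [← hperp]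
      intro w' hw'
      show D.B w' c = 0
      rw [D.sk]
      exact LinearMap.congr_fun (LinearMap.mem_ker.1 hc) ⟨w', hw'⟩
    refine ⟨hi, (LinearMap.injective_iff_surjective_of_finrank_eq_finrank ?_).1 hi⟩
    rw [finrank_linearMap_self, hCd, hW]
  let χ : A →ₗ[ZMod 2] (W →ₗ[ZMod 2] ZMod 2) :=
    AddMonoidHom.toZModLinearMap 2 (AddMonoidHom.mk'
      (fun b => AddMonoidHom.toZModLinearMap 2 (AddMonoidHom.mk' (fun v : W => D.σ (D.cx g b) v)
        fun v v' => D.σ_add _ b.2 _ _ (hWfix b v v.2) (hWfix b v' v'.2)))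
      fun b c => LinearMap.ext fun v => by
        show D.σ (D.cx g ((b + c : A) : V6)) v = D.σ (D.cx g b) v + D.σ (D.cx g c) v
        rw [Submodule.coe_add, cx_add]
        exact D.σ_mul _ b.2 _ c.2 _ (hWfix b v v.2) (hWfix c v v.2))
  let u : A →ₗ[ZMod 2] C := (LinearEquiv.ofBijective Θ hΘ).symm.toLinearMap.comp χ
  have hu : ∀ (b : A) (v : W), D.B (u b) v = D.σ (D.cx g b) v := fun b v =>
    LinearMap.congr_fun ((LinearEquiv.ofBijective Θ hΘ).apply_symm_apply (χ b)) v
  have hsym : ∀ (b : A) c c', D.B (η b c) c' = D.B (η b c') c := fun b c c' => by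
    rw [D.η_adj b.2 (hsq _), D.sk]
  have hcond : ∀ (b : A) (c : C), D.B (η b c) (u b) = D.B (η b c) c := by
    intro b c
    rw [D.sk, hu b ⟨_, hηW b c⟩]
    show D.σ (D.cx g b) (D.s (D.cx g b) c + c) = _
    rw [add_comm, D.σ_sq _ b.2 (hsq _), hη, map_add, LinearMap.add_apply, D.alt, add_zero, D.sk]
  let φ : V3 ≃ₗ[ZMod 2] C := LinearEquiv.ofFinrankEq _ _ (by rw [hCd, finrank_fin_fun])
  have hnd : ∀ (b : A) (c : C), (b : V6) ≠ 0 → c ≠ 0 → ∃ c' : C, D.B (η b c) c' ≠ 0 := by
    intro b c hb hc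
    by_contra h
    push Not at h
    exact hne b hb c (fun hW' => hc (hCW c hW')) (hdet _ (hηW b c) fun c' hc' => h ⟨c', hc'⟩)
  have hub : Function.Bijective u := by
    have hi : Function.Injective u := by
      rw [← LinearMap.ker_eq_bot, Submodule.eq_bot_iff]
      intro b hb
      by_contra hb0
      have hb' : (b : V6) ≠ 0 := fun h => hb0 (Subtype.ext h)
      have hd : ∀ c : C, D.B (η b c) c = 0 := fun c => by
        rw [← hcond, LinearMap.mem_ker.1 hb, Submodule.coe_zero, map_zero]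
      obtain ⟨q, hq, hz⟩ := exists_radical
        (((D.B.comp (η b)).comp (C.subtype.comp φ.toLinearMap)).compl₂ (C.subtype.comp φ.toLinearMap))
        fun p => hd (φ p)
      obtain ⟨c', hc'⟩ := hnd b (φ q) hb' (by simpa using hq)
      refine hc' ?_
      have := hz (φ.symm c')
      simpa using this
    refine ⟨hi, (LinearMap.injective_iff_surjective_of_finrank_eq_finrank ?_).1 hi⟩
    rw [hA, hCd]
  let κ : V3 ≃ₗ[ZMod 2] A := φ.trans (LinearEquiv.ofBijective u hub).symm
  have hκ : ∀ p, u (κ p) = φ p := fun p => (LinearEquiv.ofBijective u hub).apply_symm_apply (φ p)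
  let T : V3 →ₗ[ZMod 2] V3 →ₗ[ZMod 2] V3 →ₗ[ZMod 2] ZMod 2 :=
    LinearMap.mk₂ (ZMod 2) (fun p q => (D.B (Φ (κ p) (φ q))).comp (C.subtype.comp φ.toLinearMap))
      (fun p p' q => by ext; simp) (fun c p q => by ext; simp) (fun p q q' => by ext; simp)
      (fun c p q => by ext; simp)
  have hT : ∀ p q r, T p q r = D.B (η (κ p) (φ q)) (φ r) := fun p q r => rfl
  have hdiag : ∀ p q, T p q p = T p q q := fun p q => by
    have h := hcond (κ p) (φ q)
    rw [hκ] at h
    exact h
  refine no_trilinear T (fun p q r => by rw [hT, hT, hsym]) (fun p q r => ?_) hdiag (fun p q hp hq => ?_)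
  · have h := hdiag (p + r) q
    simp only [map_add, LinearMap.add_apply] at h
    rw [hdiag p, hdiag r] at h
    have key : ∀ a b c d : ZMod 2, a + b + (c + d) = a + d → b = c := by decide
    have e : T p q q + T r q p + (T p q r + T r q q) = T p q q + T r q q := h
    exact (key _ _ _ _ e).symm
  · obtain ⟨c', hc'⟩ := hnd (κ p) (φ q) (fun h => hp (κ.map_eq_zero_iff.1 (Subtype.ext h)))
      (by simpa using hq)
    exact ⟨φ.symm c', by rw [hT, φ.apply_symm_apply]; exact hc'⟩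

end Data

end CfsgLib.Geometric.PauliMax
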