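import Cfsg.Agent.Lib.Geometric.PauliMax.Involution

/-!
If all centralisers of Pauli elements lie in `N`, then `N` is the whole group.
-/

set_option autoImplicit false

namespace CfsgLib.Geometric.PauliMax

open Module CfsgLib.Involutions

namespace Data

universe u

variable {G : Type u} [Group G] {N : Subgroup G} (D : Data G N)

theorem σ_one (v : V6) : D.σ 1 v = 0 := by
  have h := D.σ_mul 1 (one_mem N) 1 (one_mem N) v (D.s_one v) (D.s_one v)
  rw [mul_one] at h
  exact add_eq_left.1 h.symm

theorem s_eq_of_mul_eq_x {z t : G} (hz : z ∈ N) (ht : t ∈ N) (hz2 : z * z = 1) {b : V6}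
    (h : z * t = D.x b) (v : V6) : D.s t v = D.s z v := by
  have e : t = z * D.x b := by rw [← h, ← mul_assoc, hz2, one_mul]
  rw [e, D.s_mul hz (D.x_mem b), D.s_x]

theorem not_moves_x (a : V6) : ¬ D.Moves (D.x a) := fun ⟨v, hv⟩ => hv (D.s_x a v)

/-- No conjugate of a Pauli element is an element of `N` moving the space. -/
theorem conj_x_ne (hloc : D.Local) {h : G} {a : V6} (ha : a ≠ 0) {y : G} (hy : y ∈ N) (hym : D.Moves y) :
    h * D.x a * h⁻¹ ≠ y := by
  intro e
  have hh : h ∈ N := D.fusion hloc ha (e ▸ hy)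
  rw [D.conj h hh] at e
  exact D.not_moves_x _ (e ▸ hym)

theorem involution_le [Finite G] (hloc : D.Local) {z : G} (hz : z ∈ N) (hz2 : z * z = 1)
    (hzm : D.Moves z) {g : G} (hg : Commute g z) : g ∈ N := by
  by_cases hbad : D.Bad z
  swap
  · exact D.good_le hloc hz hz2 hbad hg
  -- a good involution commuting with `z`
  have hF := D.bad_fix hz hz2 hbad hzm
  have hU := D.bad_range hz hz2 hbad hzm
  obtain ⟨v, hvF, hvU, hχ⟩ : ∃ v, v ∈ D.fix hz ∧ v ∉ LinearMap.range (D.η hz) ∧ D.σ z v = 0 := by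
    let χ : D.fix hz →ₗ[ZMod 2] ZMod 2 := AddMonoidHom.toZModLinearMap 2 (AddMonoidHom.mk'
      (fun v : D.fix hz => D.σ z v)
      fun v w => D.σ_add z hz _ _ ((D.mem_fix hz).1 v.2) ((D.mem_fix hz).1 w.2))
    have h1 := LinearMap.finrank_range_add_finrank_ker χ
    have h2 : finrank (ZMod 2) (LinearMap.range χ) ≤ 1 :=
      (Submodule.finrank_le _).trans_eq (Module.finrank_self _)
    rw [hF] at h1
    by_contra hc
    push Not at hc
    have hle : (LinearMap.ker χ).map (D.fix hz).subtype ≤ LinearMap.range (D.η hz) := by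
      rintro _ ⟨v, hv, rfl⟩
      by_contra hvU
      exact hc v v.2 hvU hv
    have h3 := Submodule.finrank_mono hle
    rw [Submodule.finrank_map_subtype_eq, hU] at h3
    omega
  obtain ⟨u, huF, hu⟩ : ∃ u ∈ D.fix hz, D.B u v = 1 := by
    by_contra hc
    push Not at hc
    apply hvU
    rw [D.range_eq_perp_fix hz hz2]
    intro w hw
    exact (zmod_two_cases (D.B w v)).resolve_right (hc w hw)
  obtain ⟨t, htN, ht2, htz, hts⟩ :=
    D.transv v u hu z hz ((D.mem_fix hz).1 hvF) ((D.mem_fix hz).1 huF) hχ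
  have hv0 : v ≠ 0 := fun h => hvU (h ▸ Submodule.zero_mem _)
  have htu : D.s t u = u + v := by rw [hts, hu, one_smul]
  have htgood : ¬ D.Bad t := fun h => by
    have h' := h u
    rw [htu, map_add, D.alt, zero_add, hu] at h'
    exact one_ne_zero h'
  have htm : D.Moves t := ⟨u, fun h => hv0 (add_eq_left.1 (htu ▸ h))⟩
  have htv : D.s t v = v := by rw [hts, D.alt, zero_smul, add_zero]
  set r := D.x v with hr
  have hzr : Commute z r := (D.commute_x_iff hz).2 ((D.mem_fix hz).1 hvF)
  have ht1 : t ≠ 1 := fun h => by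
    obtain ⟨w, hw⟩ := htm
    exact hw (by rw [h, D.s_one])
  have hto : orderOf t = 2 := orderOf_eq_two_iff.2 ⟨ht2, ht1⟩
  have hro : orderOf r = 2 := D.orderOf_x hv0
  set y := g * t * g⁻¹ with hy
  have hyo : orderOf y = 2 := (orderOf_conj g t).trans hto
  have hyz : Commute y z := (hg.mul_left htz).mul_left hg.inv_left
  -- `y` lies in `N`
  have hyN : y ∈ N := by
    have hnc : ¬ IsConj r y := by
      intro h
      obtain ⟨d, hd⟩ := isConj_iff.1 h
      refine D.conj_x_ne hloc (h := g⁻¹ * d) hv0 htN htm ?_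
      calc g⁻¹ * d * D.x v * (g⁻¹ * d)⁻¹ = g⁻¹ * (d * r * d⁻¹) * g := by rw [hr]; group
        _ = t := by rw [hd, hy]; group
    obtain ⟨w, hwo, hwr, hwy, hwp⟩ := exists_commuting_involution hro hyo hnc
    have hwN : w ∈ N := hloc v hv0 w hwr
    have hw2 := mul_self_eq_one hwo
    have hwz : Commute w z := by
      obtain ⟨j, rfl⟩ := Subgroup.mem_zpowers_iff.1 hwp
      exact (hzr.symm.mul_left hyz).zpow_left j
    have hwne : w ≠ z := by
      intro hwe
      obtain ⟨j, hj⟩ := Subgroup.mem_zpowers_iff.1 hwp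
      have hpz : ∀ i : ℤ, Commute ((r * y) ^ i) z := fun i => (hzr.symm.mul_left hyz).zpow_left i
      rcases Int.even_or_odd' j with ⟨i, rfl | rfl⟩
      · have e : (r * y) ^ i * r * ((r * y) ^ i)⁻¹ = z * r := by
          rw [conj_left_by_zpow hro hyo, hj, hwe]
        refine D.conj_x_ne hloc hv0 (mul_mem hz (D.x_mem v)) ?_ e
        obtain ⟨a, ha⟩ := hzm
        exact ⟨a, by rw [D.s_mul hz (D.x_mem v), D.s_x]; exact ha⟩
      · set h := (r * y) ^ (i + 1) * g with hh
        have e : h * t * h⁻¹ = z * r := by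
          calc h * t * h⁻¹ = (r * y) ^ (i + 1) * y * ((r * y) ^ (i + 1))⁻¹ := by rw [hh, hy]; group
            _ = (r * y) ^ (i + 1) * ((r * y) ^ (-1 : ℤ) * r) * ((r * y) ^ (i + 1))⁻¹ := by
              rw [← right_eq_zpow_mul hro hyo]
            _ = (r * y) ^ (-1 : ℤ) * ((r * y) ^ (i + 1) * r * ((r * y) ^ (i + 1))⁻¹) := by
              rw [← mul_assoc ((r * y) ^ (i + 1)) ((r * y) ^ (-1 : ℤ)), ← zpow_add,
                add_comm (i + 1) (-1 : ℤ), zpow_add]
              simp only [mul_assoc]
            _ = (r * y) ^ (2 * i + 1) * r := by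
              rw [conj_left_by_zpow hro hyo, ← mul_assoc, ← zpow_add]
              congr 2
              ring
            _ = z * r := by rw [hj, hwe]
        have hhz : Commute h z := (hpz _).mul_left hg
        have e2 : h⁻¹ * D.x v * h = z * t := by
          calc h⁻¹ * D.x v * h = h⁻¹ * (z * (z * r)) * h := by rw [← mul_assoc z, hz2, one_mul]
            _ = h⁻¹ * z * h * t := by rw [← e]; group
            _ = z * t := by rw [mul_assoc h⁻¹ z h, ← hhz.eq, inv_mul_cancel_left]
        have hh' : h⁻¹ ∈ N := D.fusion hloc hv0 (by rw [inv_inv, e2]; exact mul_mem hz htN)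
        have e3 := D.conj _ hh' v
        rw [inv_inv, e2] at e3
        refine htgood fun a => ?_
        rw [D.s_eq_of_mul_eq_x hz htN hz2 e3]
        exact hbad a
    by_cases hwm : D.Moves w
    · by_cases hwb : D.Bad w
      · by_cases hne : ∃ a, D.s z a ≠ D.s w a
        · exact D.pair_le hloc hz hwN hz2 hw2 hwz.symm hbad hwb hzm hwm hne hyz
            (show Commute w y from hwy).symm
        · push Not at hne
          obtain ⟨b, hb⟩ := D.ker (w * z) (mul_mem hwN hz) fun a => by
            rw [D.s_mul hwN hz, hne, D.inv_s hwN hw2]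
          have hb0 : b ≠ 0 := by
            rintro rfl
            rw [D.x_zero] at hb
            exact hwne (mul_eq_one_iff_eq_inv.1 hb |>.trans (inv_eq_of_mul_eq_one_right hz2))
          exact hloc b hb0 y (hb ▸ (show Commute w y from hwy).symm.mul_right hyz)
      · exact D.good_le hloc hwN hw2 hwb (show Commute w y from hwy).symm
    · have hid : ∀ a, D.s w a = a := fun a => not_not.1 fun h => hwm ⟨a, h⟩
      obtain ⟨b, hb⟩ := D.ker w hwN hid
      have hb0 : b ≠ 0 := by
        rintro rfl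
        rw [D.x_zero] at hb
        exact ne_one hwo hb
      exact hloc b hb0 y (hb ▸ (show Commute w y from hwy).symm)
  -- so does `g`
  have hym : D.Moves y := by
    by_contra hym
    obtain ⟨b, hb⟩ := D.ker y hyN fun a => not_not.1 fun h => hym ⟨a, h⟩
    have hb0 : b ≠ 0 := by
      rintro rfl
      rw [D.x_zero] at hb
      exact ne_one hyo hb
    refine D.conj_x_ne hloc (h := g⁻¹) hb0 htN htm ?_
    rw [← hb, hy]
    group
  have hy2 := mul_self_eq_one hyo
  set k := g * r * g⁻¹ with hk
  have hky : Commute k y := by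
    have h0 : Commute t r := (D.commute_x_iff htN).2 htv
    have := h0.symm.map (MulAut.conj g).toMonoidHom
    simpa [hk, hy] using this
  have hkz : Commute k z := (hg.mul_left hzr.symm).mul_left hg.inv_left
  have hkN : k ∈ N := by
    by_cases hyb : D.Bad y
    · by_cases hne : ∃ a, D.s z a ≠ D.s y a
      · exact D.pair_le hloc hz hyN hz2 hy2 hyz.symm hbad hyb hzm hym hne hkz hky
      · push Not at hne
        obtain ⟨b, hb⟩ := D.ker (y * z) (mul_mem hyN hz) fun a => by
          rw [D.s_mul hyN hz, hne, D.inv_s hyN hy2]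
        exfalso
        have e : g⁻¹ * D.x b * g = t * z := by
          calc g⁻¹ * D.x b * g = g⁻¹ * (g * t * g⁻¹ * z) * g := by rw [← hb, hy]
            _ = t * g⁻¹ * (z * g) := by group
            _ = t * z := by rw [← hg.eq]; group
        have hb0 : b ≠ 0 := by
          rintro rfl
          rw [D.x_zero, mul_one, inv_mul_cancel] at e
          refine htgood fun a => ?_
          rw [show t = z by rw [← inv_eq_of_mul_eq_one_left e.symm, inv_eq_of_mul_eq_one_right hz2]]
          exact hbad a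
        refine D.conj_x_ne hloc (h := g⁻¹) hb0 (mul_mem htN hz) ?_ (by rw [inv_inv]; exact e)
        refine not_not.1 fun hm => htgood fun a => ?_
        have e4 : D.s (t * z) (D.s z a) = D.s z a := not_not.1 fun h => hm ⟨_, h⟩
        rw [D.s_mul htN hz, D.inv_s hz hz2] at e4
        rw [e4]
        exact hbad a
    · exact D.good_le hloc hyN hy2 hyb hky
  exact D.fusion hloc hv0 hkN

/-- The global step. -/
theorem eq_top [Finite G] (hloc : D.Local) : N = ⊤ := by
  rw [eq_top_iff]
  intro g _
  have hv0 : (Pi.single 0 1 : V6) ≠ 0 := by simp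
  set v : V6 := Pi.single 0 1
  obtain ⟨u, hu'⟩ := D.nondeg' hv0
  have hu : D.B u v = 1 := by rw [D.sk, hu']
  obtain ⟨t, htN, ht2, -, hts⟩ := D.transv v u hu 1 (one_mem N) (D.s_one _) (D.s_one _) (D.σ_one _)
  have htm : D.Moves t := ⟨u, fun h => by
    rw [hts, hu, one_smul] at h
    exact hv0 (add_eq_left.1 h)⟩
  have htv : D.s t v = v := by rw [hts, D.alt, zero_smul, add_zero]
  have ht1 : t ≠ 1 := fun h => by
    obtain ⟨w, hw⟩ := htm
    exact hw (by rw [h, D.s_one])
  have hto : orderOf t = 2 := orderOf_eq_two_iff.2 ⟨ht2, ht1⟩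
  have hyo : orderOf (g * t * g⁻¹) = 2 := (orderOf_conj g t).trans hto
  have hnc : ¬ IsConj (D.x v) (g * t * g⁻¹) := by
    intro h
    obtain ⟨d, hd⟩ := isConj_iff.1 h
    refine D.conj_x_ne hloc (h := g⁻¹ * d) hv0 htN htm ?_
    calc g⁻¹ * d * D.x v * (g⁻¹ * d)⁻¹ = g⁻¹ * (d * D.x v * d⁻¹) * g := by group
      _ = t := by rw [hd]; group
  obtain ⟨w, hwo, hwr, hwy, -⟩ := exists_commuting_involution (D.orderOf_x hv0) hyo hnc
  have hwN : w ∈ N := hloc v hv0 w hwr
  have hyw : Commute (g * t * g⁻¹) w := (show Commute w (g * t * g⁻¹) from hwy).symm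
  have hyN : g * t * g⁻¹ ∈ N := by
    by_cases hwm : D.Moves w
    · exact D.involution_le hloc hwN (mul_self_eq_one hwo) hwm hyw
    · obtain ⟨b, hb⟩ := D.ker w hwN fun a => not_not.1 fun h => hwm ⟨a, h⟩
      have hb0 : b ≠ 0 := by
        rintro rfl
        rw [D.x_zero] at hb
        exact ne_one hwo hb
      exact hloc b hb0 _ (hb ▸ hyw)
  have hym : D.Moves (g * t * g⁻¹) := by
    by_contra hym
    obtain ⟨b, hb⟩ := D.ker _ hyN fun a => not_not.1 fun h => hym ⟨a, h⟩
    have hb0 : b ≠ 0 := by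
      rintro rfl
      rw [D.x_zero] at hb
      exact ne_one hyo hb
    refine D.conj_x_ne hloc (h := g⁻¹) hb0 htN htm ?_
    rw [← hb]
    group
  refine D.fusion hloc hv0 (D.involution_le hloc hyN (mul_self_eq_one hyo) hym ?_)
  have := ((D.commute_x_iff htN).2 htv).symm.map (MulAut.conj g).toMonoidHom
  simpa using this

end Data

end CfsgLib.Geometric.PauliMax
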