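import Cfsg.Agent.Lib.Geometric.PauliMax.Isolated

/-!
The two kinds of involutions of `N` outside the Pauli group.
-/

set_option autoImplicit false

namespace CfsgLib.Geometric.PauliMax

open Module

theorem zmod_two_cases (c : ZMod 2) : c = 0 ∨ c = 1 := by revert c; decide

theorem zmod_two_one {c : ZMod 2} (h : c ≠ 0) : c = 1 := (zmod_two_cases c).resolve_left h

namespace Data

universe u

variable {G : Type u} [Group G] {N : Subgroup G} (D : Data G N)

/-- `r` represents the functional `v ↦ B v (s v)`. -/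
def IsAxis (z : G) (r : V6) : Prop := ∀ v, D.B r v = D.B v (D.s z v)

theorem pres_swap {z : G} (hz : z ∈ N) (h2 : z * z = 1) (v w : V6) :
    D.B w (D.s z v) = D.B v (D.s z w) := by
  conv_lhs => rw [← D.pres z hz w (D.s z v), D.inv_s hz h2, D.sk]

theorem exists_axis {z : G} (hz : z ∈ N) (h2 : z * z = 1) : ∃ r, D.IsAxis z r := by
  have hadd : ∀ v w, D.B (v + w) (D.s z (v + w)) = D.B v (D.s z v) + D.B w (D.s z w) := by
    intro v w
    simp only [D.s_add hz, map_add, LinearMap.add_apply]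
    rw [D.pres_swap hz h2 v w]
    have : ∀ a b c : ZMod 2, a + b + (b + c) = a + c := by decide
    exact this _ _ _
  obtain ⟨r, hr⟩ := D.B_bij.2 (AddMonoidHom.toZModLinearMap 2
    (AddMonoidHom.mk' (fun v => D.B v (D.s z v)) hadd))
  exact ⟨r, fun v => LinearMap.congr_fun hr v⟩

/-- Involutions of `N` whose axis is zero. -/
def Bad (z : G) : Prop := ∀ v, D.B v (D.s z v) = 0

/-- Involutions acting non-trivially. -/
def Moves (z : G) : Prop := ∃ v, D.s z v ≠ v

theorem axis_fixed {z : G} (hz : z ∈ N) {r : V6} (hr : D.IsAxis z r) {n : G} (hn : n ∈ N)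
    (hc : Commute n z) : D.s n r = r := by
  refine D.B_bij.1 (LinearMap.ext fun v => ?_)
  obtain ⟨u, rfl⟩ : ∃ u, D.s n u = v :=
    ⟨D.s n⁻¹ v, by rw [← D.s_mul hn (inv_mem hn), mul_inv_cancel, D.s_one]⟩
  rw [D.pres n hn, hr u, hr (D.s n u), ← D.s_comm hn hz hc, D.pres n hn]

theorem good_le [Finite G] (hloc : D.Local) {z : G} (hz : z ∈ N) (h2 : z * z = 1) (hgood : ¬ D.Bad z)
    {g : G} (hg : Commute g z) : g ∈ N := by
  obtain ⟨r, hr⟩ := D.exists_axis hz h2
  have hr0 : r ≠ 0 := fun h => hgood fun v => by rw [← hr v, h, map_zero, LinearMap.zero_apply]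
  have hrz : D.s z r = r := D.axis_fixed hz hr hz (Commute.refl z)
  have hcent : ∀ {b}, D.s z b = b → D.x b ∈ Subgroup.centralizer ({z} : Set G) := fun h =>
    Subgroup.mem_centralizer_singleton_iff.2 ((D.commute_x_iff hz).2 h).eq.symm
  refine D.le_of_isolated hloc (H := Subgroup.centralizer {z}) hr0 (hcent hrz) (fun n hnH hnN =>
    D.axis_fixed hz hr hnN (Subgroup.mem_centralizer_singleton_iff.1 hnH)) (D.fix hz)
    (le_trans (by norm_num) (D.three_le_fix hz h2)) (fun b hb => hcent ((D.mem_fix hz).1 hb))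
    (Subgroup.mem_centralizer_singleton_iff.2 hg.eq)

theorem η_bad {z : G} (hz : z ∈ N) (hbad : D.Bad z) (v : V6) : D.B (D.η hz v) v = 0 := by
  rw [η_apply, map_add, LinearMap.add_apply, D.alt, add_zero, D.sk, hbad]

theorem η_fix {z : G} (hz : z ∈ N) {v : V6} (hv : v ∈ D.fix hz) : D.η hz v = 0 :=
  LinearMap.mem_ker.1 hv

/-- A functional vanishing on a fixed space and on a vector outside it. -/
theorem B_η_eq_zero {z : G} (hz : z ∈ N) (h2 : z * z = 1) {v f : V6} (hf : f ∈ D.fix hz) :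
    D.B (D.η hz v) f = 0 := by
  rw [D.η_adj hz h2, D.η_fix hz hf, map_zero]

theorem bad_fix {z : G} (hz : z ∈ N) (h2 : z * z = 1) (hbad : D.Bad z) (hmov : D.Moves z) :
    finrank (ZMod 2) (D.fix hz) = 4 := by
  obtain ⟨C, hC⟩ := Submodule.exists_isCompl (D.fix hz)
  have hd := Submodule.finrank_add_eq_of_isCompl hC
  rw [finrank_fin_fun] at hd
  have hsplit : ∀ x : V6, ∃ f ∈ D.fix hz, ∃ c ∈ C, f + c = x := fun x =>
    Submodule.mem_sup.1 (hC.sup_eq_top.symm ▸ Submodule.mem_top)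
  have hCz : ∀ c ∈ C, (∀ c' ∈ C, D.B (D.η hz c) c' = 0) → c = 0 := by
    intro c hc h
    refine Submodule.disjoint_def.1 hC.disjoint c (LinearMap.mem_ker.2 ?_) hc
    refine D.nondeg _ fun x => ?_
    obtain ⟨f, hf, c', hc', rfl⟩ := hsplit x
    rw [map_add, D.B_η_eq_zero hz h2 hf, h c' hc', add_zero]
  have h3 := D.three_le_fix hz h2
  by_contra hne
  rcases (show finrank (ZMod 2) C = 3 ∨ finrank (ZMod 2) C ≤ 1 by omega) with hc3 | hc1
  · let φ : V3 ≃ₗ[ZMod 2] C := LinearEquiv.ofFinrankEq _ _ (by rw [hc3, finrank_fin_fun])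
    obtain ⟨q, hq, hrad⟩ := exists_radical
      (((D.B.comp (D.η hz)).comp (C.subtype.comp φ.toLinearMap)).compl₂ (C.subtype.comp φ.toLinearMap))
      fun p => D.η_bad hz hbad _
    refine hq (φ.map_eq_zero_iff.1 (Subtype.ext (hCz _ (φ q).2 fun c' hc' => ?_)))
    simpa using hrad (φ.symm ⟨c', hc'⟩)
  · obtain ⟨v, hv⟩ := hmov
    obtain ⟨f, hf, c, hc, rfl⟩ := hsplit v
    refine hv ((D.mem_fix hz).1 ((D.fix hz).add_mem hf ?_))
    rw [hCz c hc fun c' hc' => ?_]
    · exact (D.fix hz).zero_mem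
    rcases eq_or_ne c 0 with hc0 | hc0
    · rw [hc0, map_zero, map_zero, LinearMap.zero_apply]
    obtain ⟨⟨e, he⟩, hspan⟩ := finrank_le_one_iff.1 hc1
    obtain ⟨a, ha⟩ := hspan ⟨c, hc⟩
    obtain ⟨b, hb⟩ := hspan ⟨c', hc'⟩
    have ha' : a • e = c := congrArg Subtype.val ha
    have hb' : b • e = c' := congrArg Subtype.val hb
    have ha1 : a = 1 := zmod_two_one fun h => hc0 (by rw [← ha', h, zero_smul])
    rw [ha1, one_smul] at ha'
    rw [← hb', ← ha', map_smul, D.η_bad hz hbad, smul_zero]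

theorem bad_range {z : G} (hz : z ∈ N) (h2 : z * z = 1) (hbad : D.Bad z) (hmov : D.Moves z) :
    finrank (ZMod 2) (LinearMap.range (D.η hz)) = 2 := by
  rw [D.range_eq_perp_fix hz h2, D.finrank_perp, D.bad_fix hz h2 hbad hmov]

theorem eq_of_range_eq {z w : G} (hz : z ∈ N) (hw : w ∈ N) (hz2 : z * z = 1) (hw2 : w * w = 1)
    (hzb : D.Bad z) (hwb : D.Bad w) (hzm : D.Moves z) (hwm : D.Moves w)
    (h : LinearMap.range (D.η hz) = LinearMap.range (D.η hw)) (v : V6) : D.s z v = D.s w v := by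
  have hF : D.fix hz = D.fix hw := by
    rw [D.range_eq_perp_fix hz hz2, D.range_eq_perp_fix hw hw2] at h
    have := congrArg D.perp h
    rwa [D.perp_perp, D.perp_perp] at this
  suffices he : D.η hz v = D.η hw v by
    rw [η_apply, η_apply] at he
    exact add_right_cancel he
  by_cases hv : v ∈ D.fix hz
  · rw [D.η_fix hz hv, D.η_fix hw (hF ▸ hv)]
  set H := D.fix hz ⊔ Submodule.span (ZMod 2) {v}
  have hH : ∀ {x : G} (hx : x ∈ N), x * x = 1 → D.Bad x → D.fix hx = D.fix hz →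
      ∀ a ∈ H, D.B (D.η hx v) a = 0 := by
    intro x hx hx2 hxb hxF a ha
    obtain ⟨f, hf, c, hc, rfl⟩ := Submodule.mem_sup.1 ha
    obtain ⟨k, rfl⟩ := Submodule.mem_span_singleton.1 hc
    rw [map_add, D.B_η_eq_zero hx hx2 (hxF ▸ hf), map_smul, D.η_bad hx hxb, smul_zero, add_zero]
  have hHd : finrank (ZMod 2) H = 5 := by
    have h0 : v ≠ 0 := fun h => hv (h ▸ (D.fix hz).zero_mem)
    have hinf : D.fix hz ⊓ Submodule.span (ZMod 2) {v} = ⊥ := by
      rw [← disjoint_iff, Submodule.disjoint_span_singleton' h0]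
      exact hv
    have := Submodule.finrank_sup_add_finrank_inf_eq (D.fix hz) (Submodule.span (ZMod 2) {v})
    rw [hinf, finrank_bot, D.bad_fix hz hz2 hzb hzm, finrank_span_singleton h0] at this
    exact this
  have hperp : finrank (ZMod 2) (D.perp H) = 1 := by rw [D.finrank_perp, hHd]
  have hmem : ∀ {x : G} (hx : x ∈ N), x * x = 1 → D.Bad x → D.fix hx = D.fix hz →
      D.η hx v ∈ D.perp H ∧ D.η hx v ≠ 0 := by
    intro x hx hx2 hxb hxF
    refine ⟨fun a ha => ?_, fun h0 => hv (hxF ▸ h0)⟩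
    show D.B a (D.η hx v) = 0
    rw [D.sk, hH hx hx2 hxb hxF a ha]
  obtain ⟨p1, p2⟩ := hmem hz hz2 hzb rfl
  obtain ⟨q1, q2⟩ := hmem hw hw2 hwb hF.symm
  obtain ⟨c, hc⟩ := exists_smul_eq_of_finrank_eq_one hperp
    (x := (⟨_, p1⟩ : D.perp H)) (fun h => p2 (congrArg Subtype.val h)) ⟨_, q1⟩
  have hc' : c • D.η hz v = D.η hw v := congrArg Subtype.val hc
  rw [zmod_two_one (fun h => q2 (by rw [← hc', h, zero_smul]) : c ≠ 0), one_smul] at hc'
  exact hc'

/-- Two commuting involutions with zero axis and different actions. -/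
theorem pair_le [Finite G] (hloc : D.Local) {z w : G} (hz : z ∈ N) (hw : w ∈ N) (hz2 : z * z = 1)
    (hw2 : w * w = 1) (hzw : Commute z w) (hzb : D.Bad z) (hwb : D.Bad w) (hzm : D.Moves z)
    (hwm : D.Moves w) (hne : ∃ v, D.s z v ≠ D.s w v) {g : G} (hgz : Commute g z)
    (hgw : Commute g w) : g ∈ N := by
  have hcomm : ∀ {n : G} (hn : n ∈ N) {x : G} (hx : x ∈ N), Commute n x → ∀ v,
      D.s n (D.η hx v) = D.η hx (D.s n v) := by
    intro n hn x hx hc v
    rw [η_apply, η_apply, D.s_add hn, D.s_comm hn hx hc]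
  set U := LinearMap.range (D.η hz)
  set U' := LinearMap.range (D.η hw)
  have hηη : ∀ v, D.η hz (D.η hw v) = D.η hw (D.η hz v) := by
    intro v
    simp only [η_apply, D.s_add hz, D.s_add hw, D.s_comm hz hw hzw v]
    abel
  have hd1 := D.bad_range hz hz2 hzb hzm
  have hd2 := D.bad_range hw hw2 hwb hwm
  have hI0 : U ⊓ U' ≠ ⊥ := by
    intro hbot
    have hzero : ∀ v, D.η hz (D.η hw v) = 0 := fun v => by
      rw [← Submodule.mem_bot (ZMod 2), ← hbot]
      exact ⟨⟨_, rfl⟩, hηη v ▸ ⟨_, rfl⟩⟩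
    have h1 : U ⊔ U' ≤ D.fix hz ⊓ D.fix hw := by
      refine sup_le ?_ ?_ <;> rintro _ ⟨v, rfl⟩
      · exact ⟨D.range_le_fix hz hz2 ⟨v, rfl⟩, LinearMap.mem_ker.2 (by rw [← hηη, hzero])⟩
      · exact ⟨LinearMap.mem_ker.2 (hzero v), D.range_le_fix hw hw2 ⟨v, rfl⟩⟩
    have h2 : U ⊔ U' ≤ D.perp (U ⊔ U') := by
      intro a ha b hb
      obtain ⟨p, hp, q, hq, rfl⟩ := Submodule.mem_sup.1 hb
      obtain ⟨hf, hf'⟩ := h1 ha
      obtain ⟨vp, rfl⟩ := hp
      obtain ⟨vq, rfl⟩ := hq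
      show D.B (D.η hz vp + D.η hw vq) a = 0
      rw [map_add, LinearMap.add_apply, D.B_η_eq_zero hz hz2 hf, D.B_η_eq_zero hw hw2 hf', add_zero]
    have h3 := Submodule.finrank_mono h2
    rw [D.finrank_perp] at h3
    have h4 := Submodule.finrank_sup_add_finrank_inf_eq U U'
    rw [hbot, finrank_bot, hd1, hd2] at h4
    omega
  have hI2 : finrank (ZMod 2) (U ⊓ U' : Submodule (ZMod 2) V6) ≠ 2 := by
    intro h
    have e1 : U ⊓ U' = U := Submodule.eq_of_le_of_finrank_eq inf_le_left (h.trans hd1.symm)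
    have e2 : U ⊓ U' = U' := Submodule.eq_of_le_of_finrank_eq inf_le_right (h.trans hd2.symm)
    obtain ⟨v, hv⟩ := hne
    exact hv (D.eq_of_range_eq hz hw hz2 hw2 hzb hwb hzm hwm (e1.symm.trans e2) v)
  have hI1 : finrank (ZMod 2) (U ⊓ U' : Submodule (ZMod 2) V6) = 1 := by
    have h1 : finrank (ZMod 2) (U ⊓ U' : Submodule (ZMod 2) V6) ≤ 2 :=
      (Submodule.finrank_mono inf_le_left).trans hd1.le
    have h2 : finrank (ZMod 2) (U ⊓ U' : Submodule (ZMod 2) V6) ≠ 0 := fun h =>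
      hI0 (Submodule.finrank_eq_zero.1 h)
    omega
  obtain ⟨r, hrI, hr0⟩ := Submodule.exists_mem_ne_zero_of_ne_bot hI0
  have hrfix : ∀ n ∈ Subgroup.centralizer ({z, w} : Set G), n ∈ N → D.s n r = r := by
    intro n hn hnN
    have hnz : Commute n z := ((Subgroup.mem_centralizer_iff.1 hn) z (by simp)).symm
    have hnw : Commute n w := ((Subgroup.mem_centralizer_iff.1 hn) w (by simp)).symm
    obtain ⟨⟨a, ha⟩, b, hb⟩ := hrI
    have hI : D.s n r ∈ U ⊓ U' :=
      ⟨⟨D.s n a, by rw [← hcomm hnN hz hnz, ha]⟩, ⟨D.s n b, by rw [← hcomm hnN hw hnw, hb]⟩⟩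
    obtain ⟨c, hc⟩ := exists_smul_eq_of_finrank_eq_one hI1
      (x := (⟨r, ⟨a, ha⟩, b, hb⟩ : (U ⊓ U' : Submodule (ZMod 2) V6)))
      (fun h => hr0 (congrArg Subtype.val h)) ⟨_, hI⟩
    have hc' : c • r = D.s n r := congrArg Subtype.val hc
    rw [zmod_two_one (fun h => hr0 (D.s_inj hnN (by rw [← hc', h, zero_smul, D.s_zero hnN])) : c ≠ 0),
      one_smul] at hc'
    exact hc'.symm
  have hcent : ∀ {b}, D.s z b = b → D.s w b = b → D.x b ∈ Subgroup.centralizer ({z, w} : Set G) := by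
    intro b h1 h2
    refine Subgroup.mem_centralizer_iff.2 ?_
    rintro x (rfl | rfl)
    exacts [((D.commute_x_iff hz).2 h1).eq, ((D.commute_x_iff hw).2 h2).eq]
  refine D.le_of_isolated hloc hr0 (hcent ((D.mem_fix hz).1 (D.range_le_fix hz hz2 hrI.1))
    ((D.mem_fix hw).1 (D.range_le_fix hw hw2 hrI.2))) hrfix (D.fix hz ⊓ D.fix hw) ?_
    (fun b hb => hcent ((D.mem_fix hz).1 hb.1) ((D.mem_fix hw).1 hb.2)) ?_
  · have h := Submodule.finrank_sup_add_finrank_inf_eq (D.fix hz) (D.fix hw)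
    have h6 : finrank (ZMod 2) (D.fix hz ⊔ D.fix hw : Submodule (ZMod 2) V6) ≤ 6 :=
      (Submodule.finrank_le _).trans_eq (finrank_fin_fun _)
    rw [D.bad_fix hz hz2 hzb hzm, D.bad_fix hw hw2 hwb hwm] at h
    omega
  · refine Subgroup.mem_centralizer_iff.2 ?_
    rintro x (rfl | rfl)
    exacts [hgz.eq.symm, hgw.eq.symm]

end Data

end CfsgLib.Geometric.PauliMax
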