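import Cfsg.Agent.Lib.Geometric.PauliMax.Fusion
import Cfsg.Agent.Lib.Involutions.BrauerSuzuki
import Cfsg.Agent.Lib.CoprimeAction.Abelian

/-!
A subgroup containing an isolated Pauli element and a four-group of Pauli elements lies in `N`.
-/

set_option autoImplicit false

namespace CfsgLib.Geometric.PauliMax

open Module

namespace Data

universe u

variable {G : Type u} [Group G] {N : Subgroup G} (D : Data G N)

/-- The image of a subspace. -/
def img (S : Submodule (ZMod 2) V6) : Subgroup G where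
  carrier := D.x '' S
  one_mem' := ⟨0, S.zero_mem, D.x_zero⟩
  mul_mem' := by
    rintro _ _ ⟨a, ha, rfl⟩ ⟨b, hb, rfl⟩
    exact ⟨a + b, S.add_mem ha hb, D.x_add a b⟩
  inv_mem' := by
    rintro _ ⟨a, ha, rfl⟩
    exact ⟨a, ha, (D.x_inv a).symm⟩

theorem card_img (S : Submodule (ZMod 2) V6) : Nat.card (D.img S) = 2 ^ finrank (ZMod 2) S := by
  have e : Nat.card (D.img S) = Nat.card (D.x '' S : Set G) := rfl
  rw [e, Nat.card_image_of_injective D.x_inj, SetLike.coe_sort_coe,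
    Module.natCard_eq_pow_finrank (K := ZMod 2), Nat.card_zmod]

theorem oddCore_le [Finite G] (hloc : D.Local) (H : Subgroup G) (S : Submodule (ZMod 2) V6)
    (hS : 2 ≤ finrank (ZMod 2) S) (hSH : ∀ a ∈ S, D.x a ∈ H) :
    (Cfsg.oddCore H).map H.subtype ≤ N := by
  haveI : IsMulCommutative (D.img S) := ⟨⟨fun p q => by
    obtain ⟨a, -, ha⟩ := p.2
    obtain ⟨b, -, hb⟩ := q.2
    apply Subtype.ext
    rw [Subgroup.coe_mul, Subgroup.coe_mul, ← ha, ← hb]
    exact D.x_commute a b⟩⟩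
  refine CfsgLib.CoprimeAction.le_of_centralizers (A := D.img S) ?_ ?_ ?_ ?_
  · intro hc
    obtain ⟨g, hg⟩ := IsCyclic.exists_generator (α := D.img S)
    have h1 := orderOf_eq_card_of_forall_mem_zpowers hg
    have h2 : orderOf g ∣ 2 := orderOf_dvd_of_pow_eq_one (by
      obtain ⟨a, -, ha⟩ := g.2
      apply Subtype.ext
      rw [SubmonoidClass.coe_pow, ← ha, pow_two, D.x_mul_self]
      rfl)
    rw [h1, card_img] at h2
    have h3 := Nat.le_of_dvd two_pos h2
    have h4 : (2 : ℕ) ^ 2 ≤ 2 ^ finrank (ZMod 2) S := Nat.pow_le_pow_right two_pos hS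
    omega
  · rintro _ ⟨a, ha, rfl⟩
    have hn : (Cfsg.oddCore H).Normal := inferInstance
    have key : ∀ k ∈ (Cfsg.oddCore H).map H.subtype,
        D.x a * k * (D.x a)⁻¹ ∈ (Cfsg.oddCore H).map H.subtype := by
      rintro _ ⟨k, hk, rfl⟩
      exact ⟨⟨D.x a, hSH a ha⟩ * k * ⟨D.x a, hSH a ha⟩⁻¹, hn.conj_mem k hk _, rfl⟩
    refine Subgroup.mem_normalizer_iff.2 fun k => ⟨key k, fun hk => ?_⟩
    have h := key _ hk
    rwa [show D.x a * (D.x a * k * (D.x a)⁻¹) * (D.x a)⁻¹ = k by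
      rw [D.x_inv, ← mul_assoc, ← mul_assoc, D.x_mul_self, one_mul, mul_assoc, D.x_mul_self,
        mul_one]] at h
  · rw [card_img, Nat.card_congr ((Cfsg.oddCore H).equivMapOfInjective _ H.subtype_injective).toEquiv.symm]
    exact Nat.Coprime.pow_left _ (Nat.coprime_two_left.2 CfsgLib.Cores.odd_card_oddCore)
  · rintro _ ⟨a, -, rfl⟩ ha1
    intro k hk
    refine hloc a (fun h => ha1 (by rw [h, D.x_zero])) k ?_
    exact (Subgroup.mem_centralizer_iff.1 hk.2 _ rfl).symm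

/-- The Z*-theorem step. -/
theorem le_of_isolated [Finite G] (hloc : D.Local) {H : Subgroup G} {a : V6} (ha : a ≠ 0)
    (haH : D.x a ∈ H) (hfix : ∀ n ∈ H, n ∈ N → D.s n a = a) (S : Submodule (ZMod 2) V6)
    (hS : 2 ≤ finrank (ZMod 2) S) (hSH : ∀ b ∈ S, D.x b ∈ H) : H ≤ N := by
  haveI : Fact (Nat.Prime 2) := ⟨Nat.prime_two⟩
  set t : H := ⟨D.x a, haH⟩ with ht
  have hto : orderOf t = 2 := by rw [ht, Subgroup.orderOf_mk]; exact D.orderOf_x ha
  obtain ⟨P, hP⟩ := (CfsgLib.Involutions.isPGroup_zpowers_of_involution hto).exists_le_sylow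
  have htP : t ∈ (P : Subgroup H) := hP (Subgroup.mem_zpowers t)
  set T : Subgroup (P : Subgroup H) := N.comap (H.subtype.comp (P : Subgroup H).subtype)
  have hT : T = ⊤ := by
    by_contra hne
    haveI := P.isPGroup'.isNilpotent
    obtain ⟨n, hn, hnT⟩ :=
      SetLike.exists_of_lt (normalizerCondition_of_isNilpotent T (lt_top_iff_ne_top.2 hne))
    refine hnT ?_
    have h1 : n * ⟨t, htP⟩ * n⁻¹ ∈ T :=
      (Subgroup.mem_normalizer_iff.1 hn _).1 (D.x_mem a)
    exact D.fusion hloc ha h1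
  have hPN : ∀ k : H, k ∈ (P : Subgroup H) → (k : G) ∈ N := fun k hk => by
    have : (⟨k, hk⟩ : (P : Subgroup H)) ∈ T := hT ▸ Subgroup.mem_top _
    exact this
  have hiso : ∀ k : H, k * t * k⁻¹ ∈ P → k * t * k⁻¹ = t := by
    intro k hk
    have hkN : (k : G) ∈ N := D.fusion hloc ha (hPN _ hk)
    apply Subtype.ext
    show (k : G) * D.x a * (k : G)⁻¹ = D.x a
    rw [D.conj _ hkN, hfix _ k.2 hkN]
  intro g hg
  have h := D.oddCore_le hloc H S hS hSH ⟨_,
    CfsgLib.Involutions.zstar_isolated P hto hiso ⟨g, hg⟩, rfl⟩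
  change D.x a * g * (D.x a)⁻¹ * g⁻¹ ∈ N at h
  rw [D.x_inv] at h
  have h2 : g * D.x a * g⁻¹ ∈ N := by
    have := mul_mem (D.x_mem a) h
    rwa [← mul_assoc, ← mul_assoc, ← mul_assoc, D.x_mul_self, one_mul] at this
  exact D.fusion hloc ha h2

end Data

end CfsgLib.Geometric.PauliMax
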