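import Cfsg.Agent.Lib.Geometric.PauliMax.Action
import Cfsg.Agent.Lib.Geometric.PauliMax.Global

/-!
An overgroup of the normaliser of a three-qubit Pauli system in which the centralisers of the Pauli matrices
normalise the system is the normaliser.
-/

set_option autoImplicit false

namespace CfsgLib.Geometric.PauliMax

open Cfsg.Geo

variable {ι : Type} [Fintype ι] [DecidableEq ι] {F : Type*} [Field F]

local notation "𝕄" => Matrix ι ι F

namespace Pauli

variable (S : Pauli V6 ι F) (M : Subgroup (GL ι F))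

/-- The scalars of `M`. -/
abbrev scal : Subgroup M := (scalars ι F).subgroupOf M

theorem scalar_comm {g : GL ι F} (hg : g ∈ scalars ι F) (x : GL ι F) : g * x = x * g := by
  obtain ⟨c, hc⟩ := (mem_scalars_iff g).1 hg
  apply Units.ext
  rw [Units.val_mul, Units.val_mul, hc, smul_mul_assoc, one_mul, mul_smul_comm, mul_one]

instance scal_normal : (scal M).Normal := ⟨fun g hg x => by
  have e : x * g * x⁻¹ = g := by
    apply Subtype.ext
    show (x : GL ι F) * g * (x : GL ι F)⁻¹ = g
    rw [← scalar_comm (show (g : GL ι F) ∈ scalars ι F from hg), mul_inv_cancel_right]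
  rw [e]; exact hg⟩

/-- The quotient of `M` by its scalars. -/
abbrev Q := M ⧸ scal M

/-- A representative. -/
noncomputable def rep (q : Q M) : GL ι F := ((Quotient.out q : M) : GL ι F)

/-- The image of the normaliser. -/
abbrev NQ : Subgroup (Q M) := (S.norm.subgroupOf M).map (QuotientGroup.mk' (scal M))

theorem mk_eq_mk {g h : M} {c : F} (hgh : ((g : GL ι F) : 𝕄) = c • ((h : GL ι F) : 𝕄)) [Nonempty ι] :
    (QuotientGroup.mk g : Q M) = QuotientGroup.mk h := by
  rw [QuotientGroup.eq]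
  have hc : c ≠ 0 := fun h0 => Units.ne_zero (g : GL ι F) (by rw [hgh, h0, zero_smul])
  refine (mem_scalars_iff _).2 ⟨Units.mk0 c⁻¹ (inv_ne_zero hc), ?_⟩
  have e : ((h : GL ι F) : 𝕄) = c⁻¹ • ((g : GL ι F) : 𝕄) := by
    rw [hgh, smul_smul, inv_mul_cancel₀ hc, one_smul]
  show (((g : GL ι F)⁻¹ * (h : GL ι F) : GL ι F) : 𝕄) = _
  rw [Units.val_mul, e, mul_smul_comm, Units.inv_mul]
  rfl

theorem exists_smul_of_mk_eq {g h : M} (e : (QuotientGroup.mk g : Q M) = QuotientGroup.mk h) :
    ∃ c : F, ((g : GL ι F) : 𝕄) = c • ((h : GL ι F) : 𝕄) := by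
  have h1 : h⁻¹ * g ∈ scal M := QuotientGroup.eq.1 e.symm
  obtain ⟨c, hc⟩ := (mem_scalars_iff ((h : GL ι F)⁻¹ * (g : GL ι F))).1 h1
  refine ⟨c, ?_⟩
  have hc' : (((h : GL ι F)⁻¹ * (g : GL ι F) : GL ι F) : 𝕄) = (c : F) • 1 := hc
  calc ((g : GL ι F) : 𝕄) = ((h : GL ι F) : 𝕄) * (((h : GL ι F)⁻¹ * (g : GL ι F) : GL ι F) : 𝕄) := by
        rw [← Units.val_mul, mul_inv_cancel_left]
    _ = _ := by rw [hc', mul_smul_comm, mul_one]

theorem rep_smul (g : M) : ∃ c : F, rep M (QuotientGroup.mk g) = c • ((g : GL ι F) : 𝕄) :=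
  exists_smul_of_mk_eq M (QuotientGroup.out_eq' _)

theorem mem_norm_of_smul {g h : GL ι F} (hh : h ∈ S.norm) {a : F} (e : (g : 𝕄) = a • (h : 𝕄)) :
    g ∈ S.norm :=
  S.mem_norm fun v => ⟨S.sP h v, S.cP h v, by
    rw [e, smul_mul_assoc, S.act_spec hh, mul_smul_comm, smul_comm]⟩

variable {M}

theorem mem_NQ {g : M} : (QuotientGroup.mk g : Q M) ∈ S.NQ M ↔ (g : GL ι F) ∈ S.norm := by
  constructor
  · rintro ⟨h, hh, e⟩
    obtain ⟨c, hc⟩ := exists_smul_of_mk_eq M (g := g) (h := h) e.symm
    exact S.mem_norm_of_smul hh hc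
  · exact fun h => ⟨g, h, rfl⟩

theorem rep_mem {q : Q M} (hq : q ∈ S.NQ M) : rep M q ∈ S.norm := by
  rw [← QuotientGroup.out_eq' q] at hq
  exact S.mem_NQ.1 hq

theorem act_mk {g : M} (hg : (g : GL ι F) ∈ S.norm) (v : V6) :
    S.sP (rep M (QuotientGroup.mk g)) v = S.sP (g : GL ι F) v ∧
      S.cP (rep M (QuotientGroup.mk g)) v = S.cP (g : GL ι F) v := by
  obtain ⟨c, hc⟩ := rep_smul M g
  exact S.act_congr (S.rep_mem (S.mem_NQ.2 hg)) hg hc v

variable (hM : S.norm ≤ M)

/-- A Pauli matrix in `M`. -/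
def px (v : V6) : M := ⟨S.gl v, hM (S.gl_mem_norm v)⟩

open scoped Classical in
/-- The data of the quotient. -/
noncomputable def data [Nonempty ι] (h2 : (2 : F) ≠ 0) {i : F} (hi : i * i = -1) :
    Data (Q M) (S.NQ M) where
  x v := QuotientGroup.mk (S.px hM v)
  B := S.B
  s q v := S.sP (rep M q) v
  σ q v := if S.cP (rep M q) v = 1 then 0 else 1
  x_add a b := by
    obtain ⟨c, hc⟩ := S.add a b
    rw [← QuotientGroup.mk_mul]
    exact mk_eq_mk M hc
  x_inj a b e := by
    obtain ⟨c, hc⟩ := exists_smul_of_mk_eq M e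
    exact S.eq_of_smul_P hc
  x_mem a := S.mem_NQ.2 (S.gl_mem_norm a)
  conj := by
    intro n hn v
    induction n using QuotientGroup.induction_on with
    | _ g =>
      have hg := S.mem_NQ.1 hn
      rw [(S.act_mk hg v).1, ← QuotientGroup.mk_inv, ← QuotientGroup.mk_mul, ← QuotientGroup.mk_mul]
      refine mk_eq_mk M (c := S.cP (g : GL ι F) v) ?_
      show (((g : GL ι F) * S.gl v * (g : GL ι F)⁻¹ : GL ι F) : 𝕄) = _
      rw [Units.val_mul, Units.val_mul, coe_gl, S.act_spec hg, smul_mul_assoc, mul_assoc, Units.mul_inv,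
        mul_one]
      rfl
  alt := S.alt
  nondeg := S.nondeg
  pres n hn v w := S.act_B h2 (S.rep_mem hn) v w
  ker := by
    intro n hn h
    obtain ⟨u, c, hc⟩ := S.exists_of_fixed h2 (S.rep_mem hn) h
    refine ⟨u, ?_⟩
    rw [← QuotientGroup.out_eq' n]
    exact mk_eq_mk M hc
  σ_mul := by
    intro n hn m hm v hv1 hv2
    induction n using QuotientGroup.induction_on with
    | _ g =>
    induction m using QuotientGroup.induction_on with
    | _ h =>
      have hg := S.mem_NQ.1 hn
      have hh := S.mem_NQ.1 hm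
      rw [(S.act_mk hh v).1] at hv2
      have hgh : ((g * h : M) : GL ι F) ∈ S.norm := mul_mem hg hh
      rw [← QuotientGroup.mk_mul, (S.act_mk hgh v).2, (S.act_mk hg v).2, (S.act_mk hh v).2,
        show ((g * h : M) : GL ι F) = (g : GL ι F) * (h : GL ι F) from rfl, (S.act_mul hg hh v).2, hv2]
      rcases mul_self_eq_one_iff.1 (S.cP_sq hh v) with e | e <;>
      rcases mul_self_eq_one_iff.1 (S.cP_sq hg v) with e' | e' <;>
      simp [e, e', show (-1 : F) ≠ 1 from fun h => h2 (by linear_combination -h),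
        show (1 + 1 : ZMod 2) = 0 from by decide]
  σ_add := by
    intro n hn v w hv hw
    have hr := S.rep_mem hn
    rw [(S.act_add hr v w).2 hv hw]
    rcases mul_self_eq_one_iff.1 (S.cP_sq hr v) with e | e <;>
    rcases mul_self_eq_one_iff.1 (S.cP_sq hr w) with e' | e' <;>
    simp [e, e', show (-1 : F) ≠ 1 from fun h => h2 (by linear_combination -h),
      show (1 + 1 : ZMod 2) = 0 from by decide]
  σ_sq := by
    intro n hn hn2 v
    induction n using QuotientGroup.induction_on with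
    | _ g =>
      have hg := S.mem_NQ.1 hn
      rw [(S.act_mk hg v).1, (S.act_mk hg _).2]
      obtain ⟨c, hc⟩ := exists_smul_of_mk_eq M (g := g * g) (h := 1) (by
        rw [QuotientGroup.mk_mul]; exact hn2)
      have hcm : (((g : GL ι F) * (g : GL ι F) : GL ι F) : 𝕄) = c • (1 : 𝕄) := hc
      obtain ⟨e1, e2⟩ := S.act_unique (mul_mem hg hg) (v := v) (w := v) (c := 1) (by
        rw [hcm, one_smul, smul_mul_assoc, one_mul, mul_smul_comm, mul_one])
      rw [(S.act_mul hg hg v).1] at e1
      rw [(S.act_mul hg hg v).2] at e2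
      set w := S.sP (g : GL ι F) v with hw
      obtain ⟨k, -, hk⟩ := S.P_add_coeff v w
      have hc' : S.cP (g : GL ι F) (v + w) = sgn F (S.B w v) := by
        refine (S.act_unique hg (w := v + w) ?_).2
        calc ((g : GL ι F) : 𝕄) * S.P (v + w)
            = k • (((g : GL ι F) : 𝕄) * S.P v * S.P w) := by rw [hk, mul_smul_comm, mul_assoc]
          _ = k • (S.cP (g : GL ι F) v • (S.P w * (((g : GL ι F) : 𝕄) * S.P w))) := by
              rw [S.act_spec hg, ← hw, smul_mul_assoc, mul_assoc]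
          _ = k • ((S.P w * S.P v) * ((g : GL ι F) : 𝕄)) := by
              rw [S.act_spec hg w, e1, mul_smul_comm, smul_smul (S.cP (g : GL ι F) v), e2, one_smul, mul_assoc]
          _ = _ := by
              rw [S.comm w v, hk, smul_mul_assoc, smul_mul_assoc, smul_comm]
      rw [hc']
      have sk : S.B w v = S.B v w := by
        have h := S.alt (v + w)
        simp only [map_add, LinearMap.add_apply, S.alt, add_zero, zero_add] at h
        revert h; generalize S.B v w = a; generalize S.B w v = b; revert a b; decide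
      rw [sk]
      have key : ∀ a : ZMod 2, a = 0 ∨ a = 1 := by decide
      rcases key (S.B v w) with e | e <;>
        simp [e, sgn_zero, sgn_one, show (-1 : F) ≠ 1 from fun h => h2 (by linear_combination -h)]
  transv := by
    intro v u huv z hz hzv hzu hσ
    induction z using QuotientGroup.induction_on with
    | _ z =>
      have hzn := S.mem_NQ.1 hz
      obtain ⟨htn, hts⟩ := S.tgl_mem_norm h2 hi v
      have htu : S.tgl h2 hi v * S.gl u ∈ S.norm := mul_mem htn (S.gl_mem_norm u)
      let t : M := ⟨S.tgl h2 hi v * S.gl u, hM htu⟩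
      refine ⟨QuotientGroup.mk t, S.mem_NQ.2 htu, ?_, ?_, fun w => ?_⟩
      · rw [← QuotientGroup.mk_mul, ← QuotientGroup.mk_one]
        refine mk_eq_mk M (c := (1 + i)⁻¹ * (1 + i)⁻¹ * 2) ?_
        show (((S.tgl h2 hi v * S.gl u) * (S.tgl h2 hi v * S.gl u) : GL ι F) : 𝕄) =
          ((1 + i)⁻¹ * (1 + i)⁻¹ * 2) • (1 : 𝕄)
        simp only [Units.val_mul, coe_tgl, coe_gl]
        have huv' : S.P u * S.P v = -(S.P v * S.P u) := by
          rw [S.comm u v, huv, sgn_one, neg_one_smul]
        have e : S.P u * (1 + i • S.P v) * S.P u = 1 - i • S.P v := by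
          rw [mul_add, add_mul, mul_one, S.sq, mul_smul_comm, huv', smul_mul_assoc, neg_mul, mul_assoc,
            S.sq, mul_one, smul_neg, ← sub_eq_add_neg]
        have e2 : (1 + i • S.P v) * (1 - i • S.P v) = (2 : F) • (1 : 𝕄) := by
          rw [add_mul, mul_sub, mul_sub, mul_one, one_mul, mul_one, smul_mul_assoc, mul_smul_comm, S.sq,
            smul_smul, hi]
          module
        simp only [smul_mul_assoc, mul_smul_comm, smul_smul, mul_assoc]
        rw [← mul_assoc (S.P u), e, e2, smul_smul]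
        simp only [mul_assoc]
      · rw [Commute, SemiconjBy, ← QuotientGroup.mk_mul, ← QuotientGroup.mk_mul]
        have hcv : S.cP (z : GL ι F) v = 1 := by
          rw [(S.act_mk hzn v).2] at hσ
          by_contra hne
          rw [if_neg hne] at hσ
          exact one_ne_zero hσ
        rw [(S.act_mk hzn v).1] at hzv
        rw [(S.act_mk hzn u).1] at hzu
        have hzg : ((z : GL ι F) : 𝕄) * (S.tgl h2 hi v : 𝕄) = (S.tgl h2 hi v : 𝕄) * ((z : GL ι F) : 𝕄) := by
          refine (S.tgl_comm h2 hi v ?_).symm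
          rw [S.act_spec hzn v, hcv, hzv, one_smul]
        refine (mk_eq_mk M (c := S.cP (z : GL ι F) u) ?_).symm
        show (((z : GL ι F) * (S.tgl h2 hi v * S.gl u) : GL ι F) : 𝕄) =
          S.cP (z : GL ι F) u • (((S.tgl h2 hi v * S.gl u) * (z : GL ι F) : GL ι F) : 𝕄)
        rw [Units.val_mul, Units.val_mul, Units.val_mul, Units.val_mul, coe_gl, ← mul_assoc, hzg, mul_assoc,
          S.act_spec hzn u, hzu, mul_smul_comm, mul_assoc]
      · rw [(S.act_mk htu w).1, (S.act_mul htn (S.gl_mem_norm u) w).1, (S.act_gl u w).1, hts]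

include hM in
/-- The local-to-global statement. -/
theorem le_norm_of_local [Finite F] [Nonempty ι] (h2 : (2 : F) ≠ 0) {i : F} (hi : i * i = -1)
    (hloc : ∀ a, a ≠ 0 → ∀ g ∈ M, ∀ c : F,
      ((g : GL ι F) : 𝕄) * S.P a = c • (S.P a * ((g : GL ι F) : 𝕄)) → g ∈ S.norm) : M ≤ S.norm := by
  have htop : S.NQ M = ⊤ := (S.data hM h2 hi).eq_top fun a ha q hq => by
    induction q using QuotientGroup.induction_on with
    | _ g =>
      obtain ⟨c, hc⟩ := exists_smul_of_mk_eq M (g := g * S.px hM a) (h := S.px hM a * g) hq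
      exact S.mem_NQ.2 (hloc a ha g g.2 c hc)
  intro g hg
  exact (S.mem_NQ (g := (⟨g, hg⟩ : M))).1 (htop ▸ Subgroup.mem_top _)

end Pauli

end CfsgLib.Geometric.PauliMax
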