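import Cfsg.Agent.Lib.Geometric.PauliMax.LocalBig
import Cfsg.Agent.Lib.Geometric.PauliMax.Model

/-!
Overgroups of the normaliser of a three-qubit Pauli system: the reduction to the two-qubit dichotomy.
-/

set_option autoImplicit false

namespace CfsgLib.Geometric.PauliMax

open Cfsg.Geo Matrix

variable {ι : Type} [Fintype ι] [DecidableEq ι] {F : Type*} [Field F]

local notation "𝕂" => Matrix (Fin 4) (Fin 4) F

theorem B_symm {V : Type} [AddCommGroup V] [Module (ZMod 2) V] [Fintype V] (S : Pauli V ι F) (a b : V) :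
    S.B a b = S.B b a := by
  have h := S.alt (a + b)
  simp only [map_add, LinearMap.add_apply, S.alt, add_zero, zero_add] at h
  revert h; generalize S.B a b = c; generalize S.B b a = d; revert c d; decide

theorem v4_two (a : V4) : a + a = 0 := funext fun _ => CharTwo.add_self_eq_zero _

namespace Pauli

/-- Two products with `1 + P z` are proportional only for labels in one coset of `z`. -/
theorem mem_coset {ι' : Type} [Fintype ι'] [DecidableEq ι'] (T : Pauli V4 ι' F) {a b z : V4} {c d : F}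
    (hc : c ≠ 0) (h : c • (T.P a * (1 + T.P z)) = d • (T.P b * (1 + T.P z))) (hz : z ≠ 0) :
    a = b ∨ a = b + z := by
  by_contra hne
  push Not at hne
  obtain ⟨ka, hka0, hka⟩ := T.P_add_coeff a z
  obtain ⟨kb, hkb0, hkb⟩ := T.P_add_coeff b z
  have ea : T.P a * (1 + T.P z) = T.P a + ka⁻¹ • T.P (a + z) := by
    rw [mul_add, mul_one, hka, smul_smul, inv_mul_cancel₀ hka0, one_smul]
  have eb : T.P b * (1 + T.P z) = T.P b + kb⁻¹ • T.P (b + z) := by
    rw [mul_add, mul_one, hkb, smul_smul, inv_mul_cancel₀ hkb0, one_smul]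
  rw [ea, eb] at h
  classical
  let g : V4 → F := Pi.single a c + Pi.single (a + z) (c * ka⁻¹) - Pi.single b d - Pi.single (b + z) (d * kb⁻¹)
  have hs : ∀ (p : V4) (e : F), ∑ i, (Pi.single p e : V4 → F) i • T.P i = e • T.P p := fun p e => by
    rw [Finset.sum_eq_single p (fun q _ hq => by rw [Pi.single_eq_of_ne hq, zero_smul])
      (fun hp => absurd (Finset.mem_univ p) hp), Pi.single_eq_same]
  have hsum : ∑ i, g i • T.P i = 0 := by
    simp only [g, Pi.sub_apply, Pi.add_apply, sub_smul, add_smul, Finset.sum_sub_distrib,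
      Finset.sum_add_distrib, hs]
    simp only [smul_add, smul_smul] at h
    rw [h]
    abel
  have hga := Fintype.linearIndependent_iff.1 T.li g hsum a
  have h1 : a ≠ a + z := fun e => hz (by
    have e2 := add_eq_left.1 e.symm
    exact e2)
  simp [g, hne.1, hne.2, hne.1.symm, hne.2.symm, h1] at hga
  exact hc hga

theorem one_add_ne_zero {ι' : Type} [Fintype ι'] [DecidableEq ι'] (T : Pauli V4 ι' F) {z : V4} (hz : z ≠ 0) :
    1 + T.P z ≠ 0 := by
  intro h
  rw [← T.zero] at h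
  exact hz (T.eq_of_smul_P (c := (-1 : F)) (by rw [neg_one_smul]; exact eq_neg_of_add_eq_zero_right h))

end Pauli

namespace Split

variable {S : Pauli (Fin 6 → ZMod 2) ι F} {v u : Fin 6 → ZMod 2} (sp : Split S v u)
  {M : Subgroup (GL ι F)}

theorem f_ne_zero {z : V4} (hz : z ≠ 0) : sp.f z ≠ 0 := by
  intro h
  obtain ⟨w, hw⟩ : ∃ w, sp.T.B z w ≠ 0 := by
    by_contra hc
    push Not at hc
    exact hz (sp.T.nondeg z hc)
  exact hw (by rw [← sp.B_f, h, map_zero, LinearMap.zero_apply])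

theorem commute_Pf {C : GL (Fin 4) F} {z : V4}
    (hz : (C : 𝕂) * sp.T.P z = sp.T.P z * (C : 𝕂)) :
    ((sp.bd (1, C) : GL ι F) : Matrix ι ι F) * S.P (sp.f z) =
      S.P (sp.f z) * ((sp.bd (1, C) : GL ι F) : Matrix ι ι F) := by
  apply sp.Φ_inj
  rw [map_mul, map_mul, sp.Φ_bd, sp.P_f, fromBlocks_multiply, fromBlocks_multiply]
  simp [hz]

/-- A one-sided element commuting with a Pauli matrix moves orthogonal labels inside their cosets. -/
theorem lemmaX (hproj : ∀ a, a ≠ 0 → S.Proj M a) {C : GL (Fin 4) F} (hC : sp.bd (1, C) ∈ M) {z w w' : V4}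
    (hz0 : z ≠ 0) (hz : (C : 𝕂) * sp.T.P z = sp.T.P z * (C : 𝕂)) (hzw : sp.T.B z w = 0) {c : F}
    (hcw : (C : 𝕂) * sp.T.P w = c • (sp.T.P w' * (C : 𝕂))) : w' = w ∨ w' = w + z := by
  obtain ⟨w'', c'', e⟩ := hproj (sp.f z) (sp.f_ne_zero hz0) _ hC (sp.commute_Pf hz) (sp.f w)
    (by rw [sp.B_f, hzw])
  have hc : c ≠ 0 := sp.T.coeff_ne_zero hcw
  obtain ⟨y, k, s, hk, hs, ⟨-, hP⟩ | ⟨-, hP⟩⟩ := sp.P_cases w''
  · have e' := congrArg sp.Φ e
    simp only [map_mul, map_smul, map_add, map_one, sp.P_f, sp.Φ_bd, hP, ← fromBlocks_one,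
      fromBlocks_add, fromBlocks_multiply, fromBlocks_smul, smul_zero, zero_mul, mul_zero, add_zero,
      zero_add, fromBlocks_inj, Units.val_one, one_mul, mul_one] at e'
    obtain ⟨e1, -, -, e4⟩ := e'
    -- move `C` to the right
    have hcomm : (C : 𝕂) * (1 + sp.T.P z) = (1 + sp.T.P z) * (C : 𝕂) := by
      rw [mul_add, add_mul, mul_one, one_mul, hz]
    rw [hcw, smul_mul_assoc, mul_assoc, hcomm, ← mul_assoc] at e4
    have e5 : c • (sp.T.P w' * (1 + sp.T.P z)) = s • (sp.T.P w * (1 + sp.T.P z)) := by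
      apply (Units.mul_left_inj C).1
      rw [smul_mul_assoc, smul_mul_assoc, e4, e1]
      simp only [smul_smul, mul_assoc, smul_mul_assoc, mul_smul_comm, smul_add, mul_add, add_mul, one_mul, mul_one]
      module
    exact sp.T.mem_coset hc e5 hz0
  · exfalso
    have e' := congrArg sp.Φ e
    simp only [map_mul, map_smul, map_add, map_one, sp.P_f, sp.Φ_bd, hP, ← fromBlocks_one,
      fromBlocks_add, fromBlocks_multiply, fromBlocks_smul, smul_zero, zero_mul, mul_zero, add_zero,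
      zero_add, fromBlocks_inj, Units.val_one, one_mul, mul_one] at e'
    obtain ⟨e1, -, -, -⟩ := e'
    refine sp.T.one_add_ne_zero hz0 ?_
    have := congrArg (fun X => sp.T.P w * X) e1
    simpa [← mul_assoc, sp.T.sq] using this

/-- A one-sided scalar in `M` is a fourth root of unity. -/
theorem lemmaY (hproj : ∀ a, a ≠ 0 → S.Proj M a) {k : F} {hk : k ≠ 0}
    (h : sp.bd (1, sc k hk) ∈ M) : k * k = 1 ∨ k * k = -1 := by
  set z : V4 := Pi.single 0 1 with hz
  have hz0 : z ≠ 0 := by simp [hz]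
  obtain ⟨w'', c'', e⟩ := hproj (sp.f z) (sp.f_ne_zero hz0) _ h
    (sp.commute_Pf (by simp [sc])) u (by rw [B_symm, (sp.perp z).2])
  obtain ⟨y, k', s, hk', hs, ⟨-, hP⟩ | ⟨-, hP⟩⟩ := sp.P_cases w''
  · exfalso
    have e' := congrArg sp.Φ e
    simp only [map_mul, map_smul, map_add, map_one, sp.P_f, sp.P_u, sp.Φ_bd, hP, ← fromBlocks_one,
      fromBlocks_add, fromBlocks_multiply, fromBlocks_smul, smul_zero, zero_mul, mul_zero, add_zero,
      zero_add, fromBlocks_inj, Units.val_one, one_mul, mul_one] at e'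
    exact sp.T.one_add_ne_zero hz0 e'.2.1
  · have e' := congrArg sp.Φ e
    simp only [map_mul, map_smul, map_add, map_one, sp.P_f, sp.P_u, sp.Φ_bd, hP, ← fromBlocks_one,
      fromBlocks_add, fromBlocks_multiply, fromBlocks_smul, smul_zero, zero_mul, mul_zero, add_zero,
      zero_add, fromBlocks_inj, Units.val_one, one_mul, mul_one, sc, smul_mul_assoc, mul_smul_comm,
      smul_smul] at e'
    obtain ⟨-, e2, e3, -⟩ := e'
    have key : (k * k) • (1 + sp.T.P z) = s • (1 + sp.T.P z) := by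
      rw [← smul_smul, e3]
      nth_rewrite 2 [e2]
      simp only [smul_smul, mul_add, mul_one, smul_add]
      module
    have hks : k * k = s := smul_left_injective F (sp.T.one_add_ne_zero hz0) key
    rcases hs with rfl | rfl
    · exact Or.inl hks
    · exact Or.inr hks

/-- The small case. -/
theorem mem_norm_of_small (h2 : (2 : F) ≠ 0) {i : F} (hi : i * i = -1) (hnM : S.norm ≤ M)
    (hproj : ∀ a, a ≠ 0 → S.Proj M a) (hsm : sp.Small M) {g : GL ι F} (hg : g ∈ M)
    (hgc : (g : Matrix ι ι F) * S.P v = S.P v * (g : Matrix ι ι F)) : g ∈ S.norm := by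
  obtain ⟨A, B, rfl⟩ := sp.exists_bd h2 hgc
  have hA : A ∈ sp.T.norm := hsm (sp.mem_projGroup hg)
  have hB : B ∈ sp.T.norm := hsm (sp.mem_projGroup₂ hnM hg)
  have hAA := sp.bd_diag_mem_norm hA
  suffices h : sp.bd (1, A⁻¹ * B) ∈ S.norm by
    have := mul_mem hAA h
    rwa [← map_mul, Prod.mk_mul_mk, mul_one, mul_inv_cancel_left] at this
  have hCM : sp.bd (1, A⁻¹ * B) ∈ M := by
    have := mul_mem (inv_mem (hnM hAA)) hg
    rwa [← map_inv, ← map_mul, Prod.inv_mk, Prod.mk_mul_mk, inv_mul_cancel] at this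
  have hC : A⁻¹ * B ∈ sp.T.norm := mul_mem (inv_mem hA) hB
  generalize A⁻¹ * B = C at hC hCM ⊢
  set T := sp.T with hT
  by_cases hfix : ∀ y, T.sP C y = y
  · obtain ⟨a, k, hk⟩ := T.exists_of_fixed h2 hC hfix
    have hk0 : k ≠ 0 := fun h0 => Units.ne_zero C (by rw [hk, h0, zero_smul])
    have hCe : C = sc k hk0 * T.gl a := Units.ext (by
      rw [Units.val_mul, Pauli.coe_gl, hk]; simp [sc, smul_mul_assoc])
    rw [hCe] at hCM ⊢
    have hsplit : sp.bd (1, sc k hk0 * T.gl a) = sp.bd (1, sc k hk0) * sp.bd (1, T.gl a) := by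
      rw [← map_mul, Prod.mk_mul_mk, mul_one]
    have hkM : sp.bd (1, sc k hk0) ∈ M := by
      rw [hsplit] at hCM
      exact (M.mul_mem_cancel_right (hnM (sp.bd_one_gl_mem_norm a))).1 hCM
    rw [hsplit]
    exact mul_mem (sp.bd_one_sc_mem_norm hk0 (sp.lemmaY hproj hkM)) (sp.bd_one_gl_mem_norm a)
  exfalso
  push Not at hfix
  obtain ⟨y, hy⟩ := hfix
  set y' := T.sP C y with hy'
  have hsC : ∀ {D E : GL (Fin 4) F}, D ∈ T.norm → E ∈ T.norm → ∀ a, T.sP (D * E) a = T.sP D (T.sP E a) :=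
    fun hD hE a => (T.act_mul hD hE a).1
  have hs1 : ∀ a, T.sP 1 a = a := fun a => (T.act_unique (one_mem _) (c := 1) (by simp)).1
  have hinvC : ∀ a, T.sP C (T.sP C⁻¹ a) = a := fun a => by
    rw [← hsC hC (inv_mem hC), mul_inv_cancel, hs1]
  have hinvC' : ∀ a, T.sP C⁻¹ (T.sP C a) = a := fun a => by
    rw [← hsC (inv_mem hC) hC, inv_mul_cancel, hs1]
  have hy'0 : y' ≠ 0 := by
    intro h0
    have h00 : T.sP C 0 = 0 := (T.act_unique hC (c := 1) (by rw [T.zero]; simp)).1
    have e0 : T.sP C y = T.sP C 0 := by rw [h00, ← hy', h0]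
    have := congrArg (T.sP C⁻¹) e0
    rw [hinvC', hinvC'] at this
    subst this
    exact hy (hy'.symm ▸ h00)
  have hy0 : y ≠ 0 := by
    intro h0
    subst h0
    exact hy (T.act_unique hC (c := 1) (by rw [T.zero]; simp)).1
  set D := T.tgl h2 hi y with hD
  obtain ⟨hDn, hDs⟩ := T.tgl_mem_norm h2 hi y
  set C' := C * D * C⁻¹ * D⁻¹ with hC'
  have hC'M : sp.bd (1, C') ∈ M := by
    have hDM : sp.bd (D, D) ∈ M := hnM (sp.bd_diag_mem_norm hDn)
    have := mul_mem (mul_mem (mul_mem hCM hDM) (inv_mem hCM)) (inv_mem hDM)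
    rw [← map_inv, ← map_inv, ← map_mul, ← map_mul, ← map_mul] at this
    convert this using 2
    simp [hC']
  -- choice of `z` and `w`
  obtain ⟨z, w, hz0, hzy, hzy', hzw, hwy, hwy', hzne⟩ : ∃ z w : V4, z ≠ 0 ∧ T.B z y = 0 ∧ T.B z y' = 0 ∧
      T.B z w = 0 ∧ T.B w y = 0 ∧ T.B w y' = 1 ∧ y' ≠ z := by
    have dich : ∀ c : ZMod 2, c = 0 ∨ c = 1 := by decide
    rcases dich (T.B y y') with h | h
    · have hni : y' ∉ Submodule.span (ZMod 2) {y} := by
        intro hm
        obtain ⟨c, hc⟩ := Submodule.mem_span_singleton.1 hm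
        rcases dich c with rfl | rfl
        · rw [zero_smul] at hc; exact hy'0 hc.symm
        · rw [one_smul] at hc; exact hy hc.symm
      obtain ⟨φ, hφy', hφ⟩ := Submodule.exists_dual_map_eq_bot_of_notMem hni inferInstance
      obtain ⟨w, hw⟩ := T.B_surj φ
      refine ⟨y, w, hy0, T.alt y, h, ?_, ?_, ?_, hy⟩
      · rw [B_symm, hw]
        have : φ y ∈ Submodule.map φ (Submodule.span (ZMod 2) {y}) :=
          ⟨y, Submodule.mem_span_singleton_self y, rfl⟩
        rwa [hφ, Submodule.mem_bot] at this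
      · rw [hw]
        have : φ y ∈ Submodule.map φ (Submodule.span (ZMod 2) {y}) :=
          ⟨y, Submodule.mem_span_singleton_self y, rfl⟩
        rwa [hφ, Submodule.mem_bot] at this
      · rw [hw]
        exact (dich _).resolve_left hφy'
    · let χ : V4 →ₗ[ZMod 2] (ZMod 2 × ZMod 2) := (T.B y).prod (T.B y')
      have hk : LinearMap.ker χ ≠ ⊥ := by
        intro hb
        have hle := LinearMap.finrank_le_finrank_of_injective (LinearMap.ker_eq_bot.1 hb)
        rw [Module.finrank_fin_fun, Module.finrank_prod, Module.finrank_self] at hle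
        omega
      obtain ⟨z, hz, hz0⟩ := Submodule.exists_mem_ne_zero_of_ne_bot hk
      have h1 : T.B y z = 0 := congrArg Prod.fst (LinearMap.mem_ker.1 hz)
      have h2' : T.B y' z = 0 := congrArg Prod.snd (LinearMap.mem_ker.1 hz)
      refine ⟨z, y, hz0, by rw [B_symm, h1], by rw [B_symm, h2'], by rw [B_symm, h1], T.alt y, h, fun e => ?_⟩
      rw [← e, h] at h1
      exact one_ne_zero h1
  -- `C'` commutes with `P z`
  have hcomm : (C' : 𝕂) * T.P z = T.P z * (C' : 𝕂) := by
    have hcy : T.P y * T.P z = T.P z * T.P y := by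
      rw [T.comm y z, B_symm, hzy, sgn_zero, one_smul]
    have h1 : Commute D (T.gl z) := Units.ext (by
      rw [Units.val_mul, Units.val_mul, Pauli.coe_gl]; exact T.tgl_comm h2 hi y hcy)
    set z' := T.sP C⁻¹ z with hz'
    have hzy'' : T.B y z' = 0 := by
      have := T.act_B h2 hC y z'
      rw [hz', hinvC, ← hy'] at this
      rw [hz', ← this, B_symm, hzy']
    have h2c : Commute (C * D * C⁻¹) (T.gl z) := by
      refine Units.ext ?_
      have e := T.act_spec (inv_mem hC) z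
      rw [← hz'] at e
      have hd := T.tgl_comm h2 hi y (X := T.P z') (by rw [T.comm y z', hzy'', sgn_zero, one_smul])
      have e' : (C : 𝕂) * T.P z' = (T.cP C⁻¹ z)⁻¹ • (T.P z * (C : 𝕂)) := by
        have h3 := congrArg (fun X => (C : 𝕂) * X * (C : 𝕂)) e
        simp only [mul_smul_comm, smul_mul_assoc, ← mul_assoc, Units.mul_inv, one_mul] at h3
        rw [mul_assoc ((C : 𝕂) * T.P z'), Units.inv_mul, mul_one] at h3
        rw [h3, smul_smul, inv_mul_cancel₀ (T.coeff_ne_zero e), one_smul]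
      show ((C * D * C⁻¹ * T.gl z : GL (Fin 4) F) : 𝕂) = ((T.gl z * (C * D * C⁻¹) : GL (Fin 4) F) : 𝕂)
      simp only [Units.val_mul, Pauli.coe_gl, hD]
      rw [mul_assoc, e, mul_smul_comm, ← mul_assoc, mul_assoc (C : 𝕂), hd, ← mul_assoc (C : 𝕂), e',
        smul_mul_assoc, smul_mul_assoc, smul_smul, mul_inv_cancel₀ (T.coeff_ne_zero e), one_smul]
      simp only [mul_assoc]
    have h3 : Commute C' (T.gl z) := by
      rw [hC']
      exact h2c.mul_left h1.inv_left
    exact congrArg Units.val h3.eq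
  have hC'n : C' ∈ T.norm := mul_mem (mul_mem (mul_mem hC hDn) (inv_mem hC)) (inv_mem hDn)
  have hw' : T.sP C' w = w + y' := by
    have hDi : T.sP D⁻¹ w = w := by
      have : T.sP D⁻¹ (T.sP D w) = w := by rw [← hsC (inv_mem hDn) hDn, inv_mul_cancel, hs1]
      rwa [hDs, hwy, zero_smul, add_zero] at this
    rw [hC', hsC (mul_mem (mul_mem hC hDn) (inv_mem hC)) (inv_mem hDn), hDi,
      hsC (mul_mem hC hDn) (inv_mem hC), hsC hC hDn, hDs]
    have hB : T.B (T.sP C⁻¹ w) y = 1 := by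
      have := T.act_B h2 hC (T.sP C⁻¹ w) y
      rw [hinvC, ← hy', hwy'] at this
      exact this.symm
    rw [hB, one_smul, (T.act_add hC _ _).1, hinvC]
  rcases sp.lemmaX hproj hC'M hz0 hcomm hzw (c := T.cP C' w) (w' := w + y')
    (by rw [← hw']; exact T.act_spec hC'n w) with e | e
  · exact hy'0 (add_eq_left.1 e)
  · exact hzne (add_left_cancel e)

end Split

/-- Overgroups of the normaliser of a three-qubit system. -/
theorem dichotomy_three [Finite F] (h2 : (2 : F) ≠ 0) {i : F} (hi : i * i = -1)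
    (S : Pauli (Fin 6 → ZMod 2) ι F) (hsplit : ∀ v u, S.B v u = 1 → Nonempty (Split S v u))
    (hfour : ∀ T : Pauli V4 (Fin 4) F, T.Dichotomy) : S.Dichotomy := by
  intro M hnM
  by_cases hsl : specialLinear ι F ≤ M
  · exact Or.inr hsl
  left
  haveI : Nonempty ι := by
    by_contra h
    rw [not_nonempty_iff] at h
    exact S.P_ne_zero 0 (Subsingleton.elim _ _)
  have hex : ∀ v, v ≠ 0 → ∃ u, ∃ sp : Split S v u, sp.Small M := by
    intro v hv
    obtain ⟨u, hu⟩ : ∃ u, S.B v u = 1 := by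
      by_contra h
      push Not at h
      have dich : ∀ c : ZMod 2, c = 0 ∨ c = 1 := by decide
      exact hv (S.nondeg v fun w => (dich _).resolve_right (h w))
    obtain ⟨sp⟩ := hsplit v u hu
    exact ⟨u, sp, (hfour sp.T _ (sp.norm_le_projGroup hnM)).resolve_right
      fun h => hsl (sp.sl_le_of_big h2 hi hnM h)⟩
  have hproj : ∀ v, v ≠ 0 → S.Proj M v := fun v hv => by
    obtain ⟨u, sp, hsp⟩ := hex v hv
    exact sp.proj_of_small h2 hsp
  refine S.le_norm_of_local (hM := hnM) h2 hi fun a ha g hg c hc => ?_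
  obtain ⟨u, sp, hsp⟩ := hex a ha
  have hloc : ∀ g ∈ M, (g : Matrix ι ι F) * S.P a = S.P a * (g : Matrix ι ι F) → g ∈ S.norm :=
    fun g hg hgc => sp.mem_norm_of_small h2 hi hnM hproj hsp hg hgc
  have hcc : c * c = 1 := by
    have h : (g : Matrix ι ι F) = (c * c) • (g : Matrix ι ι F) := by
      calc (g : Matrix ι ι F) = (g : Matrix ι ι F) * S.P a * S.P a := by rw [mul_assoc, S.sq, mul_one]
        _ = c • (S.P a * ((g : Matrix ι ι F) * S.P a)) := by rw [hc, smul_mul_assoc, mul_assoc, hc]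
        _ = _ := by rw [hc, mul_smul_comm, ← mul_assoc, S.sq, one_mul, smul_smul]
    nth_rewrite 1 [← one_smul F (g : Matrix ι ι F)] at h
    exact (smul_left_injective F (Units.ne_zero g) h).symm
  rcases mul_self_eq_one_iff.1 hcc with rfl | rfl
  · exact hloc g hg (by rw [hc, one_smul])
  · refine (S.norm.mul_mem_cancel_right (S.gl_mem_norm u)).1
      (hloc _ (mul_mem hg (hnM (S.gl_mem_norm u))) ?_)
    rw [Units.val_mul, Pauli.coe_gl, mul_assoc, S.comm u a, B_symm, sp.B_vu, sgn_one, mul_smul_comm,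
      ← mul_assoc, hc, smul_mul_assoc, smul_smul, neg_mul_neg, one_mul, one_smul, mul_assoc]

end CfsgLib.Geometric.PauliMax
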