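import Cfsg.Agent.Lib.Geometric.PauliMax.SplitDef

/-!
Block diagonal elements in split coordinates of a Pauli system and the ones lying in the normaliser.
-/

set_option autoImplicit false

namespace CfsgLib.Geometric.PauliMax

open Cfsg.Geo Matrix

variable {ι : Type} [Fintype ι] [DecidableEq ι] {F : Type*} [Field F]

local notation "𝕂" => Matrix (Fin 4) (Fin 4) F

namespace Split

variable {S : Pauli (Fin 6 → ZMod 2) ι F} {v u : Fin 6 → ZMod 2} (sp : Split S v u)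

theorem Φ_inj {X Y : Matrix ι ι F} (h : sp.Φ X = sp.Φ Y) : X = Y := sp.Φ.injective h

/-- Block diagonal elements. -/
def bd : GL (Fin 4) F × GL (Fin 4) F →* GL ι F where
  toFun p :=
    { val := sp.Φ.symm (fromBlocks (p.1 : 𝕂) 0 0 (p.2 : 𝕂))
      inv := sp.Φ.symm (fromBlocks ((p.1⁻¹ : GL (Fin 4) F) : 𝕂) 0 0 ((p.2⁻¹ : GL (Fin 4) F) : 𝕂))
      val_inv := by
        rw [← map_mul, fromBlocks_multiply]
        simp
      inv_val := by
        rw [← map_mul, fromBlocks_multiply]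
        simp }
  map_one' := by ext : 1; simp
  map_mul' p q := by
    ext : 1
    show sp.Φ.symm _ = sp.Φ.symm _ * sp.Φ.symm _
    rw [← map_mul, fromBlocks_multiply]
    simp

theorem Φ_bd (A B : GL (Fin 4) F) :
    sp.Φ ((sp.bd (A, B) : GL ι F) : Matrix ι ι F) = fromBlocks (A : 𝕂) 0 0 (B : 𝕂) :=
  sp.Φ.apply_symm_apply _

theorem Φ_smul (c : F) (X : Matrix ι ι F) : sp.Φ (c • X) = c • sp.Φ X := map_smul sp.Φ c X

/-- Every label gives a diagonal or an antidiagonal block matrix. -/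
theorem P_cases (w : Fin 6 → ZMod 2) :
    ∃ (y : V4) (k s : F), k ≠ 0 ∧ (s = 1 ∨ s = -1) ∧
      ((S.B v w = 0 ∧ sp.Φ (S.P w) = k • fromBlocks (sp.T.P y) 0 0 (s • sp.T.P y)) ∨
        (S.B v w = 1 ∧ sp.Φ (S.P w) = k • fromBlocks 0 (sp.T.P y) (s • sp.T.P y) 0)) := by
  have dich : ∀ c : ZMod 2, c = 0 ∨ c = 1 := by decide
  have sk : ∀ a b, S.B a b = S.B b a := fun a b => by
    have h := S.alt (a + b)
    simp only [map_add, LinearMap.add_apply, S.alt, add_zero, zero_add] at h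
    revert h; generalize S.B a b = c; generalize S.B b a = d; revert c d; decide
  set w' := w + S.B u w • v + S.B v w • u with hw'
  have hself : ∀ c : ZMod 2, c + c = 0 := by decide
  obtain ⟨y, hy⟩ := sp.surj w'
    (by simp only [hw', map_add, map_smul, smul_eq_mul, S.alt, mul_zero, add_zero, sp.B_vu, mul_one, hself])
    (by simp only [hw', map_add, map_smul, smul_eq_mul, sk u v, sp.B_vu, mul_one, S.alt, mul_zero, add_zero,
      hself])
  have hw : w = sp.f y + S.B u w • v + S.B v w • u := by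
    rw [hy, hw']
    have : ∀ a : Fin 6 → ZMod 2, a + a = 0 := fun a => funext fun _ => CharTwo.add_self_eq_zero _
    calc w = w + (S.B u w • v + S.B u w • v) + (S.B v w • u + S.B v w • u) := by rw [this, this, add_zero, add_zero]
      _ = _ := by abel
  rcases dich (S.B v w) with hb | hb <;> rcases dich (S.B u w) with ha | ha <;> rw [ha, hb] at hw
  · refine ⟨y, 1, 1, one_ne_zero, Or.inl rfl, Or.inl ⟨hb, ?_⟩⟩
    rw [hw, zero_smul, zero_smul, add_zero, add_zero, one_smul, one_smul, sp.P_f]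
  · obtain ⟨k, hk0, hk⟩ := S.P_add_coeff (sp.f y) v
    refine ⟨y, k, -1, hk0, Or.inr rfl, Or.inl ⟨hb, ?_⟩⟩
    rw [hw, zero_smul, add_zero, one_smul, hk, sp.Φ_smul, map_mul, sp.P_f, sp.P_v, fromBlocks_multiply]
    simp
  · obtain ⟨k, hk0, hk⟩ := S.P_add_coeff (sp.f y) u
    refine ⟨y, k, 1, hk0, Or.inl rfl, Or.inr ⟨hb, ?_⟩⟩
    rw [hw, zero_smul, add_zero, one_smul, hk, sp.Φ_smul, map_mul, sp.P_f, sp.P_u, fromBlocks_multiply]
    simp
  · obtain ⟨k, hk0, hk⟩ := S.P_add_coeff (sp.f y + v) u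
    obtain ⟨k', hk0', hk'⟩ := S.P_add_coeff (sp.f y) v
    refine ⟨y, k * k', -1, mul_ne_zero hk0 hk0', Or.inr rfl, Or.inr ⟨hb, ?_⟩⟩
    rw [hw, one_smul, one_smul, hk, hk', smul_mul_assoc, smul_smul, sp.Φ_smul, map_mul, map_mul, sp.P_f,
      sp.P_v, sp.P_u, fromBlocks_multiply, fromBlocks_multiply]
    simp

/-- A matrix proportional to a Pauli matrix, in split coordinates. -/
def IsP (X : Matrix (Fin 4 ⊕ Fin 4) (Fin 4 ⊕ Fin 4) F) : Prop := ∃ (w : _) (k : F), X = k • sp.Φ (S.P w)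

theorem isP_diag (y : V4) {s : F} (hs : s = 1 ∨ s = -1) :
    sp.IsP (fromBlocks (sp.T.P y) 0 0 (s • sp.T.P y)) := by
  rcases hs with rfl | rfl
  · exact ⟨sp.f y, 1, by rw [one_smul, one_smul, sp.P_f]⟩
  · obtain ⟨k, hk0, hk⟩ := S.P_add_coeff (sp.f y) v
    refine ⟨sp.f y + v, k⁻¹, ?_⟩
    rw [hk, sp.Φ_smul, smul_smul, inv_mul_cancel₀ hk0, one_smul, map_mul, sp.P_f, sp.P_v, fromBlocks_multiply]
    simp

theorem isP_anti (y : V4) {s : F} (hs : s = 1 ∨ s = -1) :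
    sp.IsP (fromBlocks 0 (sp.T.P y) (s • sp.T.P y) 0) := by
  rcases hs with rfl | rfl
  · obtain ⟨k, hk0, hk⟩ := S.P_add_coeff (sp.f y) u
    refine ⟨sp.f y + u, k⁻¹, ?_⟩
    rw [hk, sp.Φ_smul, smul_smul, inv_mul_cancel₀ hk0, one_smul, map_mul, sp.P_f, sp.P_u, fromBlocks_multiply]
    simp
  · obtain ⟨k, hk0, hk⟩ := S.P_add_coeff (sp.f y + v) u
    obtain ⟨k', hk0', hk'⟩ := S.P_add_coeff (sp.f y) v
    refine ⟨sp.f y + v + u, (k * k')⁻¹, ?_⟩
    rw [hk, hk', smul_mul_assoc, smul_smul k, sp.Φ_smul, smul_smul, inv_mul_cancel₀ (mul_ne_zero hk0 hk0'),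
      one_smul, map_mul, map_mul, sp.P_f, sp.P_v, sp.P_u, fromBlocks_multiply, fromBlocks_multiply]
    simp

theorem isP_smul {X : Matrix (Fin 4 ⊕ Fin 4) (Fin 4 ⊕ Fin 4) F} (c : F) (h : sp.IsP X) : sp.IsP (c • X) := by
  obtain ⟨w, k, rfl⟩ := h
  exact ⟨w, c * k, smul_smul _ _ _⟩

/-- A block diagonal element normalises the system if it sends both kinds of basis blocks to Pauli matrices. -/
theorem bd_mem_norm {A B : GL (Fin 4) F}
    (h1 : ∀ (y : V4) (s : F), (s = 1 ∨ s = -1) →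
      ∃ X, sp.IsP X ∧ fromBlocks (A : 𝕂) 0 0 (B : 𝕂) * fromBlocks (sp.T.P y) 0 0 (s • sp.T.P y) =
        X * fromBlocks (A : 𝕂) 0 0 (B : 𝕂))
    (h2 : ∀ (y : V4) (s : F), (s = 1 ∨ s = -1) →
      ∃ X, sp.IsP X ∧ fromBlocks (A : 𝕂) 0 0 (B : 𝕂) * fromBlocks 0 (sp.T.P y) (s • sp.T.P y) 0 =
        X * fromBlocks (A : 𝕂) 0 0 (B : 𝕂)) :
    sp.bd (A, B) ∈ S.norm := by
  refine S.mem_norm fun w => ?_
  obtain ⟨y, k, s, -, hs, ⟨-, hw⟩ | ⟨-, hw⟩⟩ := sp.P_cases w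
  · obtain ⟨X, ⟨w', c, rfl⟩, hX⟩ := h1 y s hs
    refine ⟨w', k * c, sp.Φ_inj ?_⟩
    rw [map_mul, sp.Φ_bd, hw, sp.Φ_smul, map_mul, sp.Φ_bd, mul_smul_comm, hX, smul_mul_assoc, smul_smul]
  · obtain ⟨X, ⟨w', c, rfl⟩, hX⟩ := h2 y s hs
    refine ⟨w', k * c, sp.Φ_inj ?_⟩
    rw [map_mul, sp.Φ_bd, hw, sp.Φ_smul, map_mul, sp.Φ_bd, mul_smul_comm, hX, smul_mul_assoc, smul_smul]

theorem bd_diag_mem_norm {A : GL (Fin 4) F} (hA : A ∈ sp.T.norm) : sp.bd (A, A) ∈ S.norm := by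
  refine sp.bd_mem_norm (fun y s hs => ?_) (fun y s hs => ?_)
  · refine ⟨sp.T.cP A y • fromBlocks (sp.T.P (sp.T.sP A y)) 0 0 (s • sp.T.P (sp.T.sP A y)),
      sp.isP_smul _ (sp.isP_diag _ hs), ?_⟩
    simp [fromBlocks_multiply, fromBlocks_smul, sp.T.act_spec hA, smul_smul, mul_comm]
  · refine ⟨sp.T.cP A y • fromBlocks 0 (sp.T.P (sp.T.sP A y)) (s • sp.T.P (sp.T.sP A y)) 0,
      sp.isP_smul _ (sp.isP_anti _ hs), ?_⟩
    simp [fromBlocks_multiply, fromBlocks_smul, sp.T.act_spec hA, smul_smul, mul_comm]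

theorem bd_one_gl_mem_norm (y : V4) : sp.bd (1, sp.T.gl y) ∈ S.norm := by
  refine sp.bd_mem_norm (fun z s hs => ?_) (fun z s hs => ?_)
  · refine ⟨fromBlocks (sp.T.P z) 0 0 ((s * sgn F (sp.T.B y z)) • sp.T.P z), sp.isP_diag _ ?_, ?_⟩
    · rcases hs with rfl | rfl <;> rcases sgn_cases (F := F) (sp.T.B y z) with e | e <;> simp [e]
    · simp [fromBlocks_multiply, sp.T.comm y z, smul_smul]
  · obtain ⟨k, hk0, hk⟩ := sp.T.P_add_coeff z y
    refine ⟨k⁻¹ • fromBlocks 0 (sp.T.P (z + y)) ((s * sgn F (sp.T.B y z)) • sp.T.P (z + y)) 0,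
      sp.isP_smul _ (sp.isP_anti _ ?_), ?_⟩
    · rcases hs with rfl | rfl <;> rcases sgn_cases (F := F) (sp.T.B y z) with e | e <;> simp [e]
    · rw [hk, fromBlocks_smul, fromBlocks_multiply, fromBlocks_multiply]
      simp only [smul_zero, zero_mul, mul_zero, add_zero, zero_add, Units.val_one, one_mul, mul_one,
        Pauli.coe_gl, smul_smul, mul_smul_comm, smul_mul_assoc, mul_assoc, sp.T.sq]
      congr 1
      · rw [inv_mul_cancel₀ hk0, one_smul]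
      · rw [sp.T.comm y z, smul_smul]
        congr 1
        field_simp

/-- The scalar matrix as a unit. -/
def sc (k : F) (hk : k ≠ 0) : GL (Fin 4) F where
  val := k • 1
  inv := k⁻¹ • 1
  val_inv := by rw [smul_mul_assoc, one_mul, smul_smul, mul_inv_cancel₀ hk, one_smul]
  inv_val := by rw [smul_mul_assoc, one_mul, smul_smul, inv_mul_cancel₀ hk, one_smul]

theorem bd_one_sc_mem_norm {k : F} (hk : k ≠ 0) (h : k * k = 1 ∨ k * k = -1) :
    sp.bd (1, sc k hk) ∈ S.norm := by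
  refine sp.bd_mem_norm (fun z s hs => ?_) (fun z s hs => ?_)
  · exact ⟨_, sp.isP_diag z hs, by simp [fromBlocks_multiply, sc, smul_smul, mul_comm]⟩
  · refine ⟨k⁻¹ • fromBlocks 0 (sp.T.P z) ((k * k * s) • sp.T.P z) 0, sp.isP_smul _ (sp.isP_anti z ?_), ?_⟩
    · rcases hs with rfl | rfl <;> rcases h with e | e <;> simp [e]
    · simp [fromBlocks_multiply, fromBlocks_smul, sc, smul_smul, hk]
      congr 1
      field_simp

end Split

end CfsgLib.Geometric.PauliMax
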