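import Cfsg.Agent.Lib.Geometric.PauliMax.LocalBasic
import Cfsg.Agent.Lib.Geometric.PauliMax.Blocks

/-!
The projection dichotomy of a Pauli centraliser: the special linear group, or all projections normalise the
smaller system.
-/

set_option autoImplicit false

namespace CfsgLib.Geometric.PauliMax

open Cfsg.Geo Matrix CfsgLib.Geometric

variable {ι : Type} [Fintype ι] [DecidableEq ι] {F : Type*} [Field F]

local notation "𝕂" => Matrix (Fin 4) (Fin 4) F

/-- Every element of `M` centralising `P v` sends the Pauli matrices commuting with it to Pauli matrices, on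
the `+1`-eigenspace. -/
def Pauli.Proj {V : Type} [AddCommGroup V] [Module (ZMod 2) V] [Fintype V] (S : Pauli V ι F)
    (M : Subgroup (GL ι F)) (v : V) : Prop :=
  ∀ g ∈ M, (g : Matrix ι ι F) * S.P v = S.P v * (g : Matrix ι ι F) → ∀ w, S.B v w = 0 →
    ∃ (w' : V) (c : F), (g : Matrix ι ι F) * S.P w * (1 + S.P v) =
      c • (S.P w' * ((g : Matrix ι ι F) * (1 + S.P v)))

namespace Split

variable {S : Pauli (Fin 6 → ZMod 2) ι F} {v u : Fin 6 → ZMod 2} (sp : Split S v u)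
  {M : Subgroup (GL ι F)}

/-- The projections on the first block. -/
def projGroup (M : Subgroup (GL ι F)) : Subgroup (GL (Fin 4) F) :=
  (M.comap sp.bd).map (MonoidHom.fst _ _)

/-- All projections normalise the smaller system. -/
def Small (M : Subgroup (GL ι F)) : Prop := sp.projGroup M ≤ sp.T.norm

theorem exists_bd (h2 : (2 : F) ≠ 0) {g : GL ι F}
    (hg : (g : Matrix ι ι F) * S.P v = S.P v * (g : Matrix ι ι F)) :
    ∃ A B : GL (Fin 4) F, sp.bd (A, B) = g := by
  have key : ∀ h : GL ι F, (h : Matrix ι ι F) * S.P v = S.P v * (h : Matrix ι ι F) →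
      sp.Φ (h : Matrix ι ι F) =
        fromBlocks (sp.Φ (h : Matrix ι ι F)).toBlocks₁₁ 0 0 (sp.Φ (h : Matrix ι ι F)).toBlocks₂₂ := by
    intro h hh
    have e := congrArg sp.Φ hh
    rw [map_mul, map_mul, sp.P_v] at e
    set X := sp.Φ (h : Matrix ι ι F)
    rw [← fromBlocks_toBlocks X, fromBlocks_multiply, fromBlocks_multiply] at e
    simp only [mul_one, mul_zero, zero_mul, one_mul, add_zero, zero_add, fromBlocks_inj, mul_neg,
      neg_mul] at e
    obtain ⟨-, e12, e21, -⟩ := e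
    have z : ∀ Y : 𝕂, -Y = Y → Y = 0 := fun Y hY => by
      have : (2 : F) • Y = 0 := by rw [two_smul]; nth_rewrite 1 [← hY]; rw [neg_add_cancel]
      exact (smul_eq_zero.1 this).resolve_left h2
    conv_lhs => rw [← fromBlocks_toBlocks X]
    rw [z _ e12, z _ e21.symm]
  have hgi : ((g⁻¹ : GL ι F) : Matrix ι ι F) * S.P v = S.P v * ((g⁻¹ : GL ι F) : Matrix ι ι F) := by
    have := Commute.units_inv_left (show Commute ((g : GL ι F) : Matrix ι ι F) (S.P v) from hg)
    exact this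
  have e1 : sp.Φ (g : Matrix ι ι F) * sp.Φ ((g⁻¹ : GL ι F) : Matrix ι ι F) = 1 := by
    rw [← map_mul, Units.mul_inv, map_one]
  have e2 : sp.Φ ((g⁻¹ : GL ι F) : Matrix ι ι F) * sp.Φ (g : Matrix ι ι F) = 1 := by
    rw [← map_mul, Units.inv_mul, map_one]
  rw [key g hg, key g⁻¹ hgi, fromBlocks_multiply, ← fromBlocks_one] at e1 e2
  simp only [mul_zero, zero_mul, add_zero, zero_add, fromBlocks_inj] at e1 e2
  refine ⟨⟨_, _, e1.1, e2.1⟩, ⟨_, _, e1.2.2.2, e2.2.2.2⟩, ?_⟩
  exact Units.ext (sp.Φ_inj (by rw [sp.Φ_bd]; exact (key g hg).symm))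

theorem bd_swap_mem (hnM : S.norm ≤ M) {A B : GL (Fin 4) F} (h : sp.bd (A, B) ∈ M) : sp.bd (B, A) ∈ M := by
  have e : sp.bd (B, A) = S.gl u * sp.bd (A, B) * S.gl u := by
    refine Units.ext (sp.Φ_inj ?_)
    rw [Units.val_mul, Units.val_mul, map_mul, map_mul, sp.Φ_bd, sp.Φ_bd, Pauli.coe_gl, sp.P_u,
      fromBlocks_multiply, fromBlocks_multiply]
    simp
  rw [e]
  exact mul_mem (mul_mem (hnM (S.gl_mem_norm u)) h) (hnM (S.gl_mem_norm u))

theorem mem_projGroup {A B : GL (Fin 4) F} (h : sp.bd (A, B) ∈ M) : A ∈ sp.projGroup M :=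
  ⟨(A, B), h, rfl⟩

theorem mem_projGroup₂ (hnM : S.norm ≤ M) {A B : GL (Fin 4) F} (h : sp.bd (A, B) ∈ M) :
    B ∈ sp.projGroup M :=
  sp.mem_projGroup (sp.bd_swap_mem hnM h)

theorem norm_le_projGroup (hnM : S.norm ≤ M) : sp.T.norm ≤ sp.projGroup M := fun _ hA =>
  sp.mem_projGroup (hnM (sp.bd_diag_mem_norm hA))

/-- The big case. -/
theorem sl_le_of_big (h2 : (2 : F) ≠ 0) {i : F} (hi : i * i = -1) (hnM : S.norm ≤ M)
    (hbig : specialLinear (Fin 4) F ≤ sp.projGroup M) : specialLinear ι F ≤ M := by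
  set L : Subgroup (GL (Fin 4) F) := M.comap (sp.bd.comp (MonoidHom.inr _ _)) with hL
  have hLn : ∀ (w : Fin 4 → F) (φ : (Fin 4 → F) →ₗ[F] F) (h : φ w = 0), ∀ l ∈ L,
      tv w φ h * l * (tv w φ h)⁻¹ ∈ L := by
    intro w φ h l hl
    obtain ⟨⟨B, A⟩, hBA, rfl⟩ := hbig (tv_mem_specialLinear w φ h)
    have hAB : sp.bd (A, tv w φ h) ∈ M := by
      have := sp.bd_swap_mem hnM hBA
      exact this
    have := mul_mem (mul_mem hAB (show sp.bd (1, l) ∈ M from hl)) (inv_mem hAB)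
    rw [← map_mul, ← map_inv, ← map_mul] at this
    show sp.bd (1, _) ∈ M
    simpa using this
  -- a transvection in `L`
  set y : V4 := Pi.single 0 1 with hy
  have hy0 : y ≠ 0 := by simp [hy]
  set T := sp.T.gl y with hT
  have hTL : T ∈ L := hnM (sp.bd_one_gl_mem_norm y)
  have hT2 : ∀ x, ap T (ap T x) = x := fun x => by
    rw [← ap_mul, show T * T = 1 from Units.ext (sp.T.sq y), ap_one]
  have hns : ∀ c : F, (T : 𝕂) ≠ c • 1 := fun c e => hy0 (sp.T.eq_of_smul_P (c := c) (by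
    rw [sp.T.zero]; exact e))
  obtain ⟨x₁, hx₁⟩ : ∃ x, x + ap T x ≠ 0 := by
    by_contra hc
    push Not at hc
    refine hns (-1) (Matrix.ext_of_mulVec_single fun j => ?_)
    rw [smul_mulVec, one_mulVec]
    have := hc (Pi.single j 1)
    rw [neg_one_smul, eq_neg_iff_add_eq_zero, add_comm]
    exact this
  obtain ⟨x₂, hx₂⟩ : ∃ x, x - ap T x ≠ 0 := by
    by_contra hc
    push Not at hc
    refine hns 1 (Matrix.ext_of_mulVec_single fun j => ?_)
    rw [one_smul, one_mulVec]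
    exact (sub_eq_zero.1 (hc _)).symm
  set v₀ := x₁ + ap T x₁ with hv₀
  set d := x₂ - ap T x₂ with hd
  have hTv : ap T v₀ = v₀ := by rw [hv₀, ap_add, hT2, add_comm]
  have hTd : ap T d = -d := by rw [hd, ap_sub, hT2, neg_sub]
  have hdv : d ∉ Submodule.span F {v₀} := by
    intro h
    obtain ⟨c, hc⟩ := Submodule.mem_span_singleton.1 h
    have e : -d = d := by rw [← hTd, ← hc, ap_smul, hTv]
    have h2d : (2 : F) • d = 0 := by rw [two_smul]; nth_rewrite 1 [← e]; rw [neg_add_cancel]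
    exact hx₂ ((smul_eq_zero.1 h2d).resolve_left h2)
  obtain ⟨φ, hφv, hφd⟩ := exists_functional_zero_one hdv
  set ψ : (Fin 4 → F) →ₗ[F] F := φ.comp (apEquiv T).toLinearMap - φ with hψ
  have hψv : ψ v₀ = 0 := by simp [hψ, hTv, hφv]
  have hψ0 : ψ ≠ 0 := fun h => h2 (by
    have e := LinearMap.congr_fun h d
    simp [hψ, hTd, hφd] at e
    linear_combination -e)
  have hm : tv v₀ ψ hψv ∈ L := by
    have hc := mul_mem hTL (hLn v₀ φ hφv T hTL)
    convert hc using 1
    apply gl_ext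
    intro x
    simp only [ap_mul, tv_inv, ap_tv, LinearMap.neg_apply, ap_add, ap_smul, hTv, hT2, hψ,
      LinearMap.sub_apply, LinearMap.comp_apply, LinearEquiv.coe_coe, apEquiv_apply, map_add, map_smul,
      hφv, smul_eq_mul]
    module
  have hL' : specialLinear (Fin 4) F ≤ L :=
    sl_le_of_normalised (by simp) hLn hψv hψ0 hx₁ hm
  -- transport
  let Ψ : GL ι F ≃* GL (Fin 4 ⊕ Fin 4) F := Units.mapEquiv sp.Φ.toMulEquiv
  have hΨ : ∀ g : GL ι F, ((Ψ g : GL (Fin 4 ⊕ Fin 4) F) : Matrix _ _ F) = sp.Φ (g : Matrix ι ι F) :=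
    fun g => rfl
  have htg : (Ψ (S.tgl h2 hi u)).val =
      fromBlocks ((1 + i)⁻¹ • 1) (((1 + i)⁻¹ * i) • 1) (((1 + i)⁻¹ * i) • 1) ((1 + i)⁻¹ • 1) := by
    rw [hΨ, S.coe_tgl, sp.Φ_smul, map_add, map_one, sp.Φ_smul, sp.P_u, ← fromBlocks_one, fromBlocks_smul,
      fromBlocks_add, fromBlocks_smul]
    simp [smul_smul]
  have hi0 : i ≠ 0 := fun h => by simp [h] at hi
  have h1i : (1 + i) ≠ 0 := fun h => h2 (by
    have : i = -1 := by linear_combination h
    rw [this] at hi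
    linear_combination hi)
  have hblock : ∀ (w : Fin 4 → F) (θ : (Fin 4 → F) →ₗ[F] F) (h : θ w = 0),
      tv (inr' w) (θ.comp pr) (by simpa using h) = Ψ (sp.bd (1, tv w θ h)) ∧
      tv (inl' w) (θ.comp pl) (by simpa using h) = Ψ (sp.bd (tv w θ h, 1)) := by
    intro w θ h
    constructor <;>
    · apply gl_ext
      intro z
      rw [ap_tv, ap_def, hΨ, sp.Φ_bd, fromBlocks_mulVec]
      simp only [Units.val_one, zero_mulVec, one_mulVec, add_zero, zero_add, ← ap_def, ap_tv,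
        LinearMap.comp_apply]
      ext (j | j) <;> simp [inl', inr', pl, pr] <;> exact Or.inl rfl
  have key := sl_le_of_blocks (M := M.map Ψ.toMonoidHom) (by simp)
    (fun w θ h => by
      rw [(hblock w θ h).2]
      exact ⟨_, sp.bd_swap_mem hnM (hL' (tv_mem_specialLinear w θ h)), rfl⟩)
    (fun w θ h => by
      rw [(hblock w θ h).1]
      exact ⟨_, hL' (tv_mem_specialLinear w θ h), rfl⟩)
    ⟨_, hnM (S.tgl_mem_norm h2 hi u).1, rfl⟩ (inv_ne_zero h1i) (mul_ne_zero (inv_ne_zero h1i) hi0) htg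
  intro g hg
  rw [mem_specialLinear_iff] at hg
  obtain ⟨g', hg', e⟩ := key (show Ψ g ∈ specialLinear _ F by
    rw [mem_specialLinear_iff, hΨ, sp.det_Φ, hg])
  rwa [← Ψ.injective e]

/-- The small case gives the projection property. -/
theorem proj_of_small (h2 : (2 : F) ≠ 0) (hsm : sp.Small M) : S.Proj M v := by
  intro g hg hgc w hw
  obtain ⟨A, B, rfl⟩ := sp.exists_bd h2 hgc
  have hA : A ∈ sp.T.norm := hsm (sp.mem_projGroup hg)
  obtain ⟨y, k, s, -, -, ⟨-, hP⟩ | ⟨h1, -⟩⟩ := sp.P_cases w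
  swap
  · rw [hw] at h1; exact absurd h1 zero_ne_one
  refine ⟨sp.f (sp.T.sP A y), k * sp.T.cP A y, sp.Φ_inj ?_⟩
  simp only [map_mul, sp.Φ_smul, map_add, map_one, sp.P_v, sp.P_f, sp.Φ_bd, hP]
  rw [← fromBlocks_one, fromBlocks_add, fromBlocks_smul, fromBlocks_multiply, fromBlocks_multiply,
    fromBlocks_multiply, fromBlocks_multiply, fromBlocks_smul]
  simp only [add_neg_cancel, mul_zero, zero_mul, add_zero, zero_add, smul_zero, mul_smul_comm,
    smul_mul_assoc, mul_add, mul_one, smul_add]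
  simp [sp.T.act_spec hA, smul_smul, mul_add]

end Split

end CfsgLib.Geometric.PauliMax
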