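import Cfsg.Prelude.Def_GeometricClasses

/-!
A system of Pauli matrices: involutions `P v` indexed by a symplectic space over `𝔽₂`, commuting up to the
sign of the form and forming a basis of the matrix algebra; the subgroup permuting them up to scalars.
-/

set_option autoImplicit false

namespace CfsgLib.Geometric.PauliMax

open Cfsg.Geo

/-- The sign attached to an element of `ZMod 2`. -/
def sgn (F : Type*) [Field F] (a : ZMod 2) : F := if a = 0 then 1 else -1

/-- A system of Pauli matrices. -/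
structure Pauli (V : Type) [AddCommGroup V] [Module (ZMod 2) V] [Fintype V] (ι : Type) [Fintype ι]
    [DecidableEq ι] (F : Type*) [Field F] where
  P : V → Matrix ι ι F
  B : V →ₗ[ZMod 2] V →ₗ[ZMod 2] ZMod 2
  alt : ∀ v, B v v = 0
  nondeg : ∀ v, (∀ w, B v w = 0) → v = 0
  zero : P 0 = 1
  sq : ∀ v, P v * P v = 1
  comm : ∀ v w, P v * P w = sgn F (B v w) • (P w * P v)
  add : ∀ v w, ∃ c : F, P (v + w) = c • (P v * P w)
  li : LinearIndependent F P
  card : Fintype.card V = Fintype.card ι ^ 2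

variable {V : Type} [AddCommGroup V] [Module (ZMod 2) V] [Fintype V] {ι : Type} [Fintype ι] [DecidableEq ι]
  {F : Type*} [Field F]

theorem sgn_zero : sgn F (0 : ZMod 2) = 1 := if_pos rfl

theorem sgn_one : sgn F (1 : ZMod 2) = -1 := if_neg one_ne_zero

theorem sgn_cases (a : ZMod 2) : sgn F a = 1 ∨ sgn F a = -1 := by
  unfold sgn; split <;> simp

namespace Pauli

variable (S : Pauli V ι F)

theorem span_eq_top : Submodule.span F (Set.range S.P) = ⊤ :=
  S.li.span_eq_top_of_card_eq_finrank' (by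
    rw [S.card, Module.finrank_matrix, Module.finrank_self, mul_one, pow_two])

theorem P_ne_zero (v : V) : S.P v ≠ 0 := S.li.ne_zero v

/-- A Pauli matrix as an element of the general linear group. -/
def gl (v : V) : GL ι F := ⟨S.P v, S.P v, S.sq v, S.sq v⟩

@[simp] theorem coe_gl (v : V) : ((S.gl v : GL ι F) : Matrix ι ι F) = S.P v := rfl

theorem gl_inv (v : V) : (S.gl v)⁻¹ = S.gl v := rfl

/-- The elements permuting the Pauli matrices up to scalars. -/
def norm : Subgroup (GL ι F) where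
  carrier := {g | (∀ v, ∃ (w : V) (c : F), (g : Matrix ι ι F) * S.P v = c • (S.P w * (g : Matrix ι ι F))) ∧
    ∀ v, ∃ (w : V) (c : F), ((g⁻¹ : GL ι F) : Matrix ι ι F) * S.P v =
      c • (S.P w * ((g⁻¹ : GL ι F) : Matrix ι ι F))}
  one_mem' := ⟨fun v => ⟨v, 1, by simp⟩, fun v => ⟨v, 1, by simp⟩⟩
  mul_mem' := by
    intro g h hg hh
    refine ⟨fun v => ?_, fun v => ?_⟩
    · obtain ⟨w, c, hw⟩ := hh.1 v
      obtain ⟨z, d, hz⟩ := hg.1 w
      refine ⟨z, c * d, ?_⟩
      rw [Units.val_mul, mul_assoc, hw, mul_smul_comm, ← mul_assoc, hz, smul_mul_assoc, smul_smul, mul_assoc]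
    · obtain ⟨w, c, hw⟩ := hg.2 v
      obtain ⟨z, d, hz⟩ := hh.2 w
      refine ⟨z, c * d, ?_⟩
      rw [mul_inv_rev, Units.val_mul, mul_assoc, hw, mul_smul_comm, ← mul_assoc, hz, smul_mul_assoc,
        smul_smul, mul_assoc]
  inv_mem' := by
    intro g hg
    exact ⟨hg.2, by rw [inv_inv]; exact hg.1⟩

theorem mem_norm_iff {g : GL ι F} : g ∈ S.norm ↔
    (∀ v, ∃ (w : V) (c : F), (g : Matrix ι ι F) * S.P v = c • (S.P w * (g : Matrix ι ι F))) ∧
    ∀ v, ∃ (w : V) (c : F), ((g⁻¹ : GL ι F) : Matrix ι ι F) * S.P v =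
      c • (S.P w * ((g⁻¹ : GL ι F) : Matrix ι ι F)) := Iff.rfl

/-- Permuting the Pauli matrices forwards suffices. -/
theorem mem_norm {g : GL ι F}
    (h : ∀ v, ∃ (w : V) (c : F), (g : Matrix ι ι F) * S.P v = c • (S.P w * (g : Matrix ι ι F))) :
    g ∈ S.norm := by
  refine ⟨h, ?_⟩
  choose f c hc using h
  have hc0 : ∀ v, c v ≠ 0 := by
    intro v h0
    have h1 := hc v
    rw [h0, zero_smul] at h1
    refine S.P_ne_zero v ?_
    calc S.P v = ((g⁻¹ : GL ι F) : Matrix ι ι F) * ((g : Matrix ι ι F) * S.P v) := by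
          rw [← mul_assoc, Units.inv_mul, one_mul]
      _ = 0 := by rw [h1, mul_zero]
  have hinj : Function.Injective f := by
    intro v v' hvv
    by_contra hne
    have h1 : (g : Matrix ι ι F) * S.P v = (c v / c v') • ((g : Matrix ι ι F) * S.P v') := by
      rw [hc v', smul_smul, div_mul_cancel₀ _ (hc0 v'), hc v, hvv]
    have h2 : S.P v = (c v / c v') • S.P v' := by
      have := congrArg (fun X => ((g⁻¹ : GL ι F) : Matrix ι ι F) * X) h1
      simp only [mul_smul_comm, ← mul_assoc, Units.inv_mul, one_mul] at this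
      exact this
    have := S.li.eq_of_smul_apply_eq_smul_apply 1 (c v / c v') v v' one_ne_zero (by rw [one_smul]; exact h2)
    exact hne this
  intro v
  obtain ⟨u, rfl⟩ := (Finite.injective_iff_surjective.1 hinj) v
  refine ⟨u, (c u)⁻¹, ?_⟩
  have h1 : ((g⁻¹ : GL ι F) : Matrix ι ι F) * ((g : Matrix ι ι F) * S.P u) * ((g⁻¹ : GL ι F) : Matrix ι ι F) =
      S.P u * ((g⁻¹ : GL ι F) : Matrix ι ι F) := by
    rw [← mul_assoc, Units.inv_mul, one_mul]
  rw [hc u, mul_smul_comm, smul_mul_assoc, mul_assoc, mul_assoc, Units.mul_inv, mul_one] at h1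
  rw [← h1, smul_smul, inv_mul_cancel₀ (hc0 u), one_smul]

theorem gl_mem_norm (v : V) : S.gl v ∈ S.norm :=
  S.mem_norm fun w => ⟨w, sgn F (S.B v w), S.comm v w⟩

theorem scalar_mem_norm {g : GL ι F} (hg : g ∈ scalars ι F) : g ∈ S.norm := by
  obtain ⟨a, ha⟩ := (mem_scalars_iff g).1 hg
  exact S.mem_norm fun w => ⟨w, 1, by rw [ha, smul_mul_assoc, one_mul, mul_smul_comm, mul_one, one_smul]⟩

/-- The dichotomy for overgroups of the normaliser. -/
def Dichotomy : Prop :=
  ∀ M : Subgroup (GL ι F), S.norm ≤ M → M ≤ S.norm ∨ specialLinear ι F ≤ M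

end Pauli

end CfsgLib.Geometric.PauliMax
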