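import Cfsg.Agent.Lib.Geometric.PauliMax.Action

/-!
The splitting of a three-qubit Pauli system along an anticommuting pair of labels.
-/

set_option autoImplicit false

namespace CfsgLib.Geometric.PauliMax

open Cfsg.Geo

/-- A two-qubit label space. -/
abbrev V4 := Fin 4 → ZMod 2

variable {ι : Type} [Fintype ι] [DecidableEq ι] {F : Type*} [Field F]

/-- Coordinates in which `P v` is `diag (1, -1)`, `P u` exchanges the blocks and the Pauli matrices
orthogonal to both act diagonally by a two-qubit system. -/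
structure Split (S : Pauli (Fin 6 → ZMod 2) ι F) (v u : Fin 6 → ZMod 2) where
  Φ : Matrix ι ι F ≃ₐ[F] Matrix (Fin 4 ⊕ Fin 4) (Fin 4 ⊕ Fin 4) F
  T : Pauli V4 (Fin 4) F
  f : V4 →ₗ[ZMod 2] (Fin 6 → ZMod 2)
  det_Φ : ∀ X, (Φ X).det = X.det
  B_vu : S.B v u = 1
  P_v : Φ (S.P v) = Matrix.fromBlocks 1 0 0 (-1)
  P_u : Φ (S.P u) = Matrix.fromBlocks 0 1 1 0
  perp : ∀ y, S.B v (f y) = 0 ∧ S.B u (f y) = 0
  B_f : ∀ y z, S.B (f y) (f z) = T.B y z
  P_f : ∀ y, Φ (S.P (f y)) = Matrix.fromBlocks (T.P y) 0 0 (T.P y)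
  surj : ∀ w, S.B v w = 0 → S.B u w = 0 → ∃ y, f y = w

end CfsgLib.Geometric.PauliMax
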