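import Cfsg.Agent.Lib.Geometric.PauliMax.Action
import Cfsg.Agent.Lib.Geometric.Unitary

/-!
Systems of Pauli matrices made of isometries of a hermitian form: their transvection elements are
isometries, and these generate the normaliser together with the scalars.
-/

set_option autoImplicit false

namespace CfsgLib.Geometric.PauliMax

open Cfsg.Geo CfsgLib.Geometric

variable {V : Type} [AddCommGroup V] [Module (ZMod 2) V] [Fintype V] {ι : Type} [Fintype ι] [DecidableEq ι]
  {F : Type*} [Field F]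

/-- The Pauli matrices are isometries of the form. -/
def Pauli.IsUnitary (S : Pauli V ι F) (f : (ι → F) → (ι → F) → F) : Prop :=
  ∀ v, S.gl v ∈ isom f

variable {σ : F ≃+* F} {f : (ι → F) → (ι → F) → F}

omit [Fintype ι] [DecidableEq ι] in
theorem form_add_right (hh : IsUnitaryForm σ f) (v x y : ι → F) : f v (x + y) = f v x + f v y := by
  rw [hh.herm v (x + y), hh.add_left, map_add, ← hh.herm v x, ← hh.herm v y]

omit [Fintype ι] [DecidableEq ι] in
theorem form_smul_right (hh : IsUnitaryForm σ f) (c : F) (v x : ι → F) :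
    f v (c • x) = σ c * f v x := by
  rw [hh.herm v (c • x), hh.smul_left, map_mul, ← hh.herm v x]

theorem scalar_mem_similarityGroup (hh : IsUnitaryForm σ f) {g : GL ι F} (hg : g ∈ scalars ι F) :
    g ∈ similarityGroup f := by
  obtain ⟨c, hc⟩ := (mem_scalars_iff g).1 hg
  refine ⟨c * Units.mk0 (σ c) ((map_ne_zero σ).2 c.ne_zero), fun u v => ?_⟩
  rw [hc, Matrix.smul_mulVec, Matrix.smul_mulVec, Matrix.one_mulVec, Matrix.one_mulVec, hh.smul_left,
    form_smul_right hh, Units.val_mul, Units.val_mk0, mul_assoc]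

/-- The commutator of two similitudes is an isometry. -/
theorem commutator_mem_isom {g h : GL ι F} (hg : g ∈ similarityGroup f) (hh : h ∈ similarityGroup f) :
    g * h * g⁻¹ * h⁻¹ ∈ isom f := by
  obtain ⟨a, ha⟩ := hg
  obtain ⟨b, hb⟩ := hh
  have hinv : ∀ {x : GL ι F} {c : Fˣ}, (∀ u v, f ((x : Matrix ι ι F).mulVec u) ((x : Matrix ι ι F).mulVec v) =
      (c : F) * f u v) → ∀ u v, f (ap x⁻¹ u) (ap x⁻¹ v) = (c : F)⁻¹ * f u v := fun {x c} hx u v => by
    have e := hx (ap x⁻¹ u) (ap x⁻¹ v)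
    rw [← ap_def, ← ap_def, ap_ap_inv, ap_ap_inv] at e
    rw [e, ← mul_assoc, inv_mul_cancel₀ c.ne_zero, one_mul]
  refine mem_isom_iff.2 fun u v => ?_
  simp only [ap_mul]
  rw [ap_def g, ap_def g, ha, ap_def h, ap_def h, hb, hinv ha, hinv hb]
  field_simp

namespace Pauli

variable (S : Pauli V ι F)

theorem form_P (hS : S.IsUnitary f) (v : V) (x y : ι → F) :
    f (Matrix.mulVec (S.P v) x) y = f x (Matrix.mulVec (S.P v) y) := by
  have e := mem_isom_iff.1 (hS v) x (Matrix.mulVec (S.P v) y)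
  rw [ap_def, ap_def, coe_gl, Matrix.mulVec_mulVec, S.sq, Matrix.one_mulVec] at e
  exact e

/-- The transvection elements are isometries. -/
theorem tgl_mem_isom (hh : IsUnitaryForm σ f) (hS : S.IsUnitary f) (h2 : (2 : F) ≠ 0) {i : F}
    (hi : i * i = -1) (hσi : σ i = -i) (v : V) : S.tgl h2 hi v ∈ isom f := by
  have h1 : (1 + i) * (1 - i) = 2 := by linear_combination -hi
  have hσ2 : σ (1 + i) = 1 - i := by rw [map_add, map_one, hσi, sub_eq_add_neg]
  refine mem_isom_iff.2 fun x y => ?_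
  have e := mem_isom_iff.1 (hS v) x y
  rw [ap_def, ap_def, coe_gl] at e
  simp only [ap_def, coe_tgl, Matrix.smul_mulVec, Matrix.add_mulVec, Matrix.one_mulVec, hh.smul_left,
    form_smul_right hh, hh.add_left, form_add_right hh, map_inv₀, hσ2, hσi, S.form_P hS v x y]
  rw [e]
  rw [← mul_assoc, ← mul_inv, h1]
  field_simp
  linear_combination -(f x y) * hi

/-- The label action as a linear equivalence. -/
theorem sP_injective {g : GL ι F} (hg : g ∈ S.norm) : Function.Injective (S.sP g) := by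
  intro v w h
  have hc := S.coeff_ne_zero (S.act_spec hg w)
  have e : (g : Matrix ι ι F) * S.P v = (S.cP g v * (S.cP g w)⁻¹) • ((g : Matrix ι ι F) * S.P w) := by
    rw [S.act_spec hg, S.act_spec hg, smul_smul, mul_assoc, inv_mul_cancel₀ hc, mul_one, h]
  refine S.eq_of_smul_P (c := S.cP g v * (S.cP g w)⁻¹) (smul_gl_cancel (g := g) ?_)
  rw [e, mul_smul_comm]

end Pauli

section Generation

variable {k : ℕ} (S : Pauli (Fin k → ZMod 2) ι F)

/-- The scalars, the Pauli matrices and the transvection elements generate the normaliser. -/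
theorem Pauli.norm_le (h2 : (2 : F) ≠ 0) {i : F} (hi : i * i = -1) {H : Subgroup (GL ι F)}
    (hs : scalars ι F ≤ H) (hgl : ∀ v, S.gl v ∈ H) (ht : ∀ v, S.tgl h2 hi v ∈ H) : S.norm ≤ H := by
  classical
  have hB : Cfsg.Geo.IsSymplecticForm fun a b => S.B a b := by
    have sk : ∀ a b, S.B a b = S.B b a := fun a b => by
      have h := S.alt (a + b)
      simp only [map_add, LinearMap.add_apply, S.alt, add_zero, zero_add] at h
      revert h; generalize S.B a b = c; generalize S.B b a = d; revert c d; decide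
    have hneg : ∀ c : ZMod 2, -c = c := by decide
    refine ⟨⟨fun x y v => by simp, fun c x v => by simp, fun v x y => by simp, fun c v x => by simp⟩,
      fun v w => by rw [hneg]; exact sk v w, S.alt, fun v hv => ?_⟩
    obtain ⟨w, hw⟩ : ∃ w, S.B v w ≠ 0 := by
      by_contra hc
      push Not at hc
      exact hv (S.nondeg v hc)
    exact ⟨⟨w, by rw [sk]; exact hw⟩, ⟨w, hw⟩⟩
  have hone : ∀ v, S.sP (1 : GL ι F) v = v := fun v =>
    (S.act_unique (one_mem S.norm) (w := v) (c := 1) (by simp)).1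
  let A : Subgroup (GL (Fin k) (ZMod 2)) :=
    { carrier := {γ | ∃ h ∈ H ⊓ S.norm, ∀ v, S.sP h v = ap γ v}
      one_mem' := ⟨1, one_mem _, fun v => by rw [hone, ap_one]⟩
      mul_mem' := by
        rintro a b ⟨g, hg, hga⟩ ⟨h, hh, hhb⟩
        exact ⟨g * h, mul_mem hg hh, fun v => by
          rw [(S.act_mul hg.2 hh.2 v).1, hhb, hga, ap_mul]⟩
      inv_mem' := by
        rintro a ⟨g, hg, hga⟩
        refine ⟨g⁻¹, inv_mem hg, fun v => S.sP_injective hg.2 ?_⟩
        rw [← (S.act_mul hg.2 (inv_mem hg.2) v).1, mul_inv_cancel, hone, hga, ap_ap_inv] }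
  have hA : isom (fun a b => S.B a b) ≤ A := by
    refine Symp.isom_le_of_T_mem hB fun v c => ?_
    have hc : c = 0 ∨ c = 1 := by revert c; decide
    rcases hc with rfl | rfl
    · exact ⟨1, one_mem _, fun w => by rw [hone, Symp.ap_T hB]; simp⟩
    · refine ⟨S.tgl h2 hi v, ⟨ht v, (S.tgl_mem_norm h2 hi v).1⟩, fun w => ?_⟩
      rw [(S.tgl_mem_norm h2 hi v).2, Symp.ap_T hB, one_mul]
  intro g hg
  let L : (Fin k → ZMod 2) →ₗ[ZMod 2] (Fin k → ZMod 2) :=
    AddMonoidHom.toZModLinearMap 2 (AddMonoidHom.mk' (S.sP g) fun v w => (S.act_add hg v w).1)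
  have hL : Function.Injective L := S.sP_injective hg
  set γ := ofEquiv (LinearEquiv.ofInjectiveEndo L hL) with hγ
  have hγv : ∀ v, ap γ v = S.sP g v := fun v => by rw [hγ, ap_ofEquiv]; rfl
  obtain ⟨h, hh, hhv⟩ := hA (show γ ∈ isom _ from mem_isom_iff.2 fun u v => by
    simp only [hγv]; exact S.act_B h2 hg u v)
  have hfix : ∀ v, S.sP (h⁻¹ * g) v = v := fun v => by
    rw [(S.act_mul (inv_mem hh.2) hg v).1, ← hγv, ← hhv, ← (S.act_mul (inv_mem hh.2) hh.2 v).1,
      inv_mul_cancel, hone]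
  obtain ⟨u, c, hc⟩ := S.exists_of_fixed h2 (mul_mem (inv_mem hh.2) hg) hfix
  have hmem : h⁻¹ * g * (S.gl u)⁻¹ ∈ scalars ι F := by
    rcases isEmpty_or_nonempty ι with hι | hι
    · exact absurd (Subsingleton.elim _ _) (S.P_ne_zero u)
    have hc0 : c ≠ 0 := fun h0 => Units.ne_zero (h⁻¹ * g) (by rw [hc, h0, zero_smul])
    refine (mem_scalars_iff _).2 ⟨Units.mk0 c hc0, ?_⟩
    rw [S.gl_inv, Units.val_mul, hc, S.coe_gl, smul_mul_assoc, S.sq, Units.val_mk0]
  have : g = h * (h⁻¹ * g * (S.gl u)⁻¹ * S.gl u) := by group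
  rw [this]
  exact mul_mem hh.1 (mul_mem (hs hmem) (hgl u))

end Generation

end CfsgLib.Geometric.PauliMax
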