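import Cfsg.Agent.Lib.Geometric.PauliMax.SplitDef
import Cfsg.Agent.Lib.Geometric.PauliMax.UnitarySystem
import Cfsg.Agent.Lib.Forms.Hermitian

/-!
A unitary three-qubit system of Pauli matrices splits off one qubit isometrically.
-/

set_option autoImplicit false
set_option linter.unusedSectionVars false
set_option linter.style.haveILetI false

namespace CfsgLib.Geometric.PauliMax

open Matrix Cfsg.Geo Module CfsgLib.Geometric

/-- The standard hermitian form. -/
def herm {F : Type*} [Field F] (σ : F ≃+* F) {κ : Type} [Fintype κ] (u v : κ → F) : F :=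
  ∑ i, u i * σ (v i)

variable {F : Type*} [Field F]

local notation "V₃" => Fin 6 → ZMod 2
local notation "V₂" => Fin 4 → ZMod 2

/-- Inverting two blocks. -/
private theorem split_equiv {ι : Type} [Fintype ι] [DecidableEq ι] (h2 : (2 : F) ≠ 0)
    (A U : Module.End F (ι → F)) (hA : ∀ x, A (A x) = x) (hU : ∀ x, U (U x) = x)
    (hAU : ∀ x, A (U x) = - U (A x)) :
    ∃ L : (↥(LinearMap.eqLocus A LinearMap.id) × ↥(LinearMap.eqLocus A LinearMap.id)) ≃ₗ[F] (ι → F),
      ∀ p, L p = (p.1 : ι → F) + U (p.2 : ι → F) := by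
  have hmem : ∀ z, A z = z ↔ z ∈ LinearMap.eqLocus A LinearMap.id := fun z => Iff.rfl
  have hUA : ∀ x, U (A x) = - A (U x) := fun x => by rw [hAU, neg_neg]
  let L : (↥(LinearMap.eqLocus A LinearMap.id) × ↥(LinearMap.eqLocus A LinearMap.id)) →ₗ[F] (ι → F) :=
    (LinearMap.eqLocus A LinearMap.id).subtype.coprod (U.comp (LinearMap.eqLocus A LinearMap.id).subtype)
  refine ⟨LinearEquiv.ofBijective L ⟨?_, ?_⟩, fun p => rfl⟩
  · intro p q h
    have h' : (p.1 : ι → F) + U (p.2 : ι → F) = (q.1 : ι → F) + U (q.2 : ι → F) := h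
    have hA' := congrArg A h'
    simp only [map_add, (hmem _).2 p.1.2, (hmem _).2 q.1.2, hAU, (hmem _).2 p.2.2, (hmem _).2 q.2.2] at hA'
    have h1 : (2 : F) • (p.1 : ι → F) = (2 : F) • (q.1 : ι → F) := by
      rw [two_smul, two_smul]
      calc (p.1 : ι → F) + (p.1 : ι → F) = ((p.1 : ι → F) + U (p.2 : ι → F)) + ((p.1 : ι → F) + -U (p.2 : ι → F)) := by abel
        _ = ((q.1 : ι → F) + U (q.2 : ι → F)) + ((q.1 : ι → F) + -U (q.2 : ι → F)) := by rw [h', hA']
        _ = (q.1 : ι → F) + (q.1 : ι → F) := by abel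
    have h1' : (p.1 : ι → F) = (q.1 : ι → F) := smul_right_injective _ h2 h1
    rw [h1'] at h'
    have h2' := congrArg U (add_left_cancel h')
    rw [hU, hU] at h2'
    exact Prod.ext (Subtype.ext h1') (Subtype.ext h2')
  · intro z
    refine ⟨(⟨(2 : F)⁻¹ • (z + A z), (hmem _).1 ?_⟩, ⟨(2 : F)⁻¹ • (U z - U (A z)), (hmem _).1 ?_⟩), ?_⟩
    · rw [map_smul, map_add, hA, add_comm]
    · rw [map_smul, map_sub, hAU z, hAU (A z), hA]
      congr 1
      abel
    · show (2 : F)⁻¹ • (z + A z) + U ((2 : F)⁻¹ • (U z - U (A z))) = z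
      rw [map_smul, map_sub, hU, hU, ← smul_add, show z + A z + (z - A z) = (2 : F) • z by
        rw [two_smul]; abel, inv_smul_smul₀ h2]

/-- A matrix commuting with the two model matrices has equal diagonal blocks. -/
private theorem diag_of_commute (h2 : (2 : F) ≠ 0) (X : Matrix (Fin 4 ⊕ Fin 4) (Fin 4 ⊕ Fin 4) F)
    (hv : X * fromBlocks 1 0 0 (-1) = fromBlocks 1 0 0 (-1) * X)
    (hu : X * fromBlocks 0 1 1 0 = fromBlocks 0 1 1 0 * X) :
    X = fromBlocks X.toBlocks₁₁ 0 0 X.toBlocks₁₁ := by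
  rw [← fromBlocks_toBlocks X] at hv hu
  simp only [fromBlocks_multiply, Matrix.mul_one, Matrix.one_mul, Matrix.mul_zero, Matrix.zero_mul, add_zero,
    zero_add, Matrix.mul_neg, Matrix.neg_mul, fromBlocks_inj] at hv hu
  obtain ⟨-, h12, h21, -⟩ := hv
  have hz : ∀ Y : Matrix (Fin 4) (Fin 4) F, -Y = Y → Y = 0 := fun Y h => by
    have : (2 : F) • Y = 0 := by rw [two_smul]; nth_rewrite 1 [← h]; exact neg_add_cancel Y
    exact (smul_eq_zero.1 this).resolve_left h2
  have h0 : X.toBlocks₁₂ = 0 := hz _ h12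
  have h0' : X.toBlocks₂₁ = 0 := hz _ h21.symm
  conv_lhs => rw [← fromBlocks_toBlocks X, h0, h0']
  rw [hu.2.1]

/-- Splitting off one qubit isometrically. -/
theorem exists_unitary_split {ι : Type} [Fintype ι] [DecidableEq ι] {F : Type*} [Field F] [Finite F]
    {σ : F ≃+* F} {f : (ι → F) → (ι → F) → F} (hh : IsUnitaryForm σ f) (h2 : (2 : F) ≠ 0)
    (S : Pauli V₃ ι F) (hS : S.IsUnitary f) {v u : V₃} (h : S.B v u = 1) :
    ∃ (sp : Split S v u) (Ψ : ((Fin 4 ⊕ Fin 4) → F) ≃ₗ[F] (ι → F)),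
      (∀ X z, Ψ (sp.Φ X *ᵥ z) = X *ᵥ Ψ z) ∧ ∀ z z', f (Ψ z) (Ψ z') = herm σ z z' := by
  classical
  have hsk : ∀ a b, S.B a b = S.B b a := fun a b => by
    have h := S.alt (a + b)
    simp only [map_add, LinearMap.add_apply, S.alt, zero_add, add_zero] at h
    exact (CharTwo.add_eq_zero.1 h).symm
  have hvu : S.B v u = 1 := h
  have huv : S.B u v = 1 := (hsk u v).trans h
  have hι : Fintype.card ι = 8 := by
    have h64 := S.card
    simp at h64
    nlinarith
  set A := Matrix.toLin' (S.P v) with hAdef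
  set U := Matrix.toLin' (S.P u) with hUdef
  have hA : ∀ x, A (A x) = x := fun x => by
    rw [hAdef, ← Matrix.toLin'_mul_apply, S.sq, Matrix.toLin'_one, LinearMap.id_apply]
  have hU : ∀ x, U (U x) = x := fun x => by
    rw [hUdef, ← Matrix.toLin'_mul_apply, S.sq, Matrix.toLin'_one, LinearMap.id_apply]
  have hAU : ∀ x, A (U x) = - U (A x) := fun x => by
    rw [hAdef, hUdef, ← Matrix.toLin'_mul_apply, ← Matrix.toLin'_mul_apply, S.comm v u, hvu, sgn_one,
      neg_one_smul, map_neg, LinearMap.neg_apply]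
  set E := LinearMap.eqLocus A LinearMap.id with hEdef
  obtain ⟨L, hL⟩ : ∃ L : (↥E × ↥E) ≃ₗ[F] (ι → F), ∀ p, L p = (p.1 : ι → F) + U (p.2 : ι → F) :=
    split_equiv h2 A U hA hU hAU
  have hE4 : Module.finrank F E = 4 := by
    have h := L.finrank_eq
    rw [Module.finrank_prod, Module.finrank_pi, hι] at h
    omega
  -- an orthonormal basis of the eigenspace
  have hfA : ∀ x y, f (A x) y = f x (A y) := fun x y => by
    simp only [hAdef, Matrix.toLin'_apply]
    exact S.form_P hS v x y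
  have hUi : ∀ x y, f (U x) (U y) = f x y := fun x y => by
    simp only [hUdef, Matrix.toLin'_apply]
    exact mem_isom_iff.1 (hS u) x y
  have hfix' : ∀ q : E, A (q : ι → F) = q := fun q => q.2
  have hUA0 : ∀ p q : E, f (p : ι → F) (U q) = 0 ∧ f (U q) (p : ι → F) = 0 := fun p q => by
    have h1 : f (U q) (p : ι → F) = -f (U q) (p : ι → F) := by
      conv_lhs => rw [← hfix' p, ← hfA, hAU, hfix']
      simpa using hh.smul_left (-1) (U q) p
    have h0 : f (U q) (p : ι → F) = 0 := by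
      have : (2 : F) * f (U q) (p : ι → F) = 0 := by linear_combination h1
      exact (mul_eq_zero.1 this).resolve_left h2
    exact ⟨by rw [hh.herm, h0, map_zero], h0⟩
  let σh : F →+* F := σ.toRingHom
  let Bf : (ι → F) →ₛₗ[σh] (ι → F) →ₗ[F] F := LinearMap.mk₂'ₛₗ σh (RingHom.id F) (fun w x => f x w)
    (fun w w' x => form_add_right hh x w w') (fun c w x => form_smul_right hh c x w)
    (fun w x x' => hh.add_left x x' w) (fun c w x => hh.smul_left c x w)
  have hBf : ∀ w x, Bf w x = f x w := fun w x => rfl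
  obtain ⟨b, hbE, hb⟩ := CfsgLib.Forms.exists_orthonormal_family σh
    (fun h => hh.ne_refl (RingEquiv.ext fun x => RingHom.congr_fun h x)) hh.involutive Bf
    ⟨fun x y => by rw [hBf, hBf]; exact (hh.herm x y).symm⟩ 4 E hE4 (fun w hw h => by
      by_contra hw0
      obtain ⟨x, hx⟩ := (hh.nondegenerate w hw0).1
      obtain ⟨⟨p, q⟩, rfl⟩ := L.surjective x
      rw [hL, hh.add_left, (hUA0 ⟨w, hw⟩ q).2, add_zero] at hx
      exact hx (h p p.2))
  have hbb : ∀ i j, f (b i) (b j) = if i = j then 1 else 0 := fun i j => by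
    rw [← hBf, hb, eq_comm]
    congr 1
    exact propext eq_comm
  have hcomb : ∀ a a' : Fin 4 → F, f (∑ i, a i • b i) (∑ j, a' j • b j) = herm σ a a' := by
    intro a a'
    rw [← hBf]
    simp only [map_sum, LinearMap.sum_apply, map_smul, LinearMap.map_smulₛₗ, LinearMap.smul_apply, smul_eq_mul, hBf, hbb]
    rw [herm]
    refine Finset.sum_congr rfl fun j _ => ?_
    rw [Finset.sum_eq_single j (fun i _ hi => by simp [Ne.symm hi]) (fun h => absurd (Finset.mem_univ j) h)]
    simp [σh, mul_comm]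
  let comb : (Fin 4 → F) →ₗ[F] E := Fintype.linearCombination F fun i => (⟨b i, hbE i⟩ : E)
  have hcombv : ∀ a, (comb a : ι → F) = ∑ i, a i • b i := fun a => by
    simp [comb, Fintype.linearCombination_apply]
  have hcombi : Function.Injective comb := by
    rw [injective_iff_map_eq_zero]
    intro a ha
    funext j
    have h := hcomb a (Pi.single j 1)
    rw [← hcombv, ha] at h
    simp only [ZeroMemClass.coe_zero] at h
    have h0 : f 0 (∑ k, (Pi.single j (1 : F) : Fin 4 → F) k • b k) = 0 := by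
      simpa using hh.smul_left 0 0 (∑ k, (Pi.single j (1 : F) : Fin 4 → F) k • b k)
    rw [h0, herm, Finset.sum_eq_single j (fun i _ hi => by simp [hi])
      (fun h => absurd (Finset.mem_univ j) h)] at h
    simpa using h.symm
  obtain ⟨e, he⟩ : ∃ e : (Fin 4 → F) ≃ₗ[F] E, ∀ a, (e a : ι → F) = ∑ i, a i • b i :=
    ⟨LinearEquiv.ofBijective comb ⟨hcombi, (LinearMap.injective_iff_surjective_of_finrank_eq_finrank
      (by rw [hE4, Module.finrank_fin_fun])).1 hcombi⟩, hcombv⟩
  let Ψ : ((Fin 4 ⊕ Fin 4) → F) ≃ₗ[F] (ι → F) :=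
    (LinearEquiv.sumArrowLequivProdArrow (Fin 4) (Fin 4) F F).trans ((e.prodCongr e).trans L)
  have hΨ : ∀ z, Ψ z = (e (z ∘ Sum.inl) : ι → F) + U (e (z ∘ Sum.inr) : ι → F) := fun z =>
    hL ((e.prodCongr e) (LinearEquiv.sumArrowLequivProdArrow (Fin 4) (Fin 4) F F z))
  let Φ : Matrix ι ι F ≃ₐ[F] Matrix (Fin 4 ⊕ Fin 4) (Fin 4 ⊕ Fin 4) F :=
    Matrix.toLinAlgEquiv'.trans ((Ψ.symm.conjAlgEquiv F).trans LinearMap.toMatrixAlgEquiv')
  have hΦ : ∀ X z, Ψ (Matrix.mulVec (Φ X) z) = Matrix.mulVec X (Ψ z) := fun X z => by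
    have : Matrix.mulVec (Φ X) z = Ψ.symm (Matrix.mulVec X (Ψ z)) := by
      rw [← Matrix.toLinAlgEquiv'_apply]
      simp [Φ, Matrix.toLinAlgEquiv'_apply]
    rw [this, LinearEquiv.apply_symm_apply]
  have hext : ∀ X Y, (∀ z, Matrix.mulVec X (Ψ z) = Ψ (Matrix.mulVec Y z)) → Φ X = Y := fun X Y h =>
    Matrix.ext_of_mulVec_single fun i => Ψ.injective (by rw [hΦ, h])
  have hdet : ∀ X, (Φ X).det = X.det := fun X => by
    have : Φ X = LinearMap.toMatrix' ((Ψ.symm : (ι → F) →ₗ[F] _) ∘ₗ Matrix.toLin' X ∘ₗ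
        (Ψ.symm.symm : _ →ₗ[F] (ι → F))) := rfl
    rw [this, LinearMap.det_toMatrix', LinearMap.det_conj, LinearMap.det_toLin']
  have hfb : ∀ (a b c d : Matrix (Fin 4) (Fin 4) F) (z : Fin 4 ⊕ Fin 4 → F),
      (Matrix.mulVec (fromBlocks a b c d) z) ∘ Sum.inl = a *ᵥ (z ∘ Sum.inl) + b *ᵥ (z ∘ Sum.inr) ∧
      (Matrix.mulVec (fromBlocks a b c d) z) ∘ Sum.inr = c *ᵥ (z ∘ Sum.inl) + d *ᵥ (z ∘ Sum.inr) := by
    intro a b c d z
    rw [fromBlocks_mulVec]
    exact ⟨rfl, rfl⟩
  have hPv : Φ (S.P v) = fromBlocks 1 0 0 (-1) := by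
    refine hext _ _ fun z => ?_
    obtain ⟨h1, h2'⟩ := hfb 1 0 0 (-1) z
    have hfixed : ∀ q : E, A (q : ι → F) = q := fun q => q.2
    rw [← Matrix.toLin'_apply, ← hAdef, hΨ, hΨ, h1, h2', map_add, hAU, hfixed, hfixed]
    simp [Matrix.neg_mulVec]
  have hPu : Φ (S.P u) = fromBlocks 0 1 1 0 := by
    refine hext _ _ fun z => ?_
    obtain ⟨h1, h2'⟩ := hfb 0 1 1 0 z
    rw [← Matrix.toLin'_apply, ← hUdef, hΨ, hΨ, h1, h2', map_add, hU]
    simp [add_comm]
  -- the orthogonal complement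
  let c : V₃ →ₗ[ZMod 2] ZMod 2 × ZMod 2 := (S.B v).prod (S.B u)
  have hcsurj : Function.Surjective c := fun p => ⟨p.1 • u + p.2 • v, by
    simp [c, S.alt, huv, hvu]⟩
  have hker : Module.finrank (ZMod 2) (LinearMap.ker c) = 4 := by
    have h := LinearMap.finrank_range_add_finrank_ker c
    rw [LinearMap.range_eq_top.2 hcsurj, finrank_top, Module.finrank_prod, Module.finrank_self,
      Module.finrank_fin_fun] at h
    omega
  obtain ⟨eW⟩ : Nonempty (V₂ ≃ₗ[ZMod 2] LinearMap.ker c) :=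
    FiniteDimensional.nonempty_linearEquiv_of_finrank_eq (by rw [hker, Module.finrank_fin_fun])
  let g : V₂ →ₗ[ZMod 2] V₃ := (LinearMap.ker c).subtype.comp eW.toLinearMap
  have hf : ∀ y, S.B v (g y) = 0 ∧ S.B u (g y) = 0 := fun y => by
    have h : c (eW y : V₃) = 0 := (eW y).2
    exact ⟨congrArg Prod.fst h, congrArg Prod.snd h⟩
  have hsurjf : ∀ w, S.B v w = 0 → S.B u w = 0 → ∃ y, g y = w := fun w h1 h2 => by
    have hw : w ∈ LinearMap.ker c := LinearMap.mem_ker.2 (Prod.ext h1 h2)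
    exact ⟨eW.symm ⟨w, hw⟩, by simp [g]⟩
  have hdiag : ∀ y, Φ (S.P (g y)) = fromBlocks (Φ (S.P (g y))).toBlocks₁₁ 0 0 (Φ (S.P (g y))).toBlocks₁₁ := by
    intro y
    refine diag_of_commute h2 _ ?_ ?_
    · rw [← hPv, ← map_mul, ← map_mul, S.comm (g y) v, hsk (g y) v, (hf y).1, sgn_zero, one_smul]
    · rw [← hPu, ← map_mul, ← map_mul, S.comm (g y) u, hsk (g y) u, (hf y).2, sgn_zero, one_smul]
  set P : V₂ → Matrix (Fin 4) (Fin 4) F := fun y => (Φ (S.P (g y))).toBlocks₁₁ with hP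
  have hblock : ∀ a b : Matrix (Fin 4) (Fin 4) F, fromBlocks a 0 0 a = fromBlocks b 0 0 b → a = b :=
    fun a b h => (fromBlocks_inj.1 h).1
  have hmul : ∀ a b : Matrix (Fin 4) (Fin 4) F,
      fromBlocks (a * b) 0 0 (a * b) = fromBlocks a 0 0 a * fromBlocks b 0 0 b := fun a b => by
    simp [fromBlocks_multiply]
  let T : Pauli V₂ (Fin 4) F :=
    { P := P
      B := S.B.compl₁₂ g g
      alt := fun y => S.alt _
      nondeg := fun y hy => by
        have h0 : g y = 0 := S.nondeg _ fun w => by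
          have hmem : w + (S.B v w) • u + (S.B u w) • v ∈ LinearMap.ker c := by
            rw [LinearMap.mem_ker]
            simp [c, S.alt, huv, hvu, CharTwo.add_self_eq_zero]
          obtain ⟨z, hz⟩ := hsurjf _ (congrArg Prod.fst (LinearMap.mem_ker.1 hmem))
            (congrArg Prod.snd (LinearMap.mem_ker.1 hmem))
          have h1 := hy z
          rw [LinearMap.compl₁₂_apply, hz, map_add, map_add, map_smul, map_smul, hsk (g y) u, hsk (g y) v,
            (hf y).1, (hf y).2, smul_zero, smul_zero, add_zero, add_zero] at h1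
          exact h1
        have : (eW y : V₃) = 0 := h0
        exact eW.map_eq_zero_iff.1 (Subtype.ext this)
      zero := by
        refine hblock _ _ ?_
        rw [← hdiag, map_zero, S.zero, map_one, fromBlocks_one]
      sq := fun y => by
        refine hblock _ _ ?_
        rw [hmul, ← hdiag, ← map_mul, S.sq, map_one, fromBlocks_one]
      comm := fun y z => by
        refine hblock _ _ ?_
        rw [hmul, ← hdiag, ← hdiag, ← map_mul, S.comm, map_smul, map_mul, hdiag y, hdiag z, ← hmul,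
          fromBlocks_smul, smul_zero, LinearMap.compl₁₂_apply]
      add := fun y z => by
        obtain ⟨k, hk⟩ := S.add (g y) (g z)
        refine ⟨k, hblock _ _ ?_⟩
        rw [← hdiag, map_add, hk, map_smul, map_mul, hdiag y, hdiag z, ← hmul, fromBlocks_smul, smul_zero]
      li := by
        have hli : LinearIndependent F fun y => Φ (S.P (g y)) :=
          (S.li.comp g ((LinearMap.ker c).injective_subtype.comp eW.injective)).map'
            Φ.toLinearEquiv.toLinearMap Φ.toLinearEquiv.ker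
        let ιd : Matrix (Fin 4) (Fin 4) F →ₗ[F] Matrix (Fin 4 ⊕ Fin 4) (Fin 4 ⊕ Fin 4) F :=
          { toFun := fun a => fromBlocks a 0 0 a
            map_add' := fun a b => by simp [fromBlocks_add]
            map_smul' := fun k a => by simp [fromBlocks_smul] }
        exact LinearIndependent.of_comp ιd (by
          convert hli using 1
          funext y
          exact (hdiag y).symm)
      card := by simp }
  refine ⟨⟨Φ, T, g, hdet, hvu, hPv, hPu, hf, fun y z => rfl, hdiag, hsurjf⟩, Ψ, fun X z => hΦ X z, fun z z' => ?_⟩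
  rw [hΨ, hΨ, hh.add_left, form_add_right hh, form_add_right hh, (hUA0 _ _).1, (hUA0 _ _).2, hUi, he, he, he, he,
    hcomb, hcomb, add_zero, zero_add, herm, herm, herm, Fintype.sum_sum_type]
  rfl

end CfsgLib.Geometric.PauliMax
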