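import Cfsg.Agent.Lib.Geometric.UnitaryTensorMax.Gen
import Cfsg.Agent.Lib.ClassicalForms.Unitary.Simple
import Cfsg.Agent.Lib.Geometric.PauliMax.UnitarySplit

/-!
Two orthogonal unitary blocks of dimension four and an element mixing them evenly generate the special
unitary group of dimension eight.
-/

set_option autoImplicit false

namespace CfsgLib.Geometric.PauliMax

open Cfsg.Geo CfsgLib.Geometric CfsgLib.Geometric.Unitary Matrix

variable {F : Type*} [Field F] {σ : F ≃+* F}

/-- The standard hermitian form is hermitian. -/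
theorem isUnitaryForm_herm {κ : Type} [Fintype κ] [DecidableEq κ] (hne : σ ≠ RingEquiv.refl F)
    (hinv : ∀ a, σ (σ a) = a) : IsUnitaryForm σ (herm σ (κ := κ)) := by
  refine ⟨hne, hinv, fun x y v => ?_, fun c x v => ?_, fun v w => ?_, fun v hv => ?_⟩
  · simp [herm, add_mul, Finset.sum_add_distrib]
  · simp [herm, Finset.mul_sum, mul_assoc]
  · simp [herm, map_sum, hinv, mul_comm]
  · obtain ⟨j, hj⟩ := Function.ne_iff.1 hv
    refine ⟨⟨Pi.single j 1, ?_⟩, ⟨Pi.single j 1, ?_⟩⟩ <;>
    · rw [herm, Finset.sum_eq_single j (fun i _ hi => by simp [hi])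
        (fun h => absurd (Finset.mem_univ j) h)]
      simpa using hj

/-- A hermitian form times a skew scalar is skew-hermitian. -/
theorem isSkewForm_smul {κ : Type} [Fintype κ] {f : (κ → F) → (κ → F) → F}
    (hh : IsUnitaryForm σ f) {ζ : F} (hζ : ζ ≠ 0) (hσζ : σ ζ = -ζ) :
    IsSkewForm σ (fun u v => ζ * f u v) :=
  ⟨hh.ne_refl, hh.involutive, fun x y v => by rw [hh.add_left, mul_add],
    fun c x v => by rw [hh.smul_left]; ring,
    fun v w => by rw [hh.herm v w, map_mul, hσζ]; ring,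
    fun v hv => by
      obtain ⟨⟨a, ha⟩, ⟨b, hb⟩⟩ := hh.nondegenerate v hv
      exact ⟨⟨a, mul_ne_zero hζ ha⟩, ⟨b, mul_ne_zero hζ hb⟩⟩⟩

/-- Scaling a form does not change its isometries. -/
theorem isom_smul {κ : Type} [Fintype κ] [DecidableEq κ] (f : (κ → F) → (κ → F) → F) {ζ : F} (hζ : ζ ≠ 0) :
    isom (fun u v => ζ * f u v) = isom f := by
  ext g
  rw [mem_isom_iff, mem_isom_iff]
  exact forall₂_congr fun u v => mul_right_inj' hζ

/-- A skew scalar. -/
theorem exists_skew_scalar (hne : σ ≠ RingEquiv.refl F) (hinv : ∀ a, σ (σ a) = a) :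
    ∃ ζ : F, ζ ≠ 0 ∧ σ ζ = -ζ := by
  obtain ⟨a, ha⟩ : ∃ a, σ a ≠ a := by
    by_contra h
    push Not at h
    exact hne (RingEquiv.ext h)
  exact ⟨a - σ a, sub_ne_zero.2 (Ne.symm ha), by rw [map_sub, hinv]; ring⟩

theorem perp_span_pair {κ : Type} [Fintype κ] [DecidableEq κ] {h : (κ → F) → (κ → F) → F}
    (hg : IsSkewForm σ h) {a b x : κ → F}
    (hx : x ∈ perp hg (Submodule.span F {a} ⊔ Submodule.span F {b})) : h x a = 0 ∧ h x b = 0 :=
  ⟨hx a (Submodule.mem_sup_left (Submodule.mem_span_singleton_self a)),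
    hx b (Submodule.mem_sup_right (Submodule.mem_span_singleton_self b))⟩

/-- In dimension four two independent vectors pair fixedly or have a common isotropic vector at
both of which the form is one. -/
theorem exists_common_or [Finite F] {h : (Fin 4 → F) → (Fin 4 → F) → F} (hg : IsSkewForm σ h)
    {a b : Fin 4 → F} (hab : b ∉ Submodule.span F {a}) (ha : a ≠ 0) :
    h a b = 0 ∨ ∃ w, h w w = 0 ∧ h a w = 1 ∧ h b w = 1 := by
  set U := Submodule.span F {a} ⊔ Submodule.span F {b} with hU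
  by_cases hex : ∃ e ∈ perp hg U, h e e ≠ 0
  · obtain ⟨e, he, hee⟩ := hex
    obtain ⟨hea, heb⟩ := perp_span_pair hg he
    obtain ⟨w, -, hw⟩ := exists_isotropic_common hg (S := ⊤) (ClassicalForms.nondeg_top hg)
      Submodule.mem_top Submodule.mem_top hab ha Submodule.mem_top hee ((eq_zero_comm hg).mp hea)
      ((eq_zero_comm hg).mp heb)
    exact Or.inr ⟨w, hw⟩
  push Not at hex
  left
  have hle : perp hg U ≤ U := fun v hv => perp_perp_le hg U fun p hp =>
    totallySingular_of_isotropic hg hex hv hp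
  have hdim := card_le_finrank_add_finrank_perp hg U
  have hU2 : Module.finrank F U ≤ 2 := by
    have h1 := Submodule.finrank_sup_add_finrank_inf_eq (Submodule.span F {a}) (Submodule.span F {b})
    have h2 : Module.finrank F (Submodule.span F {a}) ≤ 1 :=
      (finrank_span_le_card _).trans (by simp)
    have h3 : Module.finrank F (Submodule.span F {b}) ≤ 1 :=
      (finrank_span_le_card _).trans (by simp)
    rw [← hU] at h1
    omega
  rw [Fintype.card_fin] at hdim
  have heq : perp hg U = U := Submodule.eq_of_le_of_finrank_le hle (by omega)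
  have haU : a ∈ perp hg U := heq.symm ▸ Submodule.mem_sup_left (Submodule.mem_span_singleton_self a)
  exact (perp_span_pair hg haU).2

section Main

variable [Finite F] {ι : Type} [Fintype ι] [DecidableEq ι] {G8 : (ι → F) → (ι → F) → F}
  {G4 : (Fin 4 → F) → (Fin 4 → F) → F} {M : Subgroup (GL ι F)}

/-- An overgroup of the special unitary groups of two blocks, with an element mixing them evenly. -/
theorem su_le_of_blocks (hιn : Fintype.card ι = 8) (Ψ : ((Fin 4 ⊕ Fin 4) → F) ≃ₗ[F] (ι → F))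
    (hf : IsSkewForm σ G8) (hg4 : IsSkewForm σ G4)
    (hΨ : ∀ a b a' b', G8 (Ψ (Sum.elim a b)) (Ψ (Sum.elim a' b')) = G4 a a' + G4 b b')
    (h2 : (2 : F) ≠ 0) {i : F} (hi : i * i = -1) (hσi : σ i = -i)
    (hb : ∀ A ∈ isom G4 ⊓ specialLinear (Fin 4) F, ∀ B ∈ isom G4 ⊓ specialLinear (Fin 4) F,
      ∃ g ∈ M, g ∈ isom G8 ∧ ∀ a b, ap g (Ψ (Sum.elim a b)) = Ψ (Sum.elim (ap A a) (ap B b)))
    {t : GL ι F} (ht : t ∈ M) (htI : t ∈ isom G8)
    (htap : ∀ a b, ap t (Ψ (Sum.elim a b)) =
      (1 + i)⁻¹ • Ψ (Sum.elim (a + i • b) (i • a + b))) :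
    isom G8 ⊓ specialLinear ι F ≤ M := by
  refine le_of_hasT hf (by omega) fun x hx c hc => ?_
  suffices h : FullAt hf M x from h hx c hc
  have h1i : (1 + i) ≠ 0 := fun h => h2 (by linear_combination -(i - 1) * h + hi)
  have hi0 : i ≠ 0 := fun h => by simp [h] at hi
  have hn3 : 3 ≤ Fintype.card (Fin 4) := by simp
  have hel : ∀ z : Fin 4 ⊕ Fin 4 → F, z = Sum.elim (z ∘ Sum.inl) (z ∘ Sum.inr) := fun z => by
    ext (j | j) <;> rfl
  have hsmul : ∀ (k : F) (a b : Fin 4 → F), k • Sum.elim a b = Sum.elim (k • a) (k • b) := fun k a b => by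
    ext (j | j) <;> rfl
  -- centres in one block
  have hblock : ∀ a, G4 a a = 0 →
      FullAt hf M (Ψ (Sum.elim a 0)) ∧ FullAt hf M (Ψ (Sum.elim 0 a)) := by
    intro a ha
    constructor
    · intro hx d hd
      obtain ⟨g, hgM, -, hgap⟩ := hb (T hg4 a d ha)
        ⟨T_mem_isom hg4 ha hd, T_mem_specialLinear hg4 ha⟩ 1 (one_mem _)
      have e : T hf (Ψ (Sum.elim a 0)) d hx = g := gl_ext fun y => by
        obtain ⟨z, rfl⟩ := Ψ.surjective y
        rw [hel z, ap_T hf, hgap, ap_T hg4, ap_one, hΨ, ← map_smul, hsmul, ← map_add]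
        congr 1
        ext (j | j) <;> simp [zero_right hg4]
      rw [e]; exact hgM
    · intro hx d hd
      obtain ⟨g, hgM, -, hgap⟩ := hb 1 (one_mem _) (T hg4 a d ha)
        ⟨T_mem_isom hg4 ha hd, T_mem_specialLinear hg4 ha⟩
      have e : T hf (Ψ (Sum.elim 0 a)) d hx = g := gl_ext fun y => by
        obtain ⟨z, rfl⟩ := Ψ.surjective y
        rw [hel z, ap_T hf, hgap, ap_T hg4, ap_one, hΨ, ← map_smul, hsmul, ← map_add]
        congr 1
        ext (j | j) <;> simp [zero_right hg4]
      rw [e]; exact hgM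
  -- moving by the mixing element
  have hback : ∀ {g : GL ι F}, g ∈ M → g ∈ isom G8 → ∀ y,
      FullAt hf M (ap g y) → FullAt hf M y := fun {g} hg hgI y h => by
    have := FullAt.conj hf h (inv_mem hg) (inv_mem hgI)
    rwa [ap_inv_ap] at this
  have hpq : ∀ p q, G4 p p = 0 →
      G4 q q = 0 → FullAt hf M (Ψ (Sum.elim p q)) := by
    intro p q hp hq
    by_cases hp0 : p = 0
    · subst hp0; exact (hblock q hq).2
    by_cases hq0 : q = 0
    · subst hq0; exact (hblock p hp).1
    have hip : G4 (i • p) (i • p) = 0 := by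
      rw [hg4.smul_left, smul_right hg4, hp, mul_zero, mul_zero]
    obtain ⟨B, hB, hBp⟩ := ClassicalForms.exists_move_isotropic hg4 hn3 hip hq
      (smul_ne_zero hi0 hp0) hq0
    obtain ⟨g, hgM, hgI, hgap⟩ := hb 1 (one_mem _) B hB
    have h0 := FullAt.conj hf (hblock p hp).1 ht htI
    rw [htap, smul_zero, add_zero, add_zero] at h0
    have h1 := FullAt.conj hf (FullAt.smul hf h0 (1 + i)) hgM hgI
    rwa [smul_smul, mul_inv_cancel₀ h1i, one_smul, hgap, ap_one, hBp] at h1
  -- pairs with a skew product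
  have hfix : ∀ a b, G8 (Ψ (Sum.elim a b)) (Ψ (Sum.elim a b)) = 0 →
      σ (G4 a b) =
        -G4 a b → FullAt hf M (Ψ (Sum.elim a b)) := by
    intro a b hab hσab
    refine hback ht htI _ ?_
    rw [htap]
    refine FullAt.smul hf ?_ _
    rw [hΨ] at hab
    have hba := hg4.skew b a
    rw [hσab, neg_neg] at hba
    refine hpq _ _ ?_ ?_
    · simp only [hg4.add_left, add_right hg4, hg4.smul_left, smul_right hg4, hσi, hba]
      linear_combination hab - G4 b b * hi
    · simp only [hg4.add_left, add_right hg4, hg4.smul_left, smul_right hg4, hσi, hba]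
      linear_combination hab - G4 a a * hi
  -- independent pairs
  have hind : ∀ a b, G8 (Ψ (Sum.elim a b)) (Ψ (Sum.elim a b)) = 0 →
      a ≠ 0 → b ∉ Submodule.span F {a} → FullAt hf M (Ψ (Sum.elim a b)) := by
    intro a b hab ha hb'
    rcases exists_common_or hg4 hb' ha with h0 | ⟨w, hw, haw, hbw⟩
    · exact hfix a b hab (by rw [h0, map_zero, neg_zero])
    set β := G4 a b with hβ
    set d : F := -(β + σ β) * 2⁻¹ with hd
    have hσd : σ d = d := by
      rw [hd, map_mul, map_inv₀, map_ofNat, map_neg, map_add, hg4.involutive, add_comm (σ β)]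
    obtain ⟨g, hgM, hgI, hgap⟩ := hb 1 (one_mem _) (T hg4 w d hw)
      ⟨T_mem_isom hg4 hw hσd, T_mem_specialLinear hg4 hw⟩
    refine hback hgM hgI _ ?_
    rw [hgap, ap_one]
    refine hfix _ _ ?_ ?_
    · have e := mem_isom_iff.1 hgI (Ψ (Sum.elim a b)) (Ψ (Sum.elim a b))
      rw [hgap, ap_one, hab] at e
      exact e
    · rw [ap_T hg4, add_right hg4, smul_right hg4, hbw, haw, mul_one, mul_one, hσd, ← hβ, map_add, hσd, hd]
      field_simp
      ring
  -- the general case
  obtain ⟨z, rfl⟩ := Ψ.surjective x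
  rw [hel z] at hx ⊢
  set a := z ∘ Sum.inl
  set b := z ∘ Sum.inr
  by_cases hb' : b ∈ Submodule.span F {a}
  swap
  · by_cases ha : a = 0
    · exact hfix a b hx (by simp [ha, zero_left hg4])
    exact hind a b hx ha hb'
  obtain ⟨k, hk⟩ := Submodule.mem_span_singleton.1 hb'
  by_cases haa : G4 a a = 0
  · exact hfix a b hx (by rw [← hk, smul_right hg4, haa, mul_zero, map_zero, neg_zero])
  by_cases hk0 : k = 0
  · exact hfix a b hx (by rw [← hk, hk0, zero_smul, zero_right hg4, map_zero, neg_zero])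
  -- a move making the pair independent
  obtain ⟨e, he, he0, hee⟩ : ∃ e, G4 a e = 0 ∧ e ≠ 0 ∧
      G4 e e ≠ 0 := by
    have hW : Cfsg.Geo.IsNondegenerateOn G4
        (Submodule.span F {a}) := by
      intro y hy hy0
      obtain ⟨s, rfl⟩ := Submodule.mem_span_singleton.1 hy
      have hs : s ≠ 0 := fun h => hy0 (by rw [h, zero_smul])
      refine ⟨⟨a, Submodule.mem_span_singleton_self a, ?_⟩, ⟨a, Submodule.mem_span_singleton_self a, ?_⟩⟩
      · rw [smul_right hg4]; exact mul_ne_zero ((map_ne_zero σ).2 hs) haa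
      · rw [hg4.smul_left]; exact mul_ne_zero hs haa
    have hne : perp hg4 (Submodule.span F {a}) ≠ ⊥ := fun hbot => by
      have h := finrank_add_perp hg4 hW
      have h1 : Module.finrank F (Submodule.span F {a}) ≤ 1 :=
        (finrank_span_le_card _).trans (by simp)
      rw [hbot, finrank_bot, Fintype.card_fin] at h
      omega
    obtain ⟨e, he, hee⟩ := exists_anisotropic hg4 (perp_nondegenerate hg4 hW) hne
    exact ⟨e, (eq_zero_comm hg4).mp ((mem_perp_span hg4).1 he), fun h => hee (by rw [h, zero_left hg4]), hee⟩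
  obtain ⟨v₁, v₂, -, -, hv₁, hv₂, hav⟩ := exists_isotropic_add hg4 (S := (⊤ : Submodule F (Fin 4 → F)))
    (x := a) Submodule.mem_top Submodule.mem_top hee he
  obtain ⟨w, hw, haw⟩ : ∃ w, G4 w w = 0 ∧
      G4 a w ≠ 0 := by
    by_contra hc
    push Not at hc
    apply haa
    calc G4 a a
        = G4 a (v₁ + v₂) := by rw [← hav]
      _ = 0 := by rw [add_right hg4, hc v₁ hv₁, hc v₂ hv₂, add_zero]
  obtain ⟨g, hgM, hgI, hgap⟩ := hb 1 (one_mem _) (T hg4 w 1 hw)
    ⟨T_mem_isom hg4 hw (map_one σ), T_mem_specialLinear hg4 hw⟩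
  refine hback hgM hgI _ ?_
  have e1 := mem_isom_iff.1 hgI (Ψ (Sum.elim a b)) (Ψ (Sum.elim a b))
  rw [hgap, ap_one, hx] at e1
  rw [hgap, ap_one]
  refine hind _ _ e1 (fun h => haa (by rw [h, zero_left hg4])) ?_
  rw [ap_T hg4, one_mul, ← hk, hg4.smul_left]
  intro hmem
  have hkw : k * G4 a w ≠ 0 := mul_ne_zero hk0 haw
  have hwa : w ∈ Submodule.span F {a} := by
    have := Submodule.sub_mem _ hmem (Submodule.smul_mem _ k (Submodule.mem_span_singleton_self a))
    rw [add_sub_cancel_left] at this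
    exact (Submodule.smul_mem_iff _ hkw).1 this
  obtain ⟨s, rfl⟩ := Submodule.mem_span_singleton.1 hwa
  rw [hg4.smul_left, smul_right hg4] at hw
  rw [smul_right hg4] at haw
  rcases mul_eq_zero.1 hw with h | h
  · rw [h, map_zero, zero_mul] at haw; exact haw rfl
  · exact haw h

end Main

end CfsgLib.Geometric.PauliMax
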