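import Cfsg.Agent.Lib.Geometric.PauliMax.UnitaryBlocks
import Cfsg.Agent.Lib.Geometric.PauliMax.Local
import Cfsg.Agent.Lib.Geometric.PauliMax.ExtendConj

/-!
Overgroups of the normaliser of a unitary three-qubit Pauli system: the reduction to the two-qubit
dichotomy.
-/

set_option autoImplicit false

namespace CfsgLib.Geometric.PauliMax

open Cfsg.Geo CfsgLib.Geometric CfsgLib.Geometric.Unitary Matrix

variable {F : Type*} [Field F]

local notation "𝕂" => Matrix (Fin 4) (Fin 4) F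

section Det

variable {V : Type} [AddCommGroup V] [Module (ZMod 2) V] [Fintype V] {ι : Type} [Fintype ι] [DecidableEq ι]

/-- In dimension divisible by four Pauli matrices have determinant one. -/
theorem Pauli.det_P (S : Pauli V ι F) (h2 : (2 : F) ≠ 0) {i : F} (hi : i * i = -1)
    (h4 : 4 ∣ Fintype.card ι) (y : V) : (S.P y).det = 1 := by
  by_cases hy : y = 0
  · rw [hy, S.zero, Matrix.det_one]
  obtain ⟨w, hw⟩ : ∃ w, S.B y w = 1 := by
    by_contra h
    push Not at h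
    have dich : ∀ c : ZMod 2, c = 0 ∨ c = 1 := by decide
    exact hy (S.nondeg y fun w => (dich _).resolve_right (h w))
  have e := congrArg Matrix.det (S.tgl_anti h2 hi y (X := S.P w)
    (by rw [S.comm y w, hw, sgn_one, neg_one_smul]))
  rw [det_mul, det_mul, det_smul, det_mul] at e
  have hin : i ^ Fintype.card ι = 1 := by
    obtain ⟨k, hk⟩ := h4
    rw [hk, pow_mul, show i ^ 4 = 1 by linear_combination (i * i - 1) * hi, one_pow]
  rw [hin, one_mul] at e
  have ht : (S.tgl h2 hi y : Matrix ι ι F).det ≠ 0 := Matrix.GeneralLinearGroup.det_ne_zero _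
  have hPw : (S.P w).det ≠ 0 := by
    intro h0
    have := congrArg Matrix.det (S.sq w)
    rw [det_mul, h0, mul_zero, det_one] at this
    exact zero_ne_one this
  apply mul_right_cancel₀ (mul_ne_zero hPw ht)
  linear_combination -e

theorem Pauli.gl_mem_specialLinear (S : Pauli V ι F) (h2 : (2 : F) ≠ 0) {i : F} (hi : i * i = -1)
    (h4 : 4 ∣ Fintype.card ι) (y : V) : S.gl y ∈ specialLinear ι F :=
  (CfsgLib.Geometric.mem_specialLinear_iff _).2 (by rw [Pauli.coe_gl]; exact S.det_P h2 hi h4 y)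

theorem scalars_normal : (scalars ι F).Normal := ⟨fun g hg x => by
  rwa [← Pauli.scalar_comm hg x, mul_inv_cancel_right]⟩

/-- A commutator of similitudes is a special isometry. -/
theorem commutator_mem_isomSL {f : (ι → F) → (ι → F) → F} {g h : GL ι F}
    (hg : g ∈ similarityGroup f) (hh : h ∈ similarityGroup f) :
    g * h * g⁻¹ * h⁻¹ ∈ isom f ⊓ specialLinear ι F := by
  refine ⟨commutator_mem_isom hg hh, ?_⟩
  refine MonoidHom.mem_ker.2 ?_
  simp only [map_mul, map_inv]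
  rw [mul_comm (Matrix.GeneralLinearGroup.det g), mul_inv_cancel_right, mul_inv_cancel]

/-- The normaliser lies in an overgroup of the scalars, the Pauli matrices and the transvection
elements; in particular it consists of similitudes. -/
theorem Pauli.norm_le_similarityGroup {k : ℕ} (S : Pauli (Fin k → ZMod 2) ι F) {σ : F ≃+* F}
    {f : (ι → F) → (ι → F) → F} (hh : IsUnitaryForm σ f) (hS : S.IsUnitary f) (h2 : (2 : F) ≠ 0)
    {i : F} (hi : i * i = -1) (hσi : σ i = -i) : S.norm ≤ similarityGroup f :=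
  S.norm_le h2 hi (fun _ hg => scalar_mem_similarityGroup hh hg)
    (fun v => isom_le_similarityGroup f (hS v))
    (fun v => isom_le_similarityGroup f (S.tgl_mem_isom hh hS h2 hi hσi v))

end Det

variable [Fintype F] {σ : F ≃+* F} {q : ℕ}

/-- The dichotomy in dimension four for unitary systems. -/
def UnitaryFour (σ : F ≃+* F) : Prop :=
  ∀ T : Pauli V4 (Fin 4) F, T.IsUnitary (herm σ) →
    ∀ M ≤ isom (herm σ (κ := Fin 4)) ⊓ specialLinear (Fin 4) F,
      T.norm ⊓ (isom (herm σ) ⊓ specialLinear (Fin 4) F) ≤ M →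
        M ≤ T.norm ∨ isom (herm σ) ⊓ specialLinear (Fin 4) F ≤ M

theorem sum_elim_comp {α β γ : Type*} (z : α ⊕ β → γ) : z = Sum.elim (z ∘ Sum.inl) (z ∘ Sum.inr) := by
  ext (j | j) <;> rfl

omit [Fintype F] in
theorem herm_elim (a b a' b' : Fin 4 → F) :
    herm σ (Sum.elim a b) (Sum.elim a' b') = herm σ a a' + herm σ b b' := by
  rw [herm, Fintype.sum_sum_type]
  rfl

/-- A group normalised by the special unitary group with a non-scalar element of it contains it. -/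
theorem isomSL_le_of_normalised (hF : Fintype.card F = q ^ 2) (hσ : ∀ x, σ x = x ^ q)
    (hh4 : IsUnitaryForm σ (herm σ (κ := Fin 4))) {L : Subgroup (GL (Fin 4) F)}
    (hL : ∀ A ∈ isom (herm σ) ⊓ specialLinear (Fin 4) F, ∀ l ∈ L, A * l * A⁻¹ ∈ L)
    {t : GL (Fin 4) F} (htL : t ∈ L) (htG : t ∈ isom (herm σ) ⊓ specialLinear (Fin 4) F)
    (hns : ∀ c : F, (t : 𝕂) ≠ c • 1) : isom (herm σ) ⊓ specialLinear (Fin 4) F ≤ L := by
  classical
  obtain ⟨ζ, hζ, hσζ⟩ := exists_skew_scalar hh4.ne_refl hh4.involutive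
  have hherm : herm σ (κ := Fin 4) = Cfsg.hermForm 4 F q := by
    funext u v
    simp [herm, Cfsg.hermForm, hσ]
  have hg4 := isSkewForm_smul hh4 hζ hσζ
  have hI : CfsgLib.ClassicalForms.isomSL (Fin 4) (fun u v => ζ * herm σ u v) =
      isom (herm σ) ⊓ specialLinear (Fin 4) F := by
    rw [CfsgLib.ClassicalForms.isomSL, isom_smul _ hζ]
  have hn3 : 3 ≤ Fintype.card (Fin 4) := by simp
  have hperf : commutator (CfsgLib.ClassicalForms.isomSL (Fin 4) (fun u v => ζ * herm σ u v)) = ⊤ := by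
    rw [hherm]
    have e := CfsgLib.ClassicalForms.commutator_su_eq_top (n := 4) hF (by omega) (by omega)
    have h1 := congrArg (Subgroup.map
      (CfsgLib.ClassicalForms.suEquivIsomSL (F := F) (q := q) (n := 4) hζ).toMonoidHom) e
    rw [commutator_def, Subgroup.map_commutator, Subgroup.map_top_of_surjective _
      (CfsgLib.ClassicalForms.suEquivIsomSL (F := F) (q := q) (n := 4) hζ).surjective] at h1
    exact h1
  rcases CfsgLib.ClassicalForms.normal_le_center_or_commutator_le hg4 hn3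
      (fun M hM => le_of_hasT hg4 (by simp) hM) (L.subgroupOf _)
      ⟨fun l hl g => by
        rw [Subgroup.mem_subgroupOf] at hl ⊢
        exact hL _ (hI ▸ g.2) _ hl⟩ with h | h
  · exfalso
    have hz := h (show (⟨t, hI.symm ▸ htG⟩ : CfsgLib.ClassicalForms.isomSL (Fin 4)
      (fun u v => ζ * herm σ u v)) ∈ L.subgroupOf _ from htL)
    have htI : t ∈ isom (fun u v => ζ * herm σ u v) := by rw [isom_smul _ hζ]; exact htG.1
    have hline : ∀ w : Fin 4 → F, (fun u v => ζ * herm σ u v) w w = 0 → w ≠ 0 →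
        ∃ c : F, ap t w = c • w := by
      intro w hw hw0
      have hT : T hg4 w 1 hw ∈ CfsgLib.ClassicalForms.isomSL (Fin 4) (fun u v => ζ * herm σ u v) :=
        ⟨T_mem_isom hg4 hw (map_one σ), T_mem_specialLinear hg4 hw⟩
      have e : T hg4 w 1 hw * t = t * T hg4 w 1 hw :=
        congrArg Subtype.val (Subgroup.mem_center_iff.1 hz ⟨_, hT⟩)
      obtain ⟨x, hx⟩ := (hg4.nondegenerate w hw0).1
      have ex := congrArg (fun g => ap g x) e
      simp only [ap_mul, ap_T hg4, one_mul, ap_add, ap_smul] at ex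
      refine ⟨(ζ * herm σ x w)⁻¹ * (ζ * herm σ (ap t x) w), ?_⟩
      rw [mul_smul, add_left_cancel ex, inv_smul_smul₀ hx]
    obtain ⟨c, hc⟩ := CfsgLib.ClassicalForms.exists_scalar_of_fix_isotropic hg4 hn3 htI hline
    refine hns c (Matrix.ext_of_mulVec_single fun j => ?_)
    rw [smul_mulVec, one_mulVec]
    exact hc _
  · intro A hA
    have := h (hperf.symm ▸ Subgroup.mem_top (⟨A, hI.symm ▸ hA⟩ :
      CfsgLib.ClassicalForms.isomSL (Fin 4) (fun u v => ζ * herm σ u v)))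
    exact this

namespace Split

variable {ι : Type} [Fintype ι] [DecidableEq ι] {f : (ι → F) → (ι → F) → F}
  {S : Pauli (Fin 6 → ZMod 2) ι F} {v u : Fin 6 → ZMod 2} (sp : Split S v u)
  (Ψ : ((Fin 4 ⊕ Fin 4) → F) ≃ₗ[F] (ι → F))
  (hΦ : ∀ X z, Ψ (sp.Φ X *ᵥ z) = X *ᵥ Ψ z) (hΨ : ∀ z z', f (Ψ z) (Ψ z') = herm σ z z')
  {M : Subgroup (GL ι F)}

include hΦ in
omit [Fintype F] in
theorem ap_bd (A B : GL (Fin 4) F) (a b : Fin 4 → F) :
    ap (sp.bd (A, B)) (Ψ (Sum.elim a b)) = Ψ (Sum.elim (ap A a) (ap B b)) := by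
  rw [ap_def, ← hΦ, sp.Φ_bd, fromBlocks_mulVec]
  congr 1
  ext (j | j) <;> simp [ap_def]

include hΦ in
omit [Fintype F] in
theorem ap_tgl (h2 : (2 : F) ≠ 0) {i : F} (hi : i * i = -1) (a b : Fin 4 → F) :
    ap (S.tgl h2 hi u) (Ψ (Sum.elim a b)) = (1 + i)⁻¹ • Ψ (Sum.elim (a + i • b) (i • a + b)) := by
  rw [ap_def, ← hΦ, S.coe_tgl, map_smul, map_add, map_one, map_smul, sp.P_u, Matrix.smul_mulVec,
    map_smul, Matrix.add_mulVec, Matrix.one_mulVec, Matrix.smul_mulVec, fromBlocks_mulVec]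
  congr 2
  ext (j | j) <;> simp [add_comm]

include hΦ hΨ in
omit [Fintype F] in
theorem bd_mem_isom {A B : GL (Fin 4) F} (hA : A ∈ isom (herm σ)) (hB : B ∈ isom (herm σ)) :
    sp.bd (A, B) ∈ isom f := by
  refine mem_isom_iff.2 fun x y => ?_
  obtain ⟨z, rfl⟩ := Ψ.surjective x
  obtain ⟨z', rfl⟩ := Ψ.surjective y
  rw [sum_elim_comp z, sum_elim_comp z', sp.ap_bd Ψ hΦ, sp.ap_bd Ψ hΦ, hΨ, hΨ, herm_elim, herm_elim,
    mem_isom_iff.1 hA, mem_isom_iff.1 hB]

include hΦ hΨ in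
omit [Fintype F] in
theorem proj_scaled {A B : GL (Fin 4) F} {c : F}
    (h : ∀ x y, f (ap (sp.bd (A, B)) x) (ap (sp.bd (A, B)) y) = c * f x y) (a a' : Fin 4 → F) :
    herm σ (ap A a) (ap A a') = c * herm σ a a' := by
  have e := h (Ψ (Sum.elim a 0)) (Ψ (Sum.elim a' 0))
  rw [sp.ap_bd Ψ hΦ, sp.ap_bd Ψ hΦ, hΨ, hΨ, herm_elim, herm_elim, ap_zero] at e
  simpa [herm] using e

include hΦ hΨ in
omit [Fintype F] in
theorem T_isUnitary (hS : S.IsUnitary f) : sp.T.IsUnitary (herm σ) := fun y => by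
  have e : sp.bd (sp.T.gl y, sp.T.gl y) = S.gl (sp.f y) :=
    Units.ext (sp.Φ_inj (by rw [sp.Φ_bd, Pauli.coe_gl, Pauli.coe_gl, sp.P_f]))
  refine mem_isom_iff.2 fun a a' => ?_
  have := sp.proj_scaled Ψ hΦ hΨ (A := sp.T.gl y) (B := sp.T.gl y) (c := 1)
    (fun x z => by rw [e, one_mul]; exact mem_isom_iff.1 (hS _) x z) a a'
  rwa [one_mul] at this

include hΦ hΨ in
omit [Fintype F] in
theorem projGroup_le_similarityGroup (hM : M ≤ similarityGroup f) :
    sp.projGroup M ≤ similarityGroup (herm σ) := by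
  rintro _ ⟨⟨A, B⟩, hAB, rfl⟩
  obtain ⟨c, hc⟩ := hM hAB
  exact ⟨c, fun a a' => sp.proj_scaled Ψ hΦ hΨ (fun x y => hc x y) a a'⟩

include hΦ hΨ in
/-- The big case. -/
theorem isomSL_le_of_big (hF : Fintype.card F = q ^ 2) (hσ : ∀ x, σ x = x ^ q)
    (hh : IsUnitaryForm σ f) (hι : Fintype.card ι = 8) (hS : S.IsUnitary f) (h2 : (2 : F) ≠ 0)
    {i : F} (hi : i * i = -1) (hσi : σ i = -i) (hnM : S.norm ≤ M)
    (hbig : isom (herm σ) ⊓ specialLinear (Fin 4) F ≤ sp.projGroup M) :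
    isom f ⊓ specialLinear ι F ≤ M := by
  have hh4 : IsUnitaryForm σ (herm σ (κ := Fin 4)) := isUnitaryForm_herm hh.ne_refl hh.involutive
  set L : Subgroup (GL (Fin 4) F) := M.comap (sp.bd.comp (MonoidHom.inr _ _)) with hL
  have hLn : ∀ A ∈ isom (herm σ) ⊓ specialLinear (Fin 4) F, ∀ l ∈ L, A * l * A⁻¹ ∈ L := by
    intro A hA l hl
    obtain ⟨⟨A', B⟩, hAB, rfl⟩ := hbig hA
    have hBA : sp.bd (B, A') ∈ M := sp.bd_swap_mem hnM hAB
    have := mul_mem (mul_mem hBA (show sp.bd (1, l) ∈ M from hl)) (inv_mem hBA)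
    rw [← map_mul, ← map_inv, ← map_mul] at this
    show sp.bd (1, _) ∈ M
    simpa using this
  set y : V4 := Pi.single 0 1 with hy
  have hy0 : y ≠ 0 := by simp [hy]
  have hL' := isomSL_le_of_normalised hF hσ hh4 hLn (t := sp.T.gl y)
    (hnM (sp.bd_one_gl_mem_norm y))
    ⟨sp.T_isUnitary Ψ hΦ hΨ hS y, sp.T.gl_mem_specialLinear h2 hi (by simp) y⟩
    fun c e => hy0 (sp.T.eq_of_smul_P (c := c) (by rw [sp.T.zero]; exact e))
  obtain ⟨ζ, hζ, hσζ⟩ := exists_skew_scalar hh.ne_refl hh.involutive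
  have key := su_le_of_blocks (M := M) (G8 := fun a b => ζ * f a b)
    (G4 := fun a b : Fin 4 → F => ζ * herm σ a b) hι Ψ (isSkewForm_smul hh hζ hσζ)
    (isSkewForm_smul hh4 hζ hσζ) (fun a b a' b' => by
      simp only [hΨ, herm_elim, mul_add]) h2 hi hσi ?_ (t := S.tgl h2 hi u)
    (hnM (S.tgl_mem_norm h2 hi u).1)
    (by rw [isom_smul _ hζ]; exact S.tgl_mem_isom hh hS h2 hi hσi u)
    (sp.ap_tgl Ψ hΦ h2 hi)
  · rwa [isom_smul _ hζ] at key
  intro A hA B hB
  rw [isom_smul _ hζ] at hA hB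
  refine ⟨sp.bd (A, B), ?_, ?_, sp.ap_bd Ψ hΦ A B⟩
  · have h1 : sp.bd (A, 1) ∈ M := sp.bd_swap_mem hnM (hL' hA)
    have h2' : sp.bd (1, B) ∈ M := hL' hB
    have := mul_mem h1 h2'
    rwa [← map_mul, Prod.mk_mul_mk, mul_one, one_mul] at this
  · rw [isom_smul _ hζ]; exact sp.bd_mem_isom Ψ hΦ hΨ hA.1 hB.1

end Split

/-- Transvection elements of a three-qubit system have determinant one. -/
theorem Pauli.tgl_mem_specialLinear {ι : Type} [Fintype ι] [DecidableEq ι]
    (S : Pauli (Fin 6 → ZMod 2) ι F) {f : (ι → F) → (ι → F) → F} (hh : IsUnitaryForm σ f)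
    (hS : S.IsUnitary f) (h2 : (2 : F) ≠ 0) {i : F} (hi : i * i = -1) (v : Fin 6 → ZMod 2) :
    S.tgl h2 hi v ∈ specialLinear ι F := by
  rw [CfsgLib.Geometric.mem_specialLinear_iff, S.coe_tgl]
  have h1i : (1 + i) ≠ 0 := fun h => h2 (by linear_combination -(i - 1) * h + hi)
  by_cases hv : v = 0
  · rw [hv, S.zero, ← one_smul F (1 : Matrix ι ι F), smul_smul, mul_one, ← add_smul, smul_smul,
      inv_mul_cancel₀ h1i, one_smul, det_one]
  obtain ⟨u, hu⟩ : ∃ u, S.B v u = 1 := by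
    by_contra h
    push Not at h
    have dich : ∀ c : ZMod 2, c = 0 ∨ c = 1 := by decide
    exact hv (S.nondeg v fun w => (dich _).resolve_right (h w))
  obtain ⟨sp, -⟩ := exists_unitary_split hh h2 S hS hu
  rw [← sp.det_Φ, map_smul, map_add, map_one, map_smul, sp.P_v, ← fromBlocks_one, fromBlocks_smul,
    fromBlocks_add, fromBlocks_smul]
  simp only [smul_zero, add_zero, det_fromBlocks_zero₁₂, smul_neg, smul_smul, ← sub_eq_add_neg, mul_one,
    smul_add, smul_sub, ← add_smul, ← sub_smul, det_smul, det_one, Fintype.card_fin]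
  field_simp
  linear_combination -(8 * i) * hi

/-- Overgroups of the normaliser of a unitary three-qubit system. -/
theorem unitary_dichotomy_three (hF : Fintype.card F = q ^ 2) (hσ : ∀ x, σ x = x ^ q)
    {ι : Type} [Fintype ι] [DecidableEq ι] (hι : Fintype.card ι = 8)
    {f : (ι → F) → (ι → F) → F} (hh : IsUnitaryForm σ f) (h2 : (2 : F) ≠ 0) {i : F} (hi : i * i = -1)
    (hσi : σ i = -i) (S : Pauli (Fin 6 → ZMod 2) ι F) (hS : S.IsUnitary f) (hfour : UnitaryFour σ)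
    {M₀ : Subgroup (GL ι F)} (hM : M₀ ≤ isom f ⊓ specialLinear ι F)
    (hN : S.norm ⊓ (isom f ⊓ specialLinear ι F) ≤ M₀) :
    M₀ ≤ S.norm ∨ isom f ⊓ specialLinear ι F ≤ M₀ := by
  have : Nonempty ι := Fintype.card_pos_iff.1 (by omega)
  have := scalars_normal (F := F) (ι := ι)
  set M := M₀ ⊔ scalars ι F with hMdef
  have h4 : 4 ∣ Fintype.card ι := by omega
  have hnM : S.norm ≤ M := S.norm_le h2 hi le_sup_right
    (fun w => Subgroup.mem_sup_left (hN ⟨S.gl_mem_norm w, hS w, S.gl_mem_specialLinear h2 hi h4 w⟩))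
    (fun w => Subgroup.mem_sup_left (hN ⟨(S.tgl_mem_norm h2 hi w).1, S.tgl_mem_isom hh hS h2 hi hσi w,
      S.tgl_mem_specialLinear hh hS h2 hi w⟩))
  have hMs : M ≤ similarityGroup f := sup_le
    (fun g hg => isom_le_similarityGroup f (hM hg).1) fun g hg => scalar_mem_similarityGroup hh hg
  by_cases hsu : isom f ⊓ specialLinear ι F ≤ M
  · right
    intro g hg
    obtain ⟨m, hm, c, hc, rfl⟩ := Subgroup.mem_sup_of_normal_right.1 (hsu hg)
    refine mul_mem hm (hN ⟨S.scalar_mem_norm hc, ?_⟩)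
    simpa using mul_mem (inv_mem (hM hm)) hg
  left
  refine le_trans le_sup_left (b := M) ?_
  have hex : ∀ a, a ≠ 0 → ∃ b, ∃ sp : Split S a b, sp.Small M := by
    intro a ha
    obtain ⟨b, hb⟩ : ∃ b, S.B a b = 1 := by
      by_contra h
      push Not at h
      have dich : ∀ c : ZMod 2, c = 0 ∨ c = 1 := by decide
      exact ha (S.nondeg a fun w => (dich _).resolve_right (h w))
    obtain ⟨sp, Ψ, hΦ, hΨ⟩ := exists_unitary_split hh h2 S hS hb
    refine ⟨b, sp, ?_⟩
    have hT := sp.T_isUnitary Ψ hΦ hΨ hS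
    have hP := sp.projGroup_le_similarityGroup Ψ hΦ hΨ hMs
    rcases hfour sp.T hT (sp.projGroup M ⊓ (isom (herm σ) ⊓ specialLinear (Fin 4) F)) inf_le_right
        (inf_le_inf_right _ (sp.norm_le_projGroup hnM)) with h | h
    · refine sp.T.le_norm_of_conj h2 hi fun g hg x hx => ?_
      have hc : g * x * g⁻¹ * x⁻¹ ∈ sp.T.norm :=
        h (Subgroup.mem_inf.2 ⟨mul_mem (mul_mem (mul_mem hg (sp.norm_le_projGroup hnM hx)) (inv_mem hg))
          (inv_mem (sp.norm_le_projGroup hnM hx)),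
          commutator_mem_isomSL (hP hg) (hP (sp.norm_le_projGroup hnM hx))⟩)
      simpa using mul_mem hc hx
    · exact absurd (sp.isomSL_le_of_big Ψ hΦ hΨ hF hσ hh hι hS h2 hi hσi hnM (h.trans inf_le_left)) hsu
  have hproj : ∀ a, a ≠ 0 → S.Proj M a := fun a ha => by
    obtain ⟨b, sp, hsp⟩ := hex a ha
    exact sp.proj_of_small h2 hsp
  refine S.le_norm_of_local (hM := hnM) h2 hi fun a ha g hg c hc => ?_
  obtain ⟨b, sp, hsp⟩ := hex a ha
  have hloc : ∀ g ∈ M, (g : Matrix ι ι F) * S.P a = S.P a * (g : Matrix ι ι F) → g ∈ S.norm :=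
    fun g hg hgc => sp.mem_norm_of_small h2 hi hnM hproj hsp hg hgc
  have hcc : c * c = 1 := by
    have h : (g : Matrix ι ι F) = (c * c) • (g : Matrix ι ι F) := by
      calc (g : Matrix ι ι F) = (g : Matrix ι ι F) * S.P a * S.P a := by rw [mul_assoc, S.sq, mul_one]
        _ = c • (S.P a * ((g : Matrix ι ι F) * S.P a)) := by rw [hc, smul_mul_assoc, mul_assoc, hc]
        _ = _ := by rw [hc, mul_smul_comm, ← mul_assoc, S.sq, one_mul, smul_smul]
    nth_rewrite 1 [← one_smul F (g : Matrix ι ι F)] at h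
    exact (smul_left_injective F (Units.ne_zero g) h).symm
  rcases mul_self_eq_one_iff.1 hcc with rfl | rfl
  · exact hloc g hg (by rw [hc, one_smul])
  · refine (S.norm.mul_mem_cancel_right (S.gl_mem_norm b)).1
      (hloc _ (mul_mem hg (hnM (S.gl_mem_norm b))) ?_)
    rw [Units.val_mul, Pauli.coe_gl, mul_assoc, S.comm b a, B_symm, sp.B_vu, sgn_one, mul_smul_comm,
      ← mul_assoc, hc, smul_mul_assoc, smul_smul, neg_mul_neg, one_mul, one_smul, mul_assoc]

end CfsgLib.Geometric.PauliMax
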