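import Cfsg.Prelude.Def_LieClassical
import Cfsg.Agent.Lib.Geometric.PauliMax.DichotomyFour
import Cfsg.Agent.Lib.Geometric.PauliMax.UnitaryLocal
import Cfsg.Agent.Lib.PauliFour.Lines

/-!
The two-qubit unitary dichotomy from maximality of the normalisers of symplectic type in dimension
four.
-/

set_option autoImplicit false

namespace CfsgLib.Geometric.PauliMax

open Cfsg.Geo CfsgLib.Geometric CfsgLib.SmallDim

variable {F : Type*} [Field F]

/-- The group of a two-qubit system is of symplectic type. -/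
theorem Pauli.isSymplecticTypeGroup_grp [Finite F] {ι : Type} [Fintype ι] [DecidableEq ι] [Nonempty ι]
    {k : ℕ} (T : Pauli (Fin k → ZMod 2) ι F) (h2 : (2 : F) ≠ 0) {i : F} (hi : i * i = -1) :
    IsSymplecticTypeGroup 2 T.grp := by
  classical
  have hx4 : ∀ x : T.grp, x ^ 4 = 1 := fun x => by
    obtain ⟨c, v, hc, hx⟩ := x.2
    refine Subtype.ext (Units.ext ?_)
    simp only [SubgroupClass.coe_pow, Units.val_pow_eq_pow_val, hx, smul_pow, hc, one_smul]
    rw [show 4 = 2 * 2 from rfl, pow_mul, pow_two (T.P v), T.sq, one_pow]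
    rfl
  have hi0 : i ≠ 0 := fun h => by simp [h] at hi
  have hi4 : i ^ 4 = 1 := by linear_combination (i * i - 1) * hi
  let ie : GL ι F := ⟨i • 1, i⁻¹ • 1,
    by rw [smul_mul_assoc, one_mul, smul_smul, mul_inv_cancel₀ hi0, one_smul],
    by rw [smul_mul_assoc, one_mul, smul_smul, inv_mul_cancel₀ hi0, one_smul]⟩
  have hie : ie ∈ T.grp := ⟨i, 0, hi4, by rw [T.zero]⟩
  refine ⟨Nat.prime_two, fun x => ⟨2, hx4 x⟩, fun A hA hAc => ?_, ?_⟩
  · have hscal : ∀ a : A, ∃ c : F, ((a : T.grp) : GL ι F).val = c • (1 : Matrix ι ι F) := by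
      intro a
      obtain ⟨c, y, hc, hy⟩ := (a : T.grp).2
      by_cases hy0 : y = 0
      · exact ⟨c, by rw [hy, hy0, T.zero]⟩
      exfalso
      obtain ⟨v, hv⟩ : ∃ v, T.B y v = 1 := by
        by_contra h
        push Not at h
        exact hy0 (T.nondeg y fun w => (two_cases _).resolve_right (h w))
      have hh : T.tgl h2 hi v ∈ Subgroup.normalizer (T.grp : Set (GL ι F)) := by
        have := (T.tgl_mem_norm h2 hi v).1
        rw [← T.normalizer_grp] at this
        exact this
      set h := T.tgl h2 hi v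
      let φ : T.grp ≃* T.grp :=
        { toFun := fun r => ⟨h * r * h⁻¹, (Subgroup.mem_normalizer_iff.1 hh _).1 r.2⟩
          invFun := fun r => ⟨h⁻¹ * r * h, (Subgroup.mem_normalizer_iff.1 hh _).2 (by
            rw [show h * (h⁻¹ * r * h) * h⁻¹ = (r : GL ι F) by group]; exact r.2)⟩
          left_inv := fun r => Subtype.ext (by simp [mul_assoc])
          right_inv := fun r => Subtype.ext (by simp [mul_assoc])
          map_mul' := fun r r' => Subtype.ext (by simp [mul_assoc]) }
      have hmem : φ (a : T.grp) ∈ A := by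
        have := hA.fixed φ
        rw [SetLike.ext_iff] at this
        exact (this (a : T.grp)).2 a.2
      have hcomm := hAc.is_comm.comm a ⟨_, hmem⟩
      have e : ((a : T.grp) : GL ι F) * (h * (a : T.grp) * h⁻¹) =
          (h * (a : T.grp) * h⁻¹) * ((a : T.grp) : GL ι F) :=
        congrArg (fun z : A => ((z : T.grp) : GL ι F)) hcomm
      have e' := congrArg Units.val e
      have hc0 : c ≠ 0 := fun h0 => by simp [h0] at hc
      have hs := T.act_spec (T.tgl_mem_norm h2 hi v).1 y
      rw [(T.tgl_mem_norm h2 hi v).2, hv, one_smul] at hs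
      have hconj : ((h * (a : T.grp) * h⁻¹ : GL ι F) : Matrix ι ι F) =
          (c * T.cP h y) • T.P (y + v) := by
        rw [Units.val_mul, Units.val_mul, hy, mul_smul_comm, hs, smul_smul, smul_mul_assoc,
          Units.mul_inv_cancel_right]
      rw [Units.val_mul ((a : T.grp) : GL ι F), Units.val_mul _ ((a : T.grp) : GL ι F), hconj, hy,
        smul_mul_assoc, mul_smul_comm, smul_mul_assoc, mul_smul_comm, smul_smul, smul_smul,
        T.comm y (y + v), map_add, T.alt, zero_add, hv, sgn_one, mul_comm (c * T.cP h y) c] at e'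
      have hd : c * (c * T.cP h y) ≠ 0 :=
        mul_ne_zero hc0 (mul_ne_zero hc0 (T.coeff_ne_zero hs))
      have hne : T.P (y + v) * T.P y ≠ 0 := by
        rw [← T.coe_gl, ← T.coe_gl, ← Units.val_mul]
        exact Units.ne_zero _
      have h1 : (-1 : F) = 1 := smul_left_injective F hne (by
        show (-1 : F) • _ = (1 : F) • _
        rw [one_smul]
        exact smul_right_injective (Matrix ι ι F) hd e')
      exact h2 (by linear_combination -h1)
    obtain ⟨j₀⟩ := (inferInstance : Nonempty ι)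
    choose c hc using hscal
    have hentry : ∀ a : A, c a = ((a : T.grp) : GL ι F).val j₀ j₀ := fun a => by simp [hc a]
    have hc0 : ∀ a : A, c a ≠ 0 := fun a h0 => Units.ne_zero ((a : T.grp) : GL ι F) (by rw [hc a, h0, zero_smul])
    let χ : A →* Fˣ := MonoidHom.mk' (fun a => Units.mk0 (c a) (hc0 a)) fun a b => Units.ext (by
      show c (a * b) = c a * c b
      rw [hentry (a * b)]
      simp [hc, mul_comm])
    refine isCyclic_of_injective χ fun a b hab => ?_
    have := congrArg Units.val hab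
    exact Subtype.ext (Subtype.ext (Units.ext (by
      rw [hc a, hc b]
      exact congrArg (fun t : F => t • (1 : Matrix ι ι F)) this)))
  · rw [show Nat.gcd 2 2 = 2 from rfl]
    have hdvd : Monoid.exponent T.grp ∣ 2 ^ 2 := Monoid.exponent_dvd_of_forall_pow_eq_one hx4
    obtain ⟨j, hj, he⟩ := (Nat.dvd_prime_pow Nat.prime_two).1 hdvd
    have hnot : ¬ Monoid.exponent T.grp ∣ 2 := fun h => by
      have e := congrArg (fun z : T.grp => ((z : GL ι F) : Matrix ι ι F))
        ((Monoid.exponent_dvd_iff_forall_pow_eq_one.1 h) ⟨ie, hie⟩)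
      simp only [SubgroupClass.coe_pow, Units.val_pow_eq_pow_val] at e
      rw [show (ie : Matrix ι ι F) = i • 1 from rfl, smul_pow, one_pow, show i ^ 2 = -1 by rw [pow_two, hi]] at e
      have h1 : (-1 : F) = 1 := smul_left_injective F (one_ne_zero (α := Matrix ι ι F)) (by
        show (-1 : F) • (1 : Matrix ι ι F) = (1 : F) • 1
        rw [one_smul]; exact e)
      exact h2 (by linear_combination -h1)
    rw [he]
    interval_cases j
    · exact absurd (he ▸ dvd_trans (by norm_num) (dvd_refl 2)) hnot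
    · exact absurd (he ▸ dvd_refl 2) hnot
    · rfl

variable [Fintype F]

/-- The dichotomy from maximality in dimension four. -/
theorem unitaryFour_of {σ : F ≃+* F} {q : ℕ} (hσ : ∀ x, σ x = x ^ q) (h2 : (2 : F) ≠ 0)
    {i : F} (hi : i * i = -1) (hq : q.Prime) (hq4 : q % 4 = 3)
    (H : ∀ (p : ℕ) (R : Subgroup (Matrix.GeneralLinearGroup (Fin 4) F)), p.Prime → q = p → p % 4 = 3 → Cfsg.Geo.IsSymplecticTypeGroup 2 R → Cfsg.Geo.ActsAbsolutelyIrreducibly (Cfsg.Geo.matrixSet R) → R ≤ Cfsg.GU 4 F q → Nat.card R = 64 → Nat.card (Subgroup.center R) = 4 → Cfsg.Geo.IsMaximalIn (Cfsg.GU 4 F q ⊓ Cfsg.Geo.specialLinear (Fin 4) F) (Cfsg.Geo.subgroupNormalizer R ⊓ (Cfsg.GU 4 F q ⊓ Cfsg.Geo.specialLinear (Fin 4) F))) :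
    UnitaryFour σ := by
  intro T hT M hM hNM
  have hherm : Cfsg.hermForm 4 F q = herm σ (κ := Fin 4) := by
    funext u v
    simp [herm, Cfsg.hermForm, hσ]
  have hGU : Cfsg.GU 4 F q = isom (herm σ (κ := Fin 4)) := by rw [← hherm]; rfl
  have hle : T.grp ≤ isom (herm σ) := by
    rintro g ⟨c, v, hc, hg⟩
    refine mem_isom_iff.2 fun x y => ?_
    have e := mem_isom_iff.1 (hT v) x y
    rw [ap_def, ap_def, Pauli.coe_gl] at e
    rw [ap_def, ap_def, hg, Matrix.smul_mulVec, Matrix.smul_mulVec]
    have hcc : c * σ c = 1 := by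
      rw [hσ, ← pow_succ']
      obtain ⟨k, hk⟩ : 4 ∣ q + 1 := by omega
      rw [hk, pow_mul, hc, one_pow]
    calc herm σ (c • (T.P v).mulVec x) (c • (T.P v).mulVec y)
        = c * σ c * herm σ ((T.P v).mulVec x) ((T.P v).mulVec y) := by
          simp only [herm, Finset.mul_sum, Pi.smul_apply, smul_eq_mul, map_mul]
          exact Finset.sum_congr rfl fun _ _ => by ring
      _ = herm σ x y := by rw [hcc, one_mul, e]
  have hne : (Fintype.card (Fin 4) : F) ≠ 0 := by
    rw [Fintype.card_fin, show ((4 : ℕ) : F) = 2 * 2 by norm_num]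
    exact mul_ne_zero h2 h2
  have hcard : Nat.card T.grp = 64 := by
    rw [Subgroup.card_eq_card_quotient_mul_card_subgroup (Subgroup.center T.grp),
      T.card_center_grp h2 hi, CfsgLib.PauliFour.card_lines T.isPauli_grp h2 hne, Fintype.card_fin]
  have hm := H q T.grp hq rfl hq4 (T.isSymplecticTypeGroup_grp h2 hi)
    ⟨T.isPauli_grp.irreducible, fun X hX => T.isPauli_grp.centraliser_scalar hX⟩ (hGU ▸ hle) hcard
    (T.card_center_grp h2 hi)
  rw [hGU, T.normalizer_grp] at hm
  rcases hm.2 M hNM hM with e | e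
  · exact Or.inl (e.le.trans inf_le_left)
  · exact Or.inr e.ge

end CfsgLib.Geometric.PauliMax
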