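import Cfsg.Agent.Lib.Geometric.PauliMax.OfData
import Cfsg.Agent.Lib.Geometric.PauliMax.UnitaryFour

/-!
Normalisers of symplectic type in the special unitary group of dimension eight are maximal, given the
same in dimension four.
-/

set_option autoImplicit false

namespace CfsgLib.Geometric.PauliMax

open Cfsg.Geo CfsgLib.Geometric CfsgLib.Geometric.Unitary Module

variable {F : Type*} [Field F] [Fintype F]

/-- Some special isometry does not normalise a unitary three-qubit system. -/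
theorem exists_isomSL_notMem_norm {ι : Type} [Fintype ι] [DecidableEq ι] {σ : F ≃+* F}
    {f : (ι → F) → (ι → F) → F} (hh : IsUnitaryForm σ f) (hι : Fintype.card ι = 8) (h2 : (2 : F) ≠ 0)
    (S : Pauli (Fin 6 → ZMod 2) ι F) (hS : S.IsUnitary f) :
    ∃ g ∈ isom f ⊓ specialLinear ι F, g ∉ S.norm := by
  classical
  obtain ⟨ζ, hζ, hσζ⟩ := exists_skew_scalar hh.ne_refl hh.involutive
  have hf := isSkewForm_smul hh hζ hσζ
  set a₀ : Fin 6 → ZMod 2 := Pi.single 0 1 with ha₀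
  have hSf : S.gl a₀ ∈ isom (fun u v => ζ * f u v) := by rw [isom_smul _ hζ]; exact hS a₀
  have hn3 : 3 ≤ Fintype.card ι := by omega
  obtain ⟨z, hz, hz0, hzP⟩ : ∃ z : ι → F, ζ * f z z = 0 ∧ z ≠ 0 ∧ ∀ c : F, ap (S.gl a₀) z ≠ c • z := by
    by_contra hcon
    push Not at hcon
    obtain ⟨c, hc⟩ := CfsgLib.ClassicalForms.exists_scalar_of_fix_isotropic hf hn3 hSf hcon
    have : S.P a₀ = c • S.P 0 := by
      rw [S.zero]
      refine Matrix.ext_of_mulVec_single fun j => ?_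
      rw [Matrix.smul_mulVec, Matrix.one_mulVec, ← S.coe_gl, ← ap_def, hc]
    have := congrFun (S.eq_of_smul_P this) 0
    simp [ha₀] at this
  have hT : T hf z 1 hz ∈ isom f ⊓ specialLinear ι F :=
    ⟨by rw [← isom_smul f hζ]; exact T_mem_isom hf hz (map_one σ), T_mem_specialLinear hf hz⟩
  refine ⟨_, hT, fun hN => ?_⟩
  set z' := ap (S.gl a₀) z with hz'
  have hPP : ∀ w, ap (S.gl a₀) (ap (S.gl a₀) w) = w := fun w => by
    conv_lhs => enter [2]; rw [← S.gl_inv a₀]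
    rw [← ap_mul, mul_inv_cancel, ap_one]
  -- the common fixed space
  let φ : (ι → F) →ₗ[F] (Fin 2 → F) := LinearMap.pi ![fl hf z, fl hf z']
  set W := LinearMap.ker φ with hW
  have hmemW : ∀ x, x ∈ W → ζ * f x z = 0 ∧ ζ * f x z' = 0 := fun x hx => by
    have h := LinearMap.mem_ker.1 hx
    exact ⟨congrFun h 0, congrFun h 1⟩
  have hW6 : 6 ≤ finrank F W := by
    have h1 := LinearMap.finrank_range_add_finrank_ker φ
    have h2 := Submodule.finrank_le (LinearMap.range φ)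
    rw [Module.finrank_fintype_fun_eq_card, hι] at h1
    rw [Module.finrank_fin_fun] at h2
    rw [hW]
    omega
  -- the commutator with a Pauli matrix
  set X : GL ι F := T hf z 1 hz * (S.gl a₀ * (T hf z 1 hz)⁻¹ * S.gl a₀) with hX
  have hXW : ∀ x ∈ W, ap X x = x := by
    intro x hx
    obtain ⟨h1, h2'⟩ := hmemW x hx
    have hPx : ζ * f (ap (S.gl a₀) x) z = 0 := by
      have e := mem_isom_iff.1 hSf (ap (S.gl a₀) x) z
      rw [hPP] at e
      rw [← e]; exact h2'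
    have hTi : ap (T hf z 1 hz)⁻¹ (ap (S.gl a₀) x) = ap (S.gl a₀) x := by
      refine ap_injective (T hf z 1 hz) ?_
      rw [ap_ap_inv, ap_T hf, one_mul, hPx, zero_smul, add_zero]
    rw [hX, ap_mul, ap_mul, ap_mul, hTi, hPP, ap_T hf, one_mul, h1, zero_smul, add_zero]
  obtain ⟨w, k, hXk⟩ : ∃ (w : Fin 6 → ZMod 2) (k : F), (X : Matrix ι ι F) = k • S.P w := by
    have hr := S.act_spec (inv_mem hN) a₀
    obtain ⟨c, -, hc⟩ := S.P_add_coeff (S.sP (T hf z 1 hz)⁻¹ a₀) a₀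
    have hTN := S.act_spec hN a₀
    obtain ⟨d, hd0, hd⟩ := S.P_add_coeff (S.sP (T hf z 1 hz) a₀) a₀
    refine ⟨S.sP (T hf z 1 hz) a₀ + a₀, S.cP (T hf z 1 hz) a₀ * d⁻¹, ?_⟩
    rw [hX, Units.val_mul, Units.val_mul, Units.val_mul, Pauli.coe_gl, ← mul_assoc, ← mul_assoc, hTN,
      smul_mul_assoc, Units.mul_inv_cancel_right, smul_mul_assoc, hd, smul_smul, mul_assoc,
      inv_mul_cancel₀ hd0, mul_one]
  have : Nonempty ι := Fintype.card_pos_iff.1 (by omega)
  obtain ⟨x₁, hx₁, hx₁0⟩ : ∃ x ∈ W, x ≠ 0 := Submodule.exists_mem_ne_zero_of_ne_bot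
    fun h => by rw [h, finrank_bot] at hW6; omega
  by_cases hw : w = 0
  · have hk1 : k = 1 := by
      have e := hXW x₁ hx₁
      rw [ap_def, hXk, hw, S.zero, Matrix.smul_mulVec, Matrix.one_mulVec] at e
      exact smul_left_injective F hx₁0 (show k • x₁ = (1 : F) • x₁ by rw [one_smul]; exact e)
    have hX1 : X = 1 := Units.ext (by rw [hXk, hw, S.zero, hk1, one_smul]; rfl)
    have hcomm : ∀ x, ap (T hf z 1 hz) (ap (S.gl a₀) x) = ap (S.gl a₀) (ap (T hf z 1 hz) x) := by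
      intro x
      have e : T hf z 1 hz * S.gl a₀ = S.gl a₀ * T hf z 1 hz := by
        have h := hX1
        rw [hX, mul_eq_one_iff_eq_inv, mul_inv_rev, mul_inv_rev, inv_inv, S.gl_inv] at h
        calc T hf z 1 hz * S.gl a₀ = S.gl a₀ * (T hf z 1 hz * S.gl a₀) * S.gl a₀ := by rw [← h]
          _ = _ := by
            rw [mul_assoc, mul_assoc, show S.gl a₀ * S.gl a₀ = 1 from Units.ext (S.sq a₀), mul_one]
      rw [← ap_mul, e, ap_mul]
    obtain ⟨x, hx⟩ := (hf.nondegenerate z hz0).1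
    have e := hcomm x
    rw [ap_T hf, ap_T hf, ap_add, ap_smul, one_mul, one_mul] at e
    refine hzP ((ζ * f x z)⁻¹ * (ζ * f (ap (S.gl a₀) x) z)) ?_
    rw [mul_smul, add_left_cancel e, inv_smul_smul₀ hx]
  obtain ⟨s, hs⟩ : ∃ s, S.B w s = 1 := by
    by_contra h
    push Not at h
    exact hw (S.nondeg w fun t => (two_cases _).resolve_right (h t))
  let L := (apEquiv (S.gl s)).toLinearMap
  have hdisj : W ⊓ W.map L = ⊥ := by
    rw [Submodule.eq_bot_iff]
    rintro _ ⟨h1, x, hx, rfl⟩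
    have e1 := hXW x hx
    have e2 := hXW _ h1
    simp only [L, LinearEquiv.coe_coe, apEquiv_apply] at e2 ⊢
    rw [ap_def, hXk] at e1
    rw [ap_def X, hXk, ap_def (S.gl s), Pauli.coe_gl, Matrix.mulVec_mulVec, smul_mul_assoc, S.comm w s, hs,
      sgn_one, smul_smul, mul_comm k, ← smul_smul, ← Matrix.mul_smul, Matrix.smul_mulVec,
      ← Matrix.mulVec_mulVec, e1, neg_one_smul] at e2
    rw [ap_def, Pauli.coe_gl]
    have h3 : (2 : F) • (S.P s).mulVec x = 0 := by
      rw [two_smul]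
      nth_rewrite 1 [← e2]
      exact neg_add_cancel _
    exact (smul_eq_zero.1 h3).resolve_left h2
  have h1 := Submodule.finrank_sup_add_finrank_inf_eq W (W.map L)
  rw [hdisj, finrank_bot, add_zero, LinearEquiv.finrank_map_eq (apEquiv (S.gl s))] at h1
  have h4 := Submodule.finrank_le (W ⊔ W.map L)
  rw [Module.finrank_fintype_fun_eq_card, hι] at h4
  omega

/-- Item eleven of the list for dimension eight, from the corresponding item for dimension four. -/
theorem unitary_item11_of {q : ℕ} (hF : Fintype.card F = q ^ 2)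
    (H : ∀ (p : ℕ) (R : Subgroup (Matrix.GeneralLinearGroup (Fin 4) F)), p.Prime → q = p → p % 4 = 3 → Cfsg.Geo.IsSymplecticTypeGroup 2 R → Cfsg.Geo.ActsAbsolutelyIrreducibly (Cfsg.Geo.matrixSet R) → R ≤ Cfsg.GU 4 F q → Nat.card R = 64 → Nat.card (Subgroup.center R) = 4 → Cfsg.Geo.IsMaximalIn (Cfsg.GU 4 F q ⊓ Cfsg.Geo.specialLinear (Fin 4) F) (Cfsg.Geo.subgroupNormalizer R ⊓ (Cfsg.GU 4 F q ⊓ Cfsg.Geo.specialLinear (Fin 4) F))) :
    ∀ (p : ℕ) (R : Subgroup (Matrix.GeneralLinearGroup (Fin 8) F)), p.Prime → q = p → p % 4 = 3 → Cfsg.Geo.IsSymplecticTypeGroup 2 R → Cfsg.Geo.ActsAbsolutelyIrreducibly (Cfsg.Geo.matrixSet R) → R ≤ Cfsg.GU 8 F q → Nat.card R = 256 → Nat.card (Subgroup.center R) = 4 → Cfsg.Geo.IsMaximalIn (Cfsg.GU 8 F q ⊓ Cfsg.Geo.specialLinear (Fin 8) F) (Cfsg.Geo.subgroupNormalizer R ⊓ (Cfsg.GU 8 F q ⊓ Cfsg.Geo.specialLinear (Fin 8) F)) := by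
  classical
  intro p R hp hqp h4 hRs hRi hle _ hz
  subst hqp
  obtain ⟨σ, hσ, hh⟩ := CfsgLib.Geometric.isUnitaryForm_hermForm (F := F) 8 q hF
  have h2 : (2 : F) ≠ 0 := by
    intro h
    have h' : ringChar F = 2 := CharP.ringChar_of_prime_eq_zero Nat.prime_two (by exact_mod_cast h)
    have h3 := FiniteField.even_card_of_char_two h'
    rw [hF, Nat.pow_mod] at h3
    rw [show q % 2 = 1 by omega] at h3
    simp at h3
  obtain ⟨i, hi⟩ : ∃ i : F, i * i = -1 := by
    have hcard : Fintype.card F % 4 ≠ 3 := by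
      rw [hF, Nat.pow_mod, h4]
      norm_num
    obtain ⟨i, hi⟩ := FiniteField.isSquare_neg_one_iff.2 hcard
    exact ⟨i, hi.symm⟩
  have hσi : σ i = -i := by
    rw [hσ]
    conv_lhs => rw [← Nat.div_add_mod q 4, h4]
    rw [pow_add, pow_mul, show i ^ 4 = 1 by linear_combination (i * i - 1) * hi, one_pow, one_mul]
    linear_combination i * hi
  obtain ⟨S, hSn, hSR⟩ := exists_pauli_mem_of_sympType (F := F) (ι := Fin 8) 3 (by norm_num) (by simp) h2
    hRs hRi hz
  have hI : Cfsg.GU 8 F q = isom (Cfsg.hermForm 8 F q) := rfl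
  have hS : S.IsUnitary (Cfsg.hermForm 8 F q) := fun v => hle (hSR v)
  rw [hI, hSn]
  refine ⟨lt_of_le_of_ne inf_le_right fun e => ?_, fun M h1 h2' => ?_⟩
  · obtain ⟨g, hg, hgN⟩ := exists_isomSL_notMem_norm hh (Fintype.card_fin 8) h2 S hS
    exact hgN (e.ge hg).1
  · rcases unitary_dichotomy_three hF hσ (Fintype.card_fin 8) hh h2 hi hσi S hS
        (unitaryFour_of hσ h2 hi hp h4 H) h2' h1 with h | h
    · exact Or.inl (le_antisymm (le_inf h h2') h1)
    · exact Or.inr (le_antisymm h2' h)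

end CfsgLib.Geometric.PauliMax
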